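import Cfsg.Agent.Lib.Geometric.SLFour.StandardGroup
import Cfsg.Agent.Lib.PauliFour.Lines

/-!
Transfer of maximality from the normaliser of the standard Pauli group to any group of the same
type.
-/

set_option autoImplicit false

namespace CfsgLib.Geometric.SLFour

open scoped Matrix
open Cfsg.Geo CfsgLib.SmallDim CfsgLib.PauliFour

lemma isMaximalIn_map {G : Type*} [Group G] (φ : G ≃* G) {K H : Subgroup G}
    (h : IsMaximalIn K H) : IsMaximalIn (K.map φ.toMonoidHom) (H.map φ.toMonoidHom) := by
  have hinj : Function.Injective φ.toMonoidHom := φ.injective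
  refine ⟨(Subgroup.map_lt_map_iff_of_injective hinj).2 h.1, fun M hH hK => ?_⟩
  have hM : (M.comap φ.toMonoidHom).map φ.toMonoidHom = M :=
    Subgroup.map_comap_eq_self_of_surjective φ.surjective M
  rw [← hM] at hH hK ⊢
  rcases h.2 _ ((Subgroup.map_le_map_iff_of_injective hinj).1 hH)
      ((Subgroup.map_le_map_iff_of_injective hinj).1 hK) with e | e <;> rw [e] <;> simp

variable {F : Type*} [Field F] [Fintype F]

/-- The data of the sixth type in dimension four: a Pauli group with centre of order four in odd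
characteristic. -/
lemma isPauli_of_data {R : Subgroup (GL (Fin 4) F)} (hR : IsLinearSymplecticTypeData 2 R) :
    IsPauli R ∧ Nat.card (Subgroup.center R) = 4 ∧ (2 : F) ≠ 0 := by
  refine ⟨isPauli_of_sympType (by simp) hR.symplecticType hR.absIrred, ?_⟩
  obtain ⟨p, e, hp2, ⟨hp, hchar, -⟩, h⟩ := hR.field
  refine ⟨?_, fun h2 => hp2 ?_⟩
  · rcases h with ⟨h', -⟩ | ⟨-, -, h4, -⟩ | ⟨-, -, h', -⟩
    · exact absurd h' (by decide)
    · exact h4
    · simp at h'
  · haveI := hchar
    exact ((Nat.prime_dvd_prime_iff_eq hp Nat.prime_two).1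
      ((CharP.cast_eq_zero_iff F p 2).1 (by exact_mod_cast h2))).symm

/-- It suffices to prove maximality for the standard group. -/
theorem isMaximalIn_normalizer_of_std
    (h : (2 : F) ≠ 0 → IsMaximalIn (Cfsg.Geo.specialLinear (Fin 4) F)
      (subgroupNormalizer (stdPauli F) ⊓ Cfsg.Geo.specialLinear (Fin 4) F))
    {R : Subgroup (GL (Fin 4) F)} (hR : IsLinearSymplecticTypeData 2 R) :
    IsMaximalIn (Cfsg.Geo.specialLinear (Fin 4) F)
      (subgroupNormalizer R ⊓ Cfsg.Geo.specialLinear (Fin 4) F) := by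
  obtain ⟨hP, hZ, h2⟩ := isPauli_of_data hR
  obtain ⟨P, hRP⟩ := exists_conj_stdPauli hP hZ h2
  have hSL : (Cfsg.Geo.specialLinear (Fin 4) F).map (MulAut.conj P).toMonoidHom =
      Cfsg.Geo.specialLinear (Fin 4) F := by
    ext x
    rw [Subgroup.mem_map_equiv, MulAut.conj_symm_apply, mem_specialLinear_iff, mem_specialLinear_iff,
      Units.val_mul, Units.val_mul, Matrix.det_units_conj']
  have hN : subgroupNormalizer R = (subgroupNormalizer (stdPauli F)).map (MulAut.conj P).toMonoidHom := by
    rw [hRP]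
    exact (Subgroup.map_equiv_normalizer_eq (stdPauli F) (MulAut.conj P)).symm
  have h' := isMaximalIn_map (MulAut.conj P) (h h2)
  rwa [hSL, Subgroup.map_inf_eq _ _ _ (MulAut.conj P).injective, hSL, ← hN] at h'

end CfsgLib.Geometric.SLFour
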