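import Cfsg.Agent.Lib.Geometric.SLFour.Mono
import Cfsg.Agent.Lib.Geometric.SLFour.StandardTransfer

/-!
The standard Pauli group in the frame notation, and the transfer of maximality of its monomial
normaliser to every group of the same type.
-/

set_option autoImplicit false

namespace CfsgLib.Geometric.SLFour

open scoped Matrix
open Cfsg.Geo

variable {F : Type*} [Field F] {ι : F}

local notation "M₄" => Matrix (Fin 4) (Fin 4) F

lemma Zf_sq : (Zf : M₄) * Zf = 1 := by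
  ext i j; fin_cases i <;> fin_cases j <;> simp [Zf, Matrix.mul_apply, Fin.sum_univ_four]

lemma Zs_sq : (Zs : M₄) * Zs = 1 := by
  ext i j; fin_cases i <;> fin_cases j <;> simp [Zs, Matrix.mul_apply, Fin.sum_univ_four]

lemma Xf_sq : (Xf : M₄) * Xf = 1 := by
  ext i j; fin_cases i <;> fin_cases j <;> simp [Xf, Matrix.mul_apply, Fin.sum_univ_four]

lemma Xs_sq : (Xs : M₄) * Xs = 1 := by
  ext i j; fin_cases i <;> fin_cases j <;> simp [Xs, Matrix.mul_apply, Fin.sum_univ_four]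

/-- An involutory matrix as a unit. -/
def invol (T : M₄) (h : T * T = 1) : GL (Fin 4) F := ⟨T, T, h, h⟩

@[simp] lemma coe_invol (T : M₄) (h : T * T = 1) : ((invol T h : GL (Fin 4) F) : M₄) = T := rfl

variable (hι : ι * ι = -1) (h2 : (2 : F) ≠ 0)
include hι h2

/-- The two descriptions of the standard Pauli group agree. -/
lemma stdPauli_eq_Rstd : stdPauli F = Rstd hι h2 := by
  have hi : ι ≠ 0 := fun h0 => by simp [h0] at hι
  have hi4 : ι ^ 4 = 1 := by linear_combination (ι * ι - 1) * hι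
  have hm4 : (-1 : F) ^ 4 = 1 := by norm_num
  have hz03 : ι • px ι 0 3 = (Zf : M₄) := by
    rw [px03 hι]; ext i j
    fin_cases i <;> fin_cases j <;> simp [Zf, hι]
  have hz14 : ι • px ι 1 4 = (Zs : M₄) := by
    rw [px14 hι]; ext i j
    fin_cases i <;> fin_cases j <;> simp [Zs, hι]
  have e02 : px ι 0 2 = (-1 : F) • ((Zf : M₄) * Zs * Xf) := by
    rw [px02 hι]; ext i j
    fin_cases i <;> fin_cases j <;> simp [Zf, Zs, Xf, Matrix.mul_apply, Fin.sum_univ_four]
  have e01 : px ι 0 1 = (Zf : M₄) * Xf * Xs := by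
    rw [px01 hι]; ext i j
    fin_cases i <;> fin_cases j <;> simp [Zf, Xf, Xs, Matrix.mul_apply, Fin.sum_univ_four]
  have e25 : px ι 2 5 = (-ι) • ((Zf : M₄) * Zs) := by
    rw [px25 hι]; ext i j
    fin_cases i <;> fin_cases j <;> simp [Zf, Zs, Matrix.mul_apply, Fin.sum_univ_four]
  refine le_antisymm ((Subgroup.closure_le _).2 ?_) fun g hg => ?_
  · have mZf : invol Zf Zf_sq ∈ Rstd hι h2 := ⟨ι, 0, 3, hi4, hz03.symm⟩
    have mZs : invol Zs Zs_sq ∈ Rstd hι h2 := ⟨ι, 1, 4, hi4, hz14.symm⟩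
    have mXf : invol Xf Xf_sq ∈ Rstd hι h2 := by
      have : invol Zs Zs_sq * invol Zf Zf_sq * pxu hι 2 0 = invol Xf Xf_sq := Units.ext (by
        simp only [Units.val_mul, coe_invol, coe_pxu, px_swap hι (show (0 : Fin 6) ≠ 2 by decide),
          e02, neg_one_smul, neg_neg]
        simp only [← mul_assoc]
        rw [mul_assoc Zs Zf Zf, Zf_sq, mul_one, Zs_sq, one_mul])
      exact this ▸ mul_mem (mul_mem mZs mZf) (isStd_pxu hι h2 2 0)
    have mXs : invol Xs Xs_sq ∈ Rstd hι h2 := by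
      have : invol Xf Xf_sq * invol Zf Zf_sq * pxu hι 0 1 = invol Xs Xs_sq := Units.ext (by
        simp only [Units.val_mul, coe_invol, coe_pxu, e01, ← mul_assoc]
        rw [mul_assoc Xf Zf Zf, Zf_sq, mul_one, Xf_sq, one_mul])
      exact this ▸ mul_mem (mul_mem mXf mZf) (isStd_pxu hι h2 0 1)
    rintro x (⟨c, hc, hx⟩ | hx | hx | hx | hx)
    · exact ⟨c, 0, 0, hc, by rw [hx, px_self hι]⟩
    exacts [(Units.ext hx : x = invol Zf Zf_sq) ▸ mZf, (Units.ext hx : x = invol Xf Xf_sq) ▸ mXf,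
      (Units.ext hx : x = invol Zs Zs_sq) ▸ mZs, (Units.ext hx : x = invol Xs Xs_sq) ▸ mXs]
  have gZf : invol Zf Zf_sq ∈ stdPauli F := Subgroup.subset_closure (Or.inr (Or.inl rfl))
  have gXf : invol Xf Xf_sq ∈ stdPauli F := Subgroup.subset_closure (Or.inr (Or.inr (Or.inl rfl)))
  have gZs : invol Zs Zs_sq ∈ stdPauli F :=
    Subgroup.subset_closure (Or.inr (Or.inr (Or.inr (Or.inl rfl))))
  have gXs : invol Xs Xs_sq ∈ stdPauli F :=
    Subgroup.subset_closure (Or.inr (Or.inr (Or.inr (Or.inr rfl))))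
  have hsmul : ∀ {x y : GL (Fin 4) F} {c : F}, c ^ 4 = 1 → (x : M₄) = c • (y : M₄) →
      y ∈ stdPauli F → x ∈ stdPauli F := fun {x y c} hc h hy => by
    have hxy : ((x * y⁻¹ : GL (Fin 4) F) : M₄) = c • 1 := by
      rw [Units.val_mul, h, Matrix.smul_mul, Units.mul_inv]
    simpa using mul_mem (scalar_mem_stdPauli hc hxy) hy
  have h01 : pxu hι 0 1 ∈ stdPauli F := by
    refine (Units.ext ?_ : pxu hι 0 1 = invol Zf Zf_sq * invol Xf Xf_sq * invol Xs Xs_sq) ▸
      mul_mem (mul_mem gZf gXf) gXs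
    simp [coe_pxu, e01]
  have h02 : pxu hι 0 2 ∈ stdPauli F :=
    hsmul (y := invol Zf Zf_sq * invol Zs Zs_sq * invol Xf Xf_sq) hm4
      (by simp [coe_pxu, e02]) (mul_mem (mul_mem gZf gZs) gXf)
  have hni4 : (-ι) ^ 4 = 1 := by linear_combination hi4
  have hdiv : ∀ {a b : Fin 6} {T : M₄} (hT : T * T = 1), ι • px ι a b = T →
      invol T hT ∈ stdPauli F → pxu hι a b ∈ stdPauli F := fun {a b T} hT h hm =>
    hsmul (y := invol T hT) hni4 (by
      rw [coe_pxu, coe_invol, ← h, smul_smul, neg_mul, hι, neg_neg, one_smul]) hm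
  have h03 : pxu hι 0 3 ∈ stdPauli F := hdiv Zf_sq hz03 gZf
  have h04 : pxu hι 0 4 ∈ stdPauli F := by
    rw [← pxu_mul hι 0 1 4]; exact mul_mem h01 (hdiv Zs_sq hz14 gZs)
  have h05 : pxu hι 0 5 ∈ stdPauli F := by
    rw [← pxu_mul hι 0 2 5]
    exact mul_mem h02 (hsmul (y := invol Zf Zf_sq * invol Zs Zs_sq) hni4 (by simp [coe_pxu, e25])
      (mul_mem gZf gZs))
  have hall : ∀ b, pxu hι 0 b ∈ stdPauli F := by
    intro b
    match b with
    | 0 => rw [pxu_self]; exact one_mem _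
    | 1 => exact h01
    | 2 => exact h02
    | 3 => exact h03
    | 4 => exact h04
    | 5 => exact h05
  obtain ⟨c, a, b, hc, hgv⟩ := hg
  refine hsmul (y := pxu hι a b) hc (by rw [coe_pxu, hgv]) ?_
  rw [← pxu_mul hι a 0 b, ← pxu_inv hι 0 a]
  exact mul_mem (inv_mem (hall a)) (hall b)

omit hι h2

/-- Maximality for every group of the type follows from that for the standard monomial group. -/
theorem symplecticType_isMaximalIn_of_std [Fintype F] {p : ℕ} (hp : p.Prime)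
    (hF : Fintype.card F = p) (h4 : p % 4 = 1) {R : Subgroup (GL (Fin 4) F)}
    (hR : IsLinearSymplecticTypeData 2 R)
    (H : ∀ (ι : F) (hι : ι * ι = -1) (h2 : (2 : F) ≠ 0),
      IsMaximalIn (Cfsg.Geo.specialLinear (Fin 4) F) (Nstd hι h2)) :
    IsMaximalIn (Cfsg.Geo.specialLinear (Fin 4) F)
      (subgroupNormalizer R ⊓ Cfsg.Geo.specialLinear (Fin 4) F) := by
  obtain ⟨hP, hZ, h2⟩ := isPauli_of_data hR
  obtain ⟨-, i, hi⟩ := CfsgLib.PauliFour.scalars_of_card_center hP hZ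
  refine isMaximalIn_normalizer_of_std (fun _ => ?_) hR
  have e : subgroupNormalizer (stdPauli F) ⊓ Cfsg.Geo.specialLinear (Fin 4) F = Nstd hi h2 := by
    ext g
    rw [stdPauli_eq_Rstd hi h2, Subgroup.mem_inf, mem_Nstd_iff_normalizer, mem_specialLinear_iff]
    rfl
  rw [e]
  exact H i hi h2

end CfsgLib.Geometric.SLFour
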