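import Mathlib
import Cfsg.Agent.Lib.SL2.Dickson.Classification
import Cfsg.Agent.Lib.SL2.Card
import Cfsg.Agent.Lib.ClassicalLinear.UnipotentTwo
import Cfsg.Agent.Lib.ClassicalLinear.Generation

/-!
Consequences of Dickson's list for subgroups of `SL₂(p)` containing a diagonal element of order four.
-/

set_option autoImplicit false
set_option linter.unusedSectionVars false

namespace CfsgLib.Geometric.SLFour

open Matrix CfsgLib.SL2 CfsgLib.SL2.Dickson
open scoped MatrixGroups

variable {F : Type*} [Field F] {p : ℕ}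

local notation "SL₂F" => Matrix.SpecialLinearGroup (Fin 2) F
local notation "M₂" => Matrix (Fin 2) (Fin 2) F

/-- In a normal subgroup of index three lie all involutions. -/
lemma mem_of_mul_self_eq_one {Q : Type*} [Group Q] (N : Subgroup Q) [N.Normal] (h3 : N.index = 3)
    {x : Q} (hx : x * x = 1) : x ∈ N := by
  have h := pow_card_eq_one' (x := (x : Q ⧸ N))
  rw [← Subgroup.index_eq_card, h3, pow_succ, pow_two, ← QuotientGroup.mk_mul, hx,
    QuotientGroup.mk_one, one_mul] at h
  exact (QuotientGroup.eq_one_iff x).1 h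

lemma perm_four_two_involutions :
    ∀ y : Equiv.Perm (Fin 4), ∃ a, a * a = 1 ∧ a * y * (a * y) = 1 := by decide +kernel

lemma alternating_five_two_involutions :
    ∀ y : alternatingGroup (Fin 5), ∃ a, a * a = 1 ∧ a * y * (a * y) = 1 := by decide +kernel

lemma alternating_four_orders :
    ∀ x : alternatingGroup (Fin 4), x ^ 2 = 1 ∨ x ^ 3 = 1 := by decide +kernel

lemma perm_four_orders :
    ∀ x : Equiv.Perm (Fin 4), x ^ 2 = 1 ∨ x ^ 3 = 1 ∨ x ^ 4 = 1 := by decide +kernel

lemma alternating_five_orders :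
    ∀ x : alternatingGroup (Fin 5), x ^ 2 = 1 ∨ x ^ 3 = 1 ∨ x ^ 5 = 1 := by decide +kernel

/-- No group generated by pairs of involutions has a normal subgroup of index three. -/
lemma false_of_index_three {Q : Type*} [Group Q] (hQ : ∀ y : Q, ∃ a, a * a = 1 ∧ a * y * (a * y) = 1)
    (N : Subgroup Q) [N.Normal] (h3 : N.index = 3) : False := by
  have : N = ⊤ := eq_top_iff.2 fun y _ => by
    obtain ⟨a, ha, hay⟩ := hQ y
    have h := N.mul_mem (mem_of_mul_self_eq_one N h3 ha) (mem_of_mul_self_eq_one N h3 hay)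
    rwa [← mul_assoc, ha, one_mul] at h
  rw [this, Subgroup.index_top] at h3
  omega

/-- An element of prime order normalising `H` but outside it. -/
lemma sup_zpowers_index {G : Type*} [Group G] (H : Subgroup G) {x : G} {r : ℕ} (hr : r.Prime)
    (hxr : x ^ r = 1) (hx : x ∈ Subgroup.normalizer (H : Set G)) (hxH : x ∉ H) :
    (H.subgroupOf (H ⊔ Subgroup.zpowers x)).Normal ∧
      (H.subgroupOf (H ⊔ Subgroup.zpowers x)).index = r := by
  set K := H ⊔ Subgroup.zpowers x with hK
  have hKN : K ≤ Subgroup.normalizer (H : Set G) :=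
    sup_le Subgroup.le_normalizer (Subgroup.zpowers_le.2 hx)
  haveI hn : (H.subgroupOf K).Normal := Subgroup.normal_subgroupOf_of_le_normalizer hKN
  refine ⟨hn, ?_⟩
  set x' : K := ⟨x, le_sup_right (a := H) (Subgroup.mem_zpowers x)⟩ with hx'
  set q := QuotientGroup.mk' (H.subgroupOf K)
  haveI : Fact r.Prime := ⟨hr⟩
  have h1 : q x' ≠ 1 := fun h => hxH (Subgroup.mem_subgroupOf.1 ((QuotientGroup.eq_one_iff x').1 h))
  have h2 : q x' ^ r = 1 := by
    rw [← map_pow, show x' ^ r = 1 from Subtype.ext hxr, map_one]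
  have hgen : ∀ z, z ∈ Subgroup.zpowers (q x') := by
    intro z
    obtain ⟨⟨y, hy⟩, rfl⟩ := QuotientGroup.mk_surjective z
    obtain ⟨n, hn', m, hm, hnm⟩ :=
      (Set.ext_iff.1 (Subgroup.coe_mul_of_right_le_normalizer_left H (Subgroup.zpowers x)
        (Subgroup.zpowers_le.2 hx)) y).1 hy
    obtain ⟨i, hi⟩ := hm
    refine ⟨i, ?_⟩
    simp only at hi hnm
    have e : (⟨y, hy⟩ : K) = ⟨n, le_sup_left (b := Subgroup.zpowers x) hn'⟩ * x' ^ i :=
      Subtype.ext (by simp [hx', hi, hnm])
    change q x' ^ i = q ⟨y, hy⟩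
    rw [e, map_mul, map_zpow]
    rw [show q ⟨n, _⟩ = 1 from (QuotientGroup.eq_one_iff _).2 (Subgroup.mem_subgroupOf.2 hn'), one_mul]
  rw [Subgroup.index_eq_card, ← orderOf_eq_card_of_forall_mem_zpowers hgen, orderOf_eq_prime h2 h1]

variable [Fintype F] (hF : Fintype.card F = p) (hp : p.Prime) (hp4 : p % 4 = 1)
  {ι : F} (hι : ι * ι = -1)
include hF hp hp4

lemma five_le : 5 ≤ p := by have := hp.two_le; omega

lemma charP_of_card : CharP F p := by
  haveI : Fact p.Prime := ⟨hp⟩
  exact charP_of_card_eq_prime (R := F) (p := p) hF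

lemma two_ne_zero' : (2 : F) ≠ 0 := fun h => by
  haveI := charP_of_card hF hp hp4
  have h2 := (CharP.cast_eq_zero_iff F p 2).1 (by exact_mod_cast h)
  have := Nat.le_of_dvd (by norm_num) h2
  have := five_le hF hp hp4
  omega

include hι

lemma iota_ne_zero : ι ≠ 0 := fun h => by
  rw [h, zero_mul] at hι
  exact one_ne_zero (neg_eq_zero.1 hι.symm)

variable {H : Subgroup (Matrix.SpecialLinearGroup (Fin 2) F)} {I : Matrix.SpecialLinearGroup (Fin 2) F}
  (hI : (I : Matrix (Fin 2) (Fin 2) F) = !![ι, 0; 0, -ι]) (hIH : I ∈ H)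
include hI hIH

lemma center_le : Subgroup.center SL₂F ≤ H := by
  intro z hz
  rcases (mem_center_iff z).1 hz with rfl | rfl
  · exact one_mem H
  · have : (-1 : SL₂F) = I * I := Subtype.ext (by
      rw [Matrix.SpecialLinearGroup.coe_mul, hI]
      ext i j; fin_cases i <;> fin_cases j <;> simp [Matrix.mul_apply, hι])
    exact this ▸ mul_mem hIH hIH

/-- A second element with both off-diagonal entries nonzero excludes a fixed point. -/
lemma not_borel {g : SL₂F} (hg : g ∈ H) (hb : (g : M₂) 0 1 ≠ 0) (hc : (g : M₂) 1 0 ≠ 0) :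
    ¬ IsBorelCase H := by
  rintro ⟨u, hu⟩
  have key : ∀ h ∈ H, (u : M₂) 1 0 * ((h : M₂) 0 0 * (u : M₂) 1 1 - (h : M₂) 0 1 * (u : M₂) 1 0) +
      (u : M₂) 1 1 * ((h : M₂) 1 0 * (u : M₂) 1 1 - (h : M₂) 1 1 * (u : M₂) 1 0) = 0 := by
    intro h hh
    have h1 := mem_borel.1 (hu h hh)
    simp [Matrix.mul_apply, Fin.sum_univ_two, Matrix.adjugate_fin_two] at h1
    linear_combination h1
  have h1 := key I hIH
  have h2 := key g hg
  rw [hI] at h1
  simp at h1
  have h1' : (2 * ι) * ((u : M₂) 1 0 * (u : M₂) 1 1) = 0 := by linear_combination h1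
  rcases mul_eq_zero.1 ((mul_eq_zero.1 h1').resolve_left
    (mul_ne_zero (two_ne_zero' hF hp hp4) (iota_ne_zero hF hp hp4 hι))) with h | h
  · have hd := det_eq u
    rw [h, mul_zero, sub_zero] at hd
    have h0 : (u : M₂) 1 1 ≠ 0 := fun e => by rw [e, mul_zero] at hd; exact zero_ne_one hd
    rw [h] at h2
    simp [h0] at h2
    exact hc h2
  · have hd := det_eq u
    rw [h, mul_zero, zero_sub] at hd
    have h0 : (u : M₂) 1 0 ≠ 0 := fun e => by rw [e, mul_zero, neg_zero] at hd; exact zero_ne_one hd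
    rw [h] at h2
    simp [h0] at h2
    exact hb h2

/-- The shape of a torus generator normalised by `H`. -/
lemma torus_shape (hT : IsTorusCase H) :
    ∃ x y z w : F, ((y = 0 ∧ z = 0 ∧ x ≠ w) ∨ ((y ≠ 0 ∨ z ≠ 0) ∧ x = w)) ∧
      ∀ g ∈ H, ((g : M₂) 0 1 * z = y * (g : M₂) 1 0 ∧
          (g : M₂) 0 0 * y + (g : M₂) 0 1 * w = x * (g : M₂) 0 1 + y * (g : M₂) 1 1 ∧
          (g : M₂) 1 0 * x + (g : M₂) 1 1 * z = z * (g : M₂) 0 0 + w * (g : M₂) 1 0) ∨
        ((g : M₂) 0 0 * x + (g : M₂) 0 1 * z = w * (g : M₂) 0 0 - y * (g : M₂) 1 0 ∧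
          y * ((g : M₂) 0 0 + (g : M₂) 1 1) = 0 ∧ z * ((g : M₂) 0 0 + (g : M₂) 1 1) = 0 ∧
          (g : M₂) 1 0 * y + (g : M₂) 1 1 * w = -(z * (g : M₂) 0 1) + x * (g : M₂) 1 1) := by
  obtain ⟨g₀, hg₀, ht, hN⟩ := hT
  set A := ((g₀ : SL₂F) : M₂) with hA
  refine ⟨A 0 0, A 0 1, A 1 0, A 1 1, ?_, fun g hg => ?_⟩
  swap
  · have h := (normalizer_cG_iff ht ⟨g, hg⟩).1 (hN ▸ Subgroup.mem_top _)
    rcases h with h | h
    · left
      have e := congrArg (fun x : SL₂F => (x : M₂)) (mul_inv_eq_iff_eq_mul.1 h)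
      simp only [Matrix.SpecialLinearGroup.coe_mul, ← hA] at e
      have e00 := congrFun (congrFun e 0) 0
      have e01 := congrFun (congrFun e 0) 1
      have e10 := congrFun (congrFun e 1) 0
      simp [Matrix.mul_apply, Fin.sum_univ_two] at e00 e01 e10
      exact ⟨by linear_combination e00, by linear_combination e01, by linear_combination e10⟩
    · right
      have e := congrArg (fun x : SL₂F => (x : M₂)) (mul_inv_eq_iff_eq_mul.1 h)
      simp only [Matrix.SpecialLinearGroup.coe_mul, coe_inv_eq, tr, ← hA] at e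
      have e00 := congrFun (congrFun e 0) 0
      have e01 := congrFun (congrFun e 0) 1
      have e10 := congrFun (congrFun e 1) 0
      have e11 := congrFun (congrFun e 1) 1
      simp [Matrix.mul_apply, Fin.sum_univ_two] at e00 e01 e10 e11
      exact ⟨by linear_combination e00, by linear_combination e01, by linear_combination e10,
        by linear_combination e11⟩
  have hns : ¬ IsScalarMat A := fun h => hg₀ ((mem_center_iff_isScalarMat _).2 h)
  have hIc := (normalizer_cG_iff ht ⟨I, hIH⟩).1 (hN ▸ Subgroup.mem_top _)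
  have h2ι := mul_ne_zero (two_ne_zero' hF hp hp4) (iota_ne_zero hF hp hp4 hι)
  by_cases hyz : A 0 1 = 0 ∧ A 1 0 = 0
  · exact Or.inl ⟨hyz.1, hyz.2, fun h => hns ⟨hyz.1, hyz.2, h⟩⟩
  refine Or.inr ⟨by tauto, ?_⟩
  rcases hIc with h | h
  all_goals
    have e := congrArg (fun x : SL₂F => (x : M₂)) (mul_inv_eq_iff_eq_mul.1 h)
    simp only [Matrix.SpecialLinearGroup.coe_mul, coe_inv_eq, tr, hI, ← hA] at e
    have e00 := congrFun (congrFun e 0) 0
    have e01 := congrFun (congrFun e 0) 1
    have e10 := congrFun (congrFun e 1) 0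
    simp [Matrix.mul_apply, Fin.sum_univ_two] at e00 e01 e10
  · refine absurd ⟨?_, ?_⟩ hyz
    · exact (mul_eq_zero.1 (show (2 * ι) * A 0 1 = 0 by linear_combination e01)).resolve_left h2ι
    · exact (mul_eq_zero.1 (show (2 * ι) * A 1 0 = 0 by linear_combination -e10)).resolve_left h2ι
  · exact mul_left_cancel₀ (iota_ne_zero hF hp hp4 hι) (by linear_combination e00)

/-- What Dickson's list leaves over the prime field. -/
lemma top_or_small (hB : ¬ IsBorelCase H) (hT : ¬ IsTorusCase H) : H = ⊤ ∨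
    ((zG H).index = 12 ∧ Nonempty ((H ⧸ zG H) ≃* alternatingGroup (Fin 4))) ∨
    ((zG H).index = 24 ∧ Nonempty ((H ⧸ zG H) ≃* Equiv.Perm (Fin 4))) ∨
    ((zG H).index = 60 ∧ p ≠ 5 ∧ Nonempty ((H ⧸ zG H) ≃* alternatingGroup (Fin 5))) := by
  have hZ := center_le hF hp hp4 hι hI hIH
  have hcF : Nat.card F = p := by rw [Nat.card_eq_fintype_card, hF]
  have hc : Nat.card H = 2 * (zG H).index := by
    rw [← Subgroup.card_mul_index (zG H), card_zG hZ, center_card_of_odd (two_ne_zero' hF hp hp4)]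
  rcases classification hZ with h | h | h | h | ⟨h, h'⟩ | ⟨R, k, hR3, hidx, hiso⟩
  · exact absurd h hB
  · exact absurd h hT
  · exact Or.inr (Or.inl h)
  · exact Or.inr (Or.inr (Or.inl h))
  · by_cases h5 : p = 5
    · left
      refine Subgroup.eq_top_of_le_card _ ?_
      rw [card_SL, hcF, hc, h, h5]
      norm_num
    · exact Or.inr (Or.inr (Or.inr ⟨h, h5, h'⟩))
  · left
    have hR : Nat.card R = p := by
      have h1 := (hcF ▸ Module.natCard_eq_pow_finrank (K := R) (V := F))
      rcases Nat.eq_zero_or_pos (Module.finrank R F) with h0 | h0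
      · rw [h0, pow_zero] at h1; exact absurd h1 hp.ne_one
      exact ((Nat.Prime.pow_eq_iff hp).1 h1.symm).1
    rw [hR] at hidx hiso
    refine Subgroup.eq_top_of_le_card _ ?_
    rw [card_SL, hcF, hc, hidx, show p ^ 2 - 1 = (p + 1) * (p - 1) from by
      rw [← Nat.sq_sub_sq, one_pow]]
    rcases hiso with ⟨hk, -⟩ | ⟨hk, -⟩
    · subst hk; nlinarith [Nat.zero_le (p * (p - 1) * (p + 1))]
    · rw [← hk]; exact le_of_eq (by ring)

/-- A normal subgroup of prime index of the whole group does not exist. -/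
lemma eq_top_of_sup_eq_top {x : SL₂F} {r : ℕ} (hr : r.Prime) (hxr : x ^ r = 1)
    (hx : x ∈ Subgroup.normalizer (H : Set SL₂F)) (hK : H ⊔ Subgroup.zpowers x = ⊤) : H = ⊤ := by
  by_contra hne
  have hxH : x ∉ H := fun h => hne (by
    rw [← hK, sup_eq_left.2 (Subgroup.zpowers_le.2 h)])
  obtain ⟨hn, hidx⟩ := sup_zpowers_index H hr hxr hx hxH
  have : Fact r.Prime := ⟨hr⟩
  haveI hHn : H.Normal := Subgroup.normalizer_eq_top_iff.1 (eq_top_iff.2 (hK ▸
    sup_le Subgroup.le_normalizer (Subgroup.zpowers_le.2 hx)))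
  have hidx' : H.index = r := by
    rw [hK, ← Subgroup.relIndex, Subgroup.relIndex_top_right] at hidx
    exact hidx
  have hperf : commutator SL₂F = ⊤ :=
    CfsgLib.ClassicalLinear.commutator_sl_eq_top
      (Or.inr (CfsgLib.ClassicalLinear.exists_sq_ne_one_of_four_le_card
        (by have := five_le hF hp hp4; rw [Nat.card_eq_fintype_card]; omega)))
  haveI : IsCyclic (SL₂F ⧸ H) := isCyclic_of_prime_card (p := r)
    (by rw [← Subgroup.index_eq_card, hidx'])
  refine hne (eq_top_iff.2 ?_)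
  rw [← hperf, commutator_def, Subgroup.commutator_le]
  intro a _ b _
  rw [← QuotientGroup.eq_one_iff, ← QuotientGroup.mk'_apply, map_commutatorElement]
  haveI := IsCyclic.commutative (α := SL₂F ⧸ H)
  exact commutatorElement_eq_one_iff_mul_comm.2 (mul_comm' _ _)

variable {W C : Matrix.SpecialLinearGroup (Fin 2) F}
  (hW : (W : Matrix (Fin 2) (Fin 2) F) = !![0, 1; -1, 0]) (hWH : W ∈ H)
  (hC : (C : Matrix (Fin 2) (Fin 2) F) = (2 : F)⁻¹ • !![-1 + ι, 1 + ι; -1 + ι, -1 - ι])
include hW hWH hC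

lemma not_borel_torus {K : Subgroup (Matrix.SpecialLinearGroup (Fin 2) F)} (hHK : H ≤ K) (hCK : C ∈ K) :
    ¬ IsBorelCase K ∧ ¬ IsTorusCase K := by
  refine ⟨not_borel hF hp hp4 hι hI (hHK hIH) (hHK hWH) (by rw [hW]; simp) (by rw [hW]; simp), ?_⟩
  intro hT
  obtain ⟨x, y, z, w, hshape, hrel⟩ := torus_shape hF hp hp4 hι hI (hHK hIH) hT
  have h2 := two_ne_zero' hF hp hp4
  have hi := iota_ne_zero hF hp hp4 hι
  have hinv : (2 : F) * 2⁻¹ = 1 := mul_inv_cancel₀ h2
  have hb : (1 + ι : F) ≠ 0 := fun h => h2 (by linear_combination (1 - ι) * h + hι)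
  have hh : (2 : F)⁻¹ ≠ 0 := inv_ne_zero h2
  have e := hrel C hCK
  rw [hC] at e
  simp at e
  rcases hshape with ⟨rfl, rfl, hxw⟩ | ⟨hyz, rfl⟩
  · have hd : x - w ≠ 0 := sub_ne_zero.2 hxw
    rcases e with ⟨-, e, -⟩ | ⟨e, -, -, e'⟩
    · exact mul_ne_zero (mul_ne_zero hh hb) hd (by linear_combination -e)
    · have h1 : (2⁻¹ * (-1 + ι)) * (x - w) = 0 := by linear_combination e
      have h3 : (2⁻¹ * (-1 - ι)) * (x - w) = 0 := by linear_combination -e'
      have h4 := (mul_eq_zero.1 ((mul_eq_zero.1 h1).resolve_right hd)).resolve_left hh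
      have h5 := (mul_eq_zero.1 ((mul_eq_zero.1 h3).resolve_right hd)).resolve_left hh
      exact h2 (by linear_combination -h4 - h5)
  · rcases e with ⟨-, e1, e2⟩ | ⟨-, e1, e2, -⟩
    · have h1 : ι * y = 0 := by linear_combination e1 - ι * y * hinv
      have h3 : ι * z = 0 := by linear_combination -e2 - ι * z * hinv
      rcases hyz with h | h
      · exact mul_ne_zero hi h h1
      · exact mul_ne_zero hi h h3
    · rcases hyz with h | h
      · exact h ((mul_eq_zero.1 (show (-1 : F) * y = 0 by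
          rcases e1 with e1 | e1
          · exact absurd e1 h
          · linear_combination y * e1 + y * hinv)).resolve_left (neg_ne_zero.2 one_ne_zero))
      · exact h ((mul_eq_zero.1 (show (-1 : F) * z = 0 by
          rcases e2 with e2 | e2
          · exact absurd e2 h
          · linear_combination z * e2 + z * hinv)).resolve_left (neg_ne_zero.2 one_ne_zero))

lemma C_pow_three : C ^ 3 = 1 := by
  have h2 := two_ne_zero' hF hp hp4
  have ht : tr C = -1 := by
    rw [tr, hC]; simp; field_simp; ring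
  apply Subtype.ext
  have h := mul_self_eq C
  rw [ht, neg_smul, one_smul] at h
  rw [pow_succ, pow_two]
  simp only [Matrix.SpecialLinearGroup.coe_mul, Matrix.SpecialLinearGroup.coe_one]
  rw [h, sub_mul, neg_mul, h, one_mul]
  abel

/-- (S1): the element of order three lies in the group. -/
theorem order_three_mem (hCn : ∀ h ∈ H, C * h * C⁻¹ ∈ H) {h : Matrix.SpecialLinearGroup (Fin 2) F}
    (hh : h ∈ H) (hnn : h ∉ Subgroup.normalizer ((Subgroup.closure {I, W} : Subgroup _) : Set _)) :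
    C ∈ H := by
  by_contra hCH
  have hCN : C ∈ Subgroup.normalizer (H : Set SL₂F) := by
    have hC3 := C_pow_three hF hp hp4 hι hI hIH hW hWH hC
    rw [Subgroup.mem_normalizer_iff]
    intro y
    refine ⟨hCn y, fun hy => ?_⟩
    have := hCn _ (hCn _ hy)
    rwa [show C * (C * (C * y * C⁻¹) * C⁻¹) * C⁻¹ = C ^ 3 * y * (C ^ 3)⁻¹ by simp [pow_succ, mul_assoc], hC3, one_mul,
      inv_one, mul_one] at this
  have hC3 := C_pow_three hF hp hp4 hι hI hIH hW hWH hC
  obtain ⟨hn, hidx⟩ := sup_zpowers_index H Nat.prime_three hC3 hCN hCH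
  set K := H ⊔ Subgroup.zpowers C with hK
  have hHK : H ≤ K := le_sup_left
  have hCK : C ∈ K := le_sup_right (a := H) (Subgroup.mem_zpowers C)
  obtain ⟨hB, hT⟩ := not_borel_torus hF hp hp4 hι hI hIH hW hWH hC hHK hCK
  have hZH := center_le hF hp hp4 hι hI hIH
  have hzle : zG K ≤ H.subgroupOf K := fun z hz => Subgroup.mem_subgroupOf.2 (hZH hz)
  have hnot : ∀ {Q : Type} [Group Q], ((K ⧸ zG K) ≃* Q) →
      (∀ y : Q, ∃ a, a * a = 1 ∧ a * y * (a * y) = 1) → False := by
    intro Q _ e hQ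
    let φ : K →* Q := e.toMonoidHom.comp (QuotientGroup.mk' (zG K))
    have hs : Function.Surjective φ := e.surjective.comp (QuotientGroup.mk'_surjective _)
    haveI := hn
    haveI : ((H.subgroupOf K).map φ).Normal := Subgroup.Normal.map hn φ hs
    refine false_of_index_three hQ ((H.subgroupOf K).map φ) ?_
    rw [Subgroup.index_map_eq _ hs, hidx]
    intro z hz
    apply hzle
    exact (QuotientGroup.eq_one_iff z).1 (e.injective (hz.trans (map_one e).symm))
  rcases top_or_small hF hp hp4 hι hI (hHK hIH) hB hT with h' | ⟨h12, -⟩ | ⟨-, ⟨e⟩⟩ | ⟨-, -, ⟨e⟩⟩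
  · exact hCH (eq_top_of_sup_eq_top hF hp hp4 hι hI hIH Nat.prime_three hC3 hCN h' ▸ Subgroup.mem_top C)
  · have hcK : Nat.card K = 24 := by
      rw [← Subgroup.card_mul_index (zG K), card_zG (hZH.trans hHK),
        center_card_of_odd (two_ne_zero' hF hp hp4), h12]
    have hcH : Nat.card H = 8 := by
      have h' := Subgroup.card_mul_index (H.subgroupOf K)
      rw [Nat.card_congr (Subgroup.subgroupOfEquivOfLe hHK).toEquiv, hidx, hcK] at h'
      omega
    apply hnn
    have hQH : Subgroup.closure {I, W} ≤ H := (Subgroup.closure_le H).2 (by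
      rintro a (rfl | rfl)
      · exact hIH
      · exact hWH)
    set Q8 := Subgroup.closure {I, W} with hQ8
    have hIQ : I ∈ Q8 := Subgroup.subset_closure (Or.inl rfl)
    have hWQ : W ∈ Q8 := Subgroup.subset_closure (Or.inr rfl)
    have h5 : 5 ≤ Nat.card Q8 := by
      let f : Fin 5 → Q8 := ![1, ⟨I * I, mul_mem hIQ hIQ⟩, ⟨I, hIQ⟩, ⟨W, hWQ⟩, ⟨I * W, mul_mem hIQ hWQ⟩]
      have hf : Function.Injective f := by
        intro a b hab
        have e0 := congrArg (fun y : Q8 => ((y : SL₂F) : M₂) 0 0) hab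
        have e1 := congrArg (fun y : Q8 => ((y : SL₂F) : M₂) 0 1) hab
        have hi := iota_ne_zero hF hp hp4 hι
        have h2 := two_ne_zero' hF hp hp4
        have n1 : ι ≠ 1 := fun e => h2 (by rw [e] at hι; linear_combination hι)
        have n2 : ι ≠ -1 := fun e => h2 (by rw [e] at hι; linear_combination hι)
        have n3 : (1 : F) ≠ -1 := fun e => h2 (by linear_combination e)
        fin_cases a <;> fin_cases b <;>
          simp [f, hI, hW, hι, hi, n1, n2, n3, hi.symm, n1.symm, n2.symm, n3.symm,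
            Matrix.mul_apply, Fin.sum_univ_two] at e0 e1 <;> rfl
      simpa using Nat.card_le_card_of_injective f hf
    have hdvd := Subgroup.card_dvd_of_le hQH
    rw [hcH] at hdvd
    have h8 : Nat.card H ≤ Nat.card Q8 := by
      have := Nat.le_of_dvd (by norm_num) hdvd
      rw [hcH]
      interval_cases h' : Nat.card Q8 <;> omega
    rw [← Subgroup.eq_of_le_of_card_ge hQH h8] at hh
    exact Subgroup.le_normalizer hh
  · exact hnot e perm_four_two_involutions
  · exact hnot e alternating_five_two_involutions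

/-- (S2): an element of order `p` normalising the group. -/
theorem eq_top_of_normalised_pElement (hCH : C ∈ H) {B : Matrix.SpecialLinearGroup (Fin 2) F}
    (hB1 : B ≠ 1) (hBp : B ^ p = 1) (hBn : ∀ h ∈ H, B * h * B⁻¹ ∈ H) : H = ⊤ := by
  haveI : Fact p.Prime := ⟨hp⟩
  have hBN : B ∈ Subgroup.normalizer (H : Set SL₂F) := by
    have hit : ∀ (n : ℕ), ∀ y ∈ H, B ^ n * y * (B ^ n)⁻¹ ∈ H := by
      intro n
      induction n with
      | zero => intro y hy; simpa using hy
      | succ n ih =>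
        intro y hy
        have := hBn _ (ih y hy)
        rwa [show B * (B ^ n * y * (B ^ n)⁻¹) * B⁻¹ = B ^ (n + 1) * y * (B ^ (n + 1))⁻¹ by
          rw [pow_succ']; group] at this
    rw [Subgroup.mem_normalizer_iff]
    intro y
    refine ⟨hBn y, fun hy => ?_⟩
    have := hit (p - 1) _ hy
    have hp1 : B ^ (p - 1) = B⁻¹ := by
      rw [eq_inv_iff_mul_eq_one, ← pow_succ, Nat.sub_add_cancel hp.one_le, hBp]
    rw [hp1] at this
    simpa [mul_assoc] using this
  have key : ∀ K : Subgroup SL₂F, H ≤ K → B ∈ K → K = ⊤ := by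
    intro K hHK hBK
    obtain ⟨hB, hT⟩ := not_borel_torus hF hp hp4 hι hI hIH hW hWH hC hHK (hHK hCH)
    have hZK := (center_le hF hp hp4 hι hI hIH).trans hHK
    have hpK : p ∣ 2 * (zG K).index := by
      have e := Subgroup.card_mul_index (zG K)
      rw [card_zG hZK, center_card_of_odd (two_ne_zero' hF hp hp4)] at e
      rw [e, ← orderOf_eq_prime hBp hB1, ← Nat.card_zpowers]
      exact Subgroup.card_dvd_of_le (Subgroup.zpowers_le.2 hBK)
    have h5 := five_le hF hp hp4
    rcases top_or_small hF hp hp4 hι hI (hHK hIH) hB hT with h | ⟨h, -⟩ | ⟨h, -⟩ | ⟨h, hne, -⟩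
    · exact h
    all_goals
      rw [h] at hpK
      exfalso
      have hle := Nat.le_of_dvd (by norm_num) hpK
      norm_num at hle
      interval_cases p <;> first | omega | norm_num at hp
  exact eq_top_of_sup_eq_top hF hp hp4 hι hI hIH hp hBp hBN
    (key _ le_sup_left (le_sup_right (a := H) (Subgroup.mem_zpowers B)))

omit hW hWH hC

omit hF hp hp4 hι hI hIH in
/-- Orders of elements modulo the centre in the small cases. -/
lemma quotient_orders (h : Nonempty ((H ⧸ zG H) ≃* alternatingGroup (Fin 4)) ∨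
      Nonempty ((H ⧸ zG H) ≃* Equiv.Perm (Fin 4)) ∨
      (p ≠ 5 ∧ Nonempty ((H ⧸ zG H) ≃* alternatingGroup (Fin 5)))) (x : H) :
    ∃ k, 2 ≤ k ∧ k ≤ 5 ∧ (k = 5 → p ≠ 5) ∧ x ^ k ∈ zG H := by
  have back : ∀ {Q : Type} [Group Q] (e : (H ⧸ zG H) ≃* Q) (k : ℕ), e (x : H ⧸ zG H) ^ k = 1 →
      x ^ k ∈ zG H := fun e k hk => by
    rw [← QuotientGroup.eq_one_iff, QuotientGroup.mk_pow]
    exact e.injective (by rw [map_pow, hk, map_one])
  rcases h with ⟨⟨e⟩⟩ | ⟨⟨e⟩⟩ | ⟨h5, ⟨e⟩⟩
  · rcases alternating_four_orders (e (x : H ⧸ zG H)) with q | q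
    · exact ⟨2, le_rfl, by norm_num, by omega, back e 2 q⟩
    · exact ⟨3, by norm_num, by norm_num, by omega, back e 3 q⟩
  · rcases perm_four_orders (e (x : H ⧸ zG H)) with q | q | q
    · exact ⟨2, le_rfl, by norm_num, by omega, back e 2 q⟩
    · exact ⟨3, by norm_num, by norm_num, by omega, back e 3 q⟩
    · exact ⟨4, by norm_num, by norm_num, by omega, back e 4 q⟩
  · rcases alternating_five_orders (e (x : H ⧸ zG H)) with q | q | q
    · exact ⟨2, le_rfl, by norm_num, by omega, back e 2 q⟩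
    · exact ⟨3, by norm_num, by norm_num, by omega, back e 3 q⟩
    · exact ⟨5, by norm_num, by norm_num, fun _ => h5, back e 5 q⟩

/-- (S3): an element away from the exceptional traces, or a long diagonal element. -/
theorem eq_top_of_trace {g : Matrix.SpecialLinearGroup (Fin 2) F} (hg : g ∈ H) {a b c d : F}
    (hgm : (g : Matrix (Fin 2) (Fin 2) F) = !![a, b; c, d]) (hb : b ≠ 0) (hc : c ≠ 0) (had : a ≠ d)
    (hcase : (a + d ≠ 0 ∧ (a + d) ^ 2 ≠ 1 ∧ (a + d) ^ 2 ≠ 2 ∧ (a + d) ^ 4 - 3 * (a + d) ^ 2 + 1 ≠ 0) ∨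
      (a + d) ^ 2 = 4 ∨
      ∃ h ∈ H, ∃ s : F, ((h : Matrix.SpecialLinearGroup (Fin 2) F) : Matrix (Fin 2) (Fin 2) F) =
        !![s, 0; 0, s⁻¹] ∧ 12 ≤ orderOf s) : H = ⊤ := by
  haveI := charP_of_card hF hp hp4
  have h2 := two_ne_zero' hF hp hp4
  have hB : ¬ IsBorelCase H :=
    not_borel hF hp hp4 hι hI hIH hg (by rw [hgm]; simpa) (by rw [hgm]; simpa)
  have hsord : ∀ {s : F}, 12 ≤ orderOf s → s ≠ 0 ∧ ∀ k, 0 < k → k ≤ 10 → s ^ k ≠ 1 := by
    intro s hs
    refine ⟨fun e => ?_, fun k hk hk' e => ?_⟩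
    · subst e; rw [orderOf_zero] at hs; omega
    · have := Nat.le_of_dvd hk (orderOf_dvd_of_pow_eq_one e); omega
  have hT : ¬ IsTorusCase H := by
    intro hT
    obtain ⟨x, y, z, w, hshape, hrel⟩ := torus_shape hF hp hp4 hι hI hIH hT
    have e := hrel g hg
    rw [hgm] at e
    simp at e
    rcases hshape with ⟨rfl, rfl, hxw⟩ | ⟨hyz, rfl⟩
    · have hd : x - w ≠ 0 := sub_ne_zero.2 hxw
      rcases e with ⟨-, e, -⟩ | ⟨e, -, -, e'⟩
      · exact mul_ne_zero hb hd (by linear_combination -e)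
      · have h1 := (mul_eq_zero.1 (show a * (x - w) = 0 by linear_combination e)).resolve_right hd
        have h3 := (mul_eq_zero.1 (show d * (x - w) = 0 by linear_combination -e')).resolve_right hd
        exact had (by rw [h1, h3])
    · rcases e with ⟨-, e1, e2⟩ | ⟨-, e1, e2, -⟩
      · have h1 : (a - d) * y = 0 := by linear_combination e1
        have h3 : (a - d) * z = 0 := by linear_combination -e2
        rcases hyz with h | h
        · exact mul_ne_zero (sub_ne_zero.2 had) h h1
        · exact mul_ne_zero (sub_ne_zero.2 had) h h3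
      · have ht : a + d = 0 := by tauto
        rcases hcase with ⟨h, -⟩ | h | ⟨k, hk, s, hks, hs⟩
        · exact h ht
        · rw [ht] at h
          exact h2 (pow_eq_zero_iff (n := 2) two_ne_zero |>.1 (by linear_combination -h))
        · obtain ⟨hs0, hsk⟩ := hsord hs
          have e := hrel k hk
          rw [hks] at e
          rcases e with ⟨-, f1, f2⟩ | ⟨-, f1, f2, -⟩ <;> simp at f1 f2
          · have hd : s - s⁻¹ = 0 := by
              rcases hyz with h | h
              · exact (mul_eq_zero.1 (show (s - s⁻¹) * y = 0 by linear_combination f1)).resolve_right h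
              · exact (mul_eq_zero.1 (show (s - s⁻¹) * z = 0 by linear_combination -f2)).resolve_right h
            exact hsk 2 (by norm_num) (by norm_num)
              (by field_simp at hd; linear_combination hd)
          · have hd : s + s⁻¹ = 0 := by tauto
            exact hsk 4 (by norm_num) (by norm_num)
              (by field_simp at hd; linear_combination (s ^ 2 - 1) * hd)
  rcases top_or_small hF hp hp4 hι hI hIH hB hT with h | h | h | h
  · exact h
  all_goals exfalso
  all_goals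
    have hord : ∀ h : H, ∃ k, 2 ≤ k ∧ k ≤ 5 ∧ (k = 5 → p ≠ 5) ∧ h ^ k ∈ zG H := quotient_orders
      (by first | exact Or.inl h.2 | exact Or.inr (Or.inl h.2) | exact Or.inr (Or.inr h.2))
    rcases hcase with hcase | hcase | ⟨x, hx, s, hks, hs⟩
    · obtain ⟨k, hk2, hk5, -, hk⟩ := hord ⟨g, hg⟩
      obtain ⟨t0, t1, t2, t4⟩ := hcase
      have hk' := ((mem_center_iff_isScalarMat _).1 (mem_zG.1 hk)).1
      rw [Subgroup.coe_pow] at hk'
      interval_cases k <;>
        simp [pow_succ, hgm, Matrix.mul_apply, Fin.sum_univ_two] at hk' <;>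
        have hd := det_eq g <;> rw [hgm] at hd <;> simp at hd
      · exact mul_ne_zero hb t0 (by linear_combination hk')
      · exact mul_ne_zero hb (sub_ne_zero.2 t1) (by linear_combination hk' + b * hd)
      · exact mul_ne_zero (mul_ne_zero hb t0) (sub_ne_zero.2 t2)
          (by linear_combination hk' + 2 * b * (a + d) * hd)
      · exact mul_ne_zero hb t4 (by linear_combination hk' +
          b * (3 * (a + d) ^ 2 - (a * d - b * c) - 1) * hd)
    · obtain ⟨k, hk2, hk5, hk5', hk⟩ := hord ⟨g, hg⟩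
      have hk' := ((mem_center_iff_isScalarMat _).1 (mem_zG.1 hk)).1
      rw [Subgroup.coe_pow] at hk'
      have t0 : a + d ≠ 0 := fun e => h2 (pow_eq_zero_iff (n := 2) two_ne_zero |>.1 (by
        rw [e] at hcase; linear_combination -hcase))
      have h3 : (3 : F) ≠ 0 := fun e => by
        have := Nat.le_of_dvd (by norm_num) ((CharP.cast_eq_zero_iff F p 3).1 (by exact_mod_cast e))
        have := five_le hF hp hp4
        omega
      interval_cases k <;>
        simp [pow_succ, hgm, Matrix.mul_apply, Fin.sum_univ_two] at hk' <;>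
        have hd := det_eq g <;> rw [hgm] at hd <;> simp at hd
      · exact mul_ne_zero hb t0 (by linear_combination hk')
      · exact mul_ne_zero hb h3 (by linear_combination hk' + b * hd - b * hcase)
      · exact mul_ne_zero (mul_ne_zero hb t0) h2
          (by linear_combination hk' + 2 * b * (a + d) * hd - b * (a + d) * hcase)
      · have h5 : (5 : F) ≠ 0 := fun e => by
          have := (Nat.prime_dvd_prime_iff_eq hp (by norm_num)).1
            ((CharP.cast_eq_zero_iff F p 5).1 (by exact_mod_cast e))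
          exact hk5' rfl this
        exact mul_ne_zero hb h5 (by linear_combination hk' +
          b * (3 * (a + d) ^ 2 - (a * d - b * c) - 1) * hd - b * ((a + d) ^ 2 + 1) * hcase)
    · obtain ⟨hs0, hsk⟩ := hsord hs
      obtain ⟨k, hk2, hk5, -, hk⟩ := hord ⟨x, hx⟩
      have hk' := ((mem_center_iff_isScalarMat _).1 (mem_zG.1 hk)).2.2
      rw [Subgroup.coe_pow] at hk'
      refine hsk (2 * k) (by omega) (by omega) ?_
      have hdiag : ((x : SL₂F) : M₂) = Matrix.diagonal ![s, s⁻¹] := by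
        rw [hks]; ext i j; fin_cases i <;> fin_cases j <;> simp
      simp [Matrix.SpecialLinearGroup.coe_pow, hdiag, Matrix.diagonal_pow] at hk'
      rw [two_mul, pow_add]
      nth_rewrite 2 [hk']
      exact mul_inv_cancel₀ (pow_ne_zero k hs0)

end CfsgLib.Geometric.SLFour
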