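import Cfsg.Agent.Lib.Geometric.SLFour.Klein
import Cfsg.Agent.Lib.Geometric.SLFour.SL2

/-!
Three orthogonal vectors give a copy of the special linear group of size two inside dimension four,
and Dickson's list makes its part in a subgroup the whole of it.
-/

set_option autoImplicit false

namespace CfsgLib.Geometric.SLFour

open Matrix

variable {F : Type*} [Field F] {ι : F}

local notation "M₄" => Matrix (Fin 4) (Fin 4) F
local notation "M₂" => Matrix (Fin 2) (Fin 2) F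
local notation "SL₂" => Matrix.SpecialLinearGroup (Fin 2) F

/-- An element of the algebra spanned by two anticommuting matrices. -/
def quad4 (I J : M₄) (a b c d : F) : M₄ := a • 1 + b • I + c • J + d • (I * J)

lemma quad4_mul {I J : M₄} {n : F} (hII : I * I = -1) (hJJ : J * J = -(n • 1)) (hJI : J * I = -(I * J))
    (a b c d a' b' c' d' : F) :
    quad4 I J a b c d * quad4 I J a' b' c' d' =
      quad4 I J (a * a' - b * b' - n * (c * c') - n * (d * d'))
        (a * b' + b * a' + n * (c * d') - n * (d * c'))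
        (a * c' + c * a' - b * d' + d * b')
        (a * d' + d * a' + b * c' - c * b') := by
  have hIK : I * (I * J) = -J := by rw [← mul_assoc, hII, neg_one_mul]
  have hKI : I * J * I = J := by rw [mul_assoc, hJI, Matrix.mul_neg, hIK, neg_neg]
  have hJK : J * (I * J) = n • I := by
    rw [← mul_assoc, hJI, Matrix.neg_mul, mul_assoc, hJJ, Matrix.mul_neg, neg_neg, Matrix.mul_smul, mul_one]
  have hKJ : I * J * J = -(n • I) := by
    rw [mul_assoc, hJJ, Matrix.mul_neg, Matrix.mul_smul, mul_one]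
  have hKK : I * J * (I * J) = -(n • 1) := by
    rw [← mul_assoc, hKI, hJJ]
  simp only [quad4, add_mul, mul_add, Matrix.smul_mul, Matrix.mul_smul, one_mul, mul_one, hII, hJJ, hJI,
    hIK, hKI, hJK, hKJ, hKK, smul_neg, smul_smul]
  module

/-- The copy of two by two matrices. -/
def quadRep (ι n : F) (I J : M₄) (B : M₂) : M₄ :=
  quad4 I J ((B 0 0 + B 1 1) / 2) (-ι * ((B 0 0 - B 1 1) / 2)) ((B 0 1 - n⁻¹ * B 1 0) / 2)
    (-ι * ((B 0 1 + n⁻¹ * B 1 0) / 2))

lemma quadRep_mul (hι : ι * ι = -1) (h2 : (2 : F) ≠ 0) {n : F} (hn : n ≠ 0) {I J : M₄}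
    (hII : I * I = -1) (hJJ : J * J = -(n • 1)) (hJI : J * I = -(I * J)) (A B : M₂) :
    quadRep ι n I J (A * B) = quadRep ι n I J A * quadRep ι n I J B := by
  have hι2 : ι ^ 2 = -1 := by rw [pow_two, hι]
  rw [quadRep, quadRep, quadRep, quad4_mul hII hJJ hJI]
  congr 1 <;> simp [Matrix.mul_apply, Fin.sum_univ_two] <;> field_simp <;> ring_nf <;> simp [hι2] <;>
    ring

lemma quadRep_one (h2 : (2 : F) ≠ 0) (n : F) (I J : M₄) : quadRep ι n I J 1 = 1 := by
  simp [quadRep, quad4, show (1 + 1 : F) / 2 = 1 by field_simp; ring]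

variable [Fintype F] {p : ℕ}

theorem triad (hι : ι * ι = -1) (h2 : (2 : F) ≠ 0) (hF : Fintype.card F = p) (hp : p.Prime)
    (hp4 : p % 4 = 1) {p1 p2 w : Fin 6 → F} {n : F} (h11 : p1 ⬝ᵥ p1 = 1) (h22 : p2 ⬝ᵥ p2 = 1)
    (hww : w ⬝ᵥ w = n) (h12 : p1 ⬝ᵥ p2 = 0) (h1w : p1 ⬝ᵥ w = 0) (h2w : p2 ⬝ᵥ w = 0) (hn : n ≠ 0)
    {M : Subgroup (GL (Fin 4) F)} (hI : ∃ g ∈ M, (g : M₄) = X ι p1 * Y ι p2)
    {α β : F} (hab : β * β + α * α + n = 1) (ha : α ≠ 0)
    (hg : ∃ g ∈ M, (g : M₄) = X ι (α • p1 + β • p2 + w) * Y ι p2)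
    (hcase : (2 * β ≠ 0 ∧ (2 * β) ^ 2 ≠ 1 ∧ (2 * β) ^ 2 ≠ 2 ∧ (2 * β) ^ 4 - 3 * (2 * β) ^ 2 + 1 ≠ 0) ∨
      (2 * β) ^ 2 = 4 ∨ ∃ s : F, 12 ≤ orderOf s ∧
        ∃ g ∈ M, (g : M₄) = X ι (((s - s⁻¹) / (2 * ι)) • p1 + ((s + s⁻¹) / 2) • p2) * Y ι p2) :
    (∀ a b c : F, b * b + a * a + c * c * n = 1 →
        ∃ g ∈ M, (g : M₄) = X ι (a • p1 + b • p2 + c • w) * Y ι p2) ∧
      (∃ U ∈ M, U ≠ 1 ∧ U ^ p = 1 ∧
        (U : M₄) = 1 + (2 : F)⁻¹ • (X ι p2 * Y ι w - ι • (X ι p1 * Y ι w))) := by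
  have z : ∀ {x y : Fin 6 → F}, x ⬝ᵥ y = 0 → (2 * (x ⬝ᵥ y)) • (1 : M₄) = 0 := fun h => by simp [h]
  have cX : ∀ {x y : Fin 6 → F}, x ⬝ᵥ y = 0 → X ι y * Y ι x = -(X ι x * Y ι y) := fun h =>
    eq_neg_of_add_eq_zero_right ((X_mul_Y_add hι _ _).trans (z h))
  have cY : ∀ {x y : Fin 6 → F}, x ⬝ᵥ y = 0 → Y ι y * X ι x = -(Y ι x * X ι y) := fun h =>
    eq_neg_of_add_eq_zero_right ((Y_mul_X_add hι _ _).trans (z h))
  obtain ⟨I, hIdef⟩ : ∃ I, I = X ι p1 * Y ι p2 := ⟨_, rfl⟩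
  obtain ⟨J, hJdef⟩ : ∃ J, J = X ι p2 * Y ι w := ⟨_, rfl⟩
  have hII : I * I = -1 := by
    rw [hIdef, mul_assoc, ← mul_assoc (Y ι p2), cY h12, Matrix.neg_mul, Matrix.mul_neg,
      mul_assoc (Y ι p1), X_mul_Y hι, h22, one_smul, mul_one, X_mul_Y hι, h11, one_smul]
  have hJJ : J * J = -(n • 1) := by
    rw [hJdef, mul_assoc, ← mul_assoc (Y ι w), cY h2w, Matrix.neg_mul, Matrix.mul_neg,
      mul_assoc (Y ι p2), X_mul_Y hι, hww, Matrix.mul_smul, mul_one, Matrix.mul_smul, X_mul_Y hι, h22,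
      one_smul]
  have hK : I * J = X ι p1 * Y ι w := by
    rw [hIdef, hJdef, mul_assoc, ← mul_assoc (Y ι p2), Y_mul_X hι, h22, one_smul, one_mul]
  have hwp : X ι w * Y ι p2 = -J := by rw [hJdef, cX h2w]
  have hJI : J * I = -(I * J) := by
    rw [hK, hJdef, hIdef, mul_assoc, ← mul_assoc (Y ι w), cY h1w, Matrix.neg_mul, Matrix.mul_neg,
      mul_assoc (Y ι p1), hwp, Matrix.mul_neg, Matrix.mul_neg, neg_neg, ← mul_assoc, cX h12,
      Matrix.neg_mul, ← hIdef, hK, neg_inj]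
  have hι0 : ι ≠ 0 := fun h0 => by simp [h0] at hι
  let f : SL₂ →* GL (Fin 4) F := MonoidHom.toHomUnits
    { toFun := fun B => quadRep ι n I J (B : M₂)
      map_one' := by rw [Matrix.SpecialLinearGroup.coe_one, quadRep_one h2]
      map_mul' := fun A B => by rw [Matrix.SpecialLinearGroup.coe_mul, quadRep_mul hι h2 hn hII hJJ hJI] }
  have hf : ∀ B : SL₂, ((f B : GL (Fin 4) F) : M₄) = quadRep ι n I J (B : M₂) := fun B => rfl
  have hval : ∀ a b c : F, quadRep ι n I J !![b + a * ι, -c; c * n, b - a * ι] =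
      X ι (a • p1 + b • p2 + c • w) * Y ι p2 := by
    intro a b c
    have e1 : -ι * ((b + a * ι - (b - a * ι)) / 2) = a := by
      field_simp; linear_combination (-2 * a) * hι
    have e2 : (-c - n⁻¹ * (c * n)) / 2 = -c := by field_simp; ring
    have e3 : -c + n⁻¹ * (c * n) = 0 := by field_simp; ring
    simp only [X_add, X_smul, add_mul, Matrix.smul_mul, X_mul_Y hι, h22, one_smul, hwp, ← hIdef]
    simp only [quadRep, Matrix.of_apply, Matrix.cons_val_zero, Matrix.cons_val_one, Matrix.cons_val',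
      Matrix.empty_val', Matrix.cons_val_fin_one]
    rw [e1, e2, e3, show (b + a * ι + (b - a * ι)) / 2 = b by field_simp; ring]
    simp [quad4]
    abel
  have hdet : ∀ {a b c : F}, b * b + a * a + c * c * n = 1 →
      (!![b + a * ι, -c; c * n, b - a * ι] : M₂).det = 1 := fun {a b c} h => by
    simp [Matrix.det_fin_two]; linear_combination h - (a * a) * hι
  have hmem : ∀ {B : SL₂}, (∃ g ∈ M, (g : M₄) = quadRep ι n I J (B : M₂)) → B ∈ M.comap f := by
    rintro B ⟨g, hgM, hgv⟩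
    rw [Subgroup.mem_comap, show f B = g from Units.ext ((hf B).trans hgv.symm)]
    exact hgM
  have dI : (!![ι, 0; 0, -ι] : M₂).det = 1 := by simp [Matrix.det_fin_two]; linear_combination -hι
  have hIH : (⟨_, dI⟩ : SL₂) ∈ M.comap f := hmem (by
    obtain ⟨g, hgM, hgv⟩ := hI
    refine ⟨g, hgM, hgv.trans ?_⟩
    have := hval 1 0 0
    simp at this
    exact this.symm)
  have hab' : β * β + α * α + 1 * 1 * n = 1 := by linear_combination hab
  have hgH : (⟨_, hdet hab'⟩ : SL₂) ∈ M.comap f := hmem (by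
    obtain ⟨g, hgM, hgv⟩ := hg
    exact ⟨g, hgM, hgv.trans (by rw [hval, one_smul])⟩)
  have htop : M.comap f = ⊤ := by
    refine eq_top_of_trace hF hp hp4 hι (I := ⟨_, dI⟩) rfl hIH hgH (a := β + α * ι) (b := -1)
      (c := 1 * n) (d := β - α * ι) rfl (by simp) (by simpa using hn)
      (fun e => mul_ne_zero (mul_ne_zero h2 ha) hι0 (by linear_combination e)) ?_
    rw [show β + α * ι + (β - α * ι) = 2 * β by ring]
    refine hcase.imp id (Or.imp id ?_)
    rintro ⟨s, hs, g, hgM, hgv⟩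
    have hs0 : s ≠ 0 := fun e0 => by rw [e0, orderOf_zero] at hs; omega
    have dd : (!![s, 0; 0, s⁻¹] : M₂).det = 1 := by simp [Matrix.det_fin_two, hs0]
    refine ⟨⟨_, dd⟩, hmem ⟨g, hgM, hgv.trans ?_⟩, s, rfl, hs⟩
    have := hval ((s - s⁻¹) / (2 * ι)) ((s + s⁻¹) / 2) 0
    rw [zero_smul, add_zero] at this
    rw [← this]
    congr 1
    ext i j
    fin_cases i <;> fin_cases j <;> simp <;> field_simp <;> ring
  refine ⟨fun a b c h => ?_, ?_⟩
  · let B : SL₂ := ⟨_, hdet h⟩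
    have hB : B ∈ M.comap f := htop ▸ Subgroup.mem_top B
    exact ⟨f B, hB, (hf B).trans (hval a b c)⟩
  have dT : (!![1, 1; 0, 1] : M₂).det = 1 := by simp [Matrix.det_fin_two]
  obtain ⟨T, hT⟩ : ∃ T : SL₂, (T : M₂) = !![1, 1; 0, 1] := ⟨⟨_, dT⟩, rfl⟩
  have hTv : ((f T : GL (Fin 4) F) : M₄) =
      1 + (2 : F)⁻¹ • (X ι p2 * Y ι w - ι • (X ι p1 * Y ι w)) := by
    rw [hf, hT, ← hK, ← hJdef]
    simp [quadRep, quad4, show (1 + 1 : F) / 2 = 1 by field_simp; ring]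
    module
  refine ⟨f T, ?_, fun e1 => ?_, ?_, hTv⟩
  · have : T ∈ M.comap f := htop ▸ Subgroup.mem_top T
    exact this
  · rw [e1, Units.val_one, left_eq_add, smul_eq_zero, or_iff_right (inv_ne_zero h2), sub_eq_zero,
      ← hK, ← hJdef] at hTv
    have h1 := congrArg (J * ·) hTv
    simp only [Matrix.mul_smul, ← mul_assoc, hJI, Matrix.neg_mul, smul_neg] at h1
    have h3 := congrArg (· * J) hTv
    simp only [Matrix.smul_mul] at h3
    rw [← h3, eq_neg_iff_add_eq_zero, ← two_smul F, hJJ, smul_neg, smul_smul, neg_eq_zero,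
      smul_eq_zero] at h1
    exact h1.elim (mul_ne_zero h2 hn) one_ne_zero
  · haveI := charP_of_card hF hp hp4
    rw [← map_pow, show T ^ p = 1 from Subtype.ext ?_, map_one]
    rw [Matrix.SpecialLinearGroup.coe_pow, hT]
    have : ∀ k : ℕ, (!![1, 1; 0, 1] : M₂) ^ k = !![1, (k : F); 0, 1] := by
      intro k
      induction k with
      | zero => ext i j; fin_cases i <;> fin_cases j <;> simp
      | succ k ih =>
        rw [pow_succ, ih]; ext i j
        fin_cases i <;> fin_cases j <;> simp [Matrix.mul_apply, Fin.sum_univ_two, add_comm]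
    rw [this, CharP.cast_eq_zero]
    ext i j; fin_cases i <;> fin_cases j <;> simp

end CfsgLib.Geometric.SLFour
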