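import Cfsg.Agent.Lib.Geometric.SLFour.LocalBase
import Cfsg.Agent.Lib.Geometric.SLFour.SL2
import Cfsg.Agent.Lib.Geometric.SLFour.Triad
import Cfsg.Agent.Lib.ClassicalLinear.Generation

/-!
A subgroup of the special linear group containing the monomial group and the controlled element of
order three is the whole special linear group.
-/

set_option autoImplicit false

namespace CfsgLib.Geometric.SLFour

open Matrix

variable {F : Type*} [Field F] {ι : F}

local notation "M₄" => Matrix (Fin 4) (Fin 4) F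
local notation "M₂" => Matrix (Fin 2) (Fin 2) F
local notation "SL₂" => Matrix.SpecialLinearGroup (Fin 2) F

variable (ι) in
/-- A vector of value one whose product with the first frame vector lies in `M`. -/
def InRv (M : Subgroup (GL (Fin 4) F)) (u : Fin 6 → F) : Prop :=
  u ⬝ᵥ u = 1 ∧ ∃ g ∈ M, (g : M₄) = X ι u * Y ι (e 0)

variable (hι : ι * ι = -1) (h2 : (2 : F) ≠ 0)
include hι

/-- Products of orthogonal pairs of vectors commute. -/
lemma XY_comm {u v a b : Fin 6 → F} (hua : u ⬝ᵥ a = 0) (hub : u ⬝ᵥ b = 0) (hva : v ⬝ᵥ a = 0)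
    (hvb : v ⬝ᵥ b = 0) :
    X ι a * Y ι b * (X ι u * Y ι v) = X ι u * Y ι v * (X ι a * Y ι b) := by
  have z : ∀ {x y : Fin 6 → F}, x ⬝ᵥ y = 0 → (2 * (x ⬝ᵥ y)) • (1 : M₄) = 0 := fun h => by simp [h]
  have a1 := eq_neg_of_add_eq_zero_right ((Y_mul_X_add hι u b).trans (z hub))
  have a2 := eq_neg_of_add_eq_zero_right ((X_mul_Y_add hι u a).trans (z hua))
  have a3 := eq_neg_of_add_eq_zero_right ((X_mul_Y_add hι v b).trans (z hvb))
  have a4 := eq_neg_of_add_eq_zero_left ((Y_mul_X_add hι v a).trans (z hva))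
  calc X ι a * Y ι b * (X ι u * Y ι v) = X ι a * (Y ι b * X ι u) * Y ι v := by simp only [mul_assoc]
    _ = -(X ι a * Y ι u * (X ι b * Y ι v)) := by
        rw [a1, Matrix.mul_neg, Matrix.neg_mul]; simp only [mul_assoc]
    _ = X ι u * Y ι a * (X ι b * Y ι v) := by rw [a2, Matrix.neg_mul, neg_neg]
    _ = -(X ι u * Y ι a * (X ι v * Y ι b)) := by rw [a3, Matrix.mul_neg]
    _ = X ι u * -(Y ι a * X ι v) * Y ι b := by
        rw [Matrix.mul_neg, Matrix.neg_mul]; simp only [mul_assoc]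
    _ = X ι u * Y ι v * (X ι a * Y ι b) := by rw [← a4]; simp only [mul_assoc]

lemma XY_val_mul {u v w : Fin 6 → F} (h : v ⬝ᵥ v = 1) :
    X ι u * Y ι v * (X ι v * Y ι w) = X ι u * Y ι w := by
  rw [mul_assoc, ← mul_assoc (Y ι v), Y_mul_X hι, h, one_smul, one_mul]

include h2

/-- Two disjoint transpositions of the frame, as a monomial element. -/
lemma exists_swap (a b c d : Fin 6) (hn : [a, b, c, d].Nodup) :
    ∃ g, Mono ι g ∧ ∀ w : Fin 6 → F,
      lam ι g w = w - (w a - w b) • (e a - e b) - (w c - w d) • (e c - e d) := by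
  simp only [List.nodup_cons, List.mem_cons, not_or, List.not_mem_nil, not_false_iff, and_true,
    List.nodup_nil] at hn
  obtain ⟨⟨nab, nac, nad⟩, ⟨nbc, nbd⟩, ncd⟩ := hn
  have hu : (e a - e b : Fin 6 → F) ⬝ᵥ (e a - e b) = 2 := by
    simp [sub_dotProduct, dotProduct_sub, e_dot, nab, Ne.symm nab]; norm_num
  have hv : (e c - e d : Fin 6 → F) ⬝ᵥ (e c - e d) = 2 := by
    simp [sub_dotProduct, dotProduct_sub, e_dot, ncd, Ne.symm ncd]; norm_num
  have huv : (e a - e b : Fin 6 → F) ⬝ᵥ (e c - e d) = 0 := by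
    simp [sub_dotProduct, dotProduct_sub, e_dot, nac, nad, nbc, nbd]
  have hd : ∀ w : Fin 6 → F, ∀ i j : Fin 6, (e i - e j) ⬝ᵥ w = w i - w j := fun w i j => by
    rw [dotProduct_comm, dotProduct_sub, dot_e, dot_e]
  have hc : (2 : F)⁻¹ * 2⁻¹ * ((e a - e b : Fin 6 → F) ⬝ᵥ (e a - e b) *
      ((e c - e d : Fin 6 → F) ⬝ᵥ (e c - e d))) = 1 := by
    rw [hu, hv]; field_simp
  have hl : ∀ w, lam ι (pr hι 2⁻¹ (e a - e b) (e c - e d) hc) w =
      w - (w a - w b) • (e a - e b) - (w c - w d) • (e c - e d) := fun w => by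
    rw [lam_pr hι h2, hu, hv, huv, hd, hd]
    match_scalars <;> field_simp <;> ring
  refine ⟨_, ⟨det_pr hι _ _ _ _, fun z => ?_⟩, hl⟩
  by_cases ha : z = a
  · subst ha
    exact ⟨b, 1, one_mul 1, by rw [hl]; simp [e, nab, nac, nad, Ne.symm nab, Ne.symm nac, Ne.symm nad]⟩
  by_cases hb : z = b
  · subst hb
    exact ⟨a, 1, one_mul 1, by rw [hl]; simp [e, nab, nbc, nbd, Ne.symm nab, Ne.symm nbc, Ne.symm nbd]⟩
  by_cases hc' : z = c
  · subst hc'
    exact ⟨d, 1, one_mul 1, by rw [hl]; simp [e, ncd, nbc, nac, Ne.symm ncd, Ne.symm nbc, Ne.symm nac]⟩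
  by_cases hd' : z = d
  · subst hd'
    exact ⟨c, 1, one_mul 1, by rw [hl]; simp [e, ncd, nbd, nad, Ne.symm ncd, Ne.symm nbd, Ne.symm nad]⟩
  exact ⟨z, 1, one_mul 1, by rw [hl]; simp [e, ha, hb, hc', hd', Ne.symm ha, Ne.symm hb, Ne.symm hc', Ne.symm hd']⟩

/-- The product with two negated coordinates. -/
lemma lam_pxu_apply {a b : Fin 6} (h : a ≠ b) (w : Fin 6 → F) :
    lam ι (pxu hι a b) w = w - (2 * w a) • e a - (2 * w b) • e b := by
  rw [pxu, lam_pr hι h2, e_dot_self, e_dot_self, e_dot, if_neg h, dotProduct_comm, dot_e,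
    dotProduct_comm, dot_e]
  match_scalars <;> ring

section Rv

variable {M : Subgroup (GL (Fin 4) F)} (hN : Nstd hι h2 ≤ M)
include hN

lemma exists_neg_one : ∃ g ∈ M, (g : M₄) = -1 :=
  ⟨pxu hι 0 1 * pxu hι 0 1, mul_mem (hN (mono_pxu hι h2 0 1)) (hN (mono_pxu hι h2 0 1)),
    by rw [Units.val_mul, coe_pxu, px_sq hι (by decide)]⟩

lemma inRv_e (a : Fin 6) : InRv ι M (e a) :=
  ⟨e_dot_self a, pxu hι a 0, hN (mono_pxu hι h2 a 0), coe_pxu hι a 0⟩

/-- The product of two such vectors lies in the group. -/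
lemma InRv.mul {u v : Fin 6 → F} (hu : InRv ι M u) (hv : InRv ι M v) :
    ∃ g ∈ M, (g : M₄) = X ι u * Y ι v := by
  obtain ⟨-, g, hg, hgu⟩ := hu
  obtain ⟨hv1, k, hk, hkv⟩ := hv
  have hki : ((k⁻¹ : GL (Fin 4) F) : M₄) = X ι (e 0) * Y ι v :=
    Units.inv_eq_of_mul_eq_one_right (by
      rw [hkv, XY_val_mul hι (e_dot_self 0), X_mul_Y hι, hv1, one_smul])
  exact ⟨g * k⁻¹, mul_mem hg (inv_mem hk), by rw [Units.val_mul, hgu, hki, XY_val_mul hι (e_dot_self 0)]⟩

lemma inRv_of_mul {u v : Fin 6 → F} (hu : u ⬝ᵥ u = 1) (hv : InRv ι M v)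
    (h : ∃ g ∈ M, (g : M₄) = X ι u * Y ι v) : InRv ι M u := by
  obtain ⟨g, hg, hgu⟩ := h
  obtain ⟨hv1, k, hk, hkv⟩ := hv
  exact ⟨hu, g * k, mul_mem hg hk, by rw [Units.val_mul, hgu, hkv, XY_val_mul hι hv1]⟩

lemma InRv.reflect {u v : Fin 6 → F} (hu : InRv ι M u) (hv : InRv ι M v) :
    InRv ι M (v - (2 * (u ⬝ᵥ v)) • u) := by
  obtain ⟨m, hm, hmv⟩ := exists_neg_one hι h2 hN
  obtain ⟨g, hg, hgv⟩ := hu.mul hι h2 hN hv
  refine inRv_of_mul hι h2 hN ?_ hu ⟨m * g, mul_mem hm hg, ?_⟩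
  · simp only [sub_dotProduct, dotProduct_sub, smul_dotProduct, dotProduct_smul, hu.1, hv.1,
      dotProduct_comm v u, smul_eq_mul]
    ring
  · rw [Units.val_mul, hmv, hgv, neg_one_mul, sub_eq_add_neg, X_add, X_neg, X_smul, add_mul,
      Matrix.neg_mul, Matrix.smul_mul, X_mul_Y hι, hu.1, one_smul]
    have := X_mul_Y_add hι u v
    rw [← this]
    abel

lemma InRv.map {u : Fin 6 → F} (hu : InRv ι M u) {g : GL (Fin 4) F} (hg : g ∈ M)
    (hd : (g : M₄).det = 1) {b : Fin 6} {s : F} (hs : s * s = 1) (h0 : lam ι g (e 0) = s • e b) :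
    InRv ι M (lam ι g u) := by
  obtain ⟨hu1, k, hk, hku⟩ := hu
  obtain ⟨m, hm, hmv⟩ := exists_neg_one hι h2 hN
  have hconj := conj_XY hι h2 hd u (v := e 0) (by simp)
  rw [h0, Y_smul, Matrix.mul_smul, ← hku] at hconj
  refine inRv_of_mul hι h2 hN ((dot_lam hι h2 hd u).trans hu1) (inRv_e hι h2 hN b) ?_
  rcases mul_self_eq_one_iff.1 hs with rfl | rfl
  · exact ⟨g * k * g⁻¹, mul_mem (mul_mem hg hk) (inv_mem hg), by
      rw [Units.val_mul, Units.val_mul, hconj, one_smul]⟩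
  · exact ⟨m * (g * k * g⁻¹), mul_mem hm (mul_mem (mul_mem hg hk) (inv_mem hg)), by
      rw [Units.val_mul, hmv, Units.val_mul, Units.val_mul, hconj, neg_one_smul, neg_mul_neg, one_mul]⟩

lemma InRv.flip {u v : Fin 6 → F} (hu : InRv ι M u) (a b : Fin 6) (h : a ≠ b)
    (he : u - (2 * u a) • e a - (2 * u b) • e b = v) : InRv ι M v := by
  obtain ⟨z, s, hs, h0⟩ := (mono_pxu hι h2 a b).2 0
  rw [← he, ← lam_pxu_apply hι h2 h]
  exact hu.map hι h2 hN (hN (mono_pxu hι h2 a b)) (det_pxu hι a b) hs h0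

lemma InRv.swap {u v : Fin 6 → F} (hu : InRv ι M u) (a b c d : Fin 6) (hn : [a, b, c, d].Nodup)
    (he : u - (u a - u b) • (e a - e b) - (u c - u d) • (e c - e d) = v) : InRv ι M v := by
  obtain ⟨g, hg, hl⟩ := exists_swap hι h2 a b c d hn
  obtain ⟨z, s, hs, h0⟩ := hg.2 0
  rw [← he, ← hl]
  exact hu.map hι h2 hN (hN hg) hg.1 hs h0

/-- The three vectors obtained from the controlled element. -/
lemma exists_vectors (hC : ∃ g ∈ M, (g : M₄) = blk 1 (qC ι)) :
    InRv ι M ![2⁻¹, 0, -(2⁻¹ * 2⁻¹), 2⁻¹ * 2⁻¹, 2⁻¹ * 2⁻¹, -(3 * (2⁻¹ * 2⁻¹))] ∧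
      InRv ι M ![0, 2⁻¹, 2⁻¹, 0, 2⁻¹, 2⁻¹] := by
  obtain ⟨g, hg, hgC⟩ := hC
  obtain ⟨h0, -, h1⟩ := lam_low_qC hι h2 hgC
  have hd : (g : M₄).det = 1 := by rw [hgC, det_blk, Matrix.det_one, det_qC hι h2, one_mul]
  have hv0 : InRv ι M ![0, -2⁻¹, -2⁻¹, 0, 2⁻¹, 2⁻¹] :=
    h1 ▸ (inRv_e hι h2 hN 1).map hι h2 hN hg hd (one_mul 1) (by rw [h0, one_smul])
  have hh : (2⁻¹ : F) * 2 = 1 := inv_mul_cancel₀ h2
  have hz : InRv ι M ![0, 2⁻¹, 2⁻¹, 0, 2⁻¹, 2⁻¹] := hv0.flip hι h2 hN 1 2 (by decide) (by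
    ext k; fin_cases k <;> simp [e, Matrix.vecHead, Matrix.vecTail] <;> ring)
  refine ⟨?_, hz⟩
  have hv : InRv ι M ![2⁻¹, 0, 0, 2⁻¹, 2⁻¹, -2⁻¹] := by
    refine (((hv0.swap hι h2 hN 0 1 2 3 (by decide) (v := ![-2⁻¹, 0, 0, -2⁻¹, 2⁻¹, 2⁻¹]) ?_).flip
      hι h2 hN 0 3 (by decide) (v := ![2⁻¹, 0, 0, 2⁻¹, 2⁻¹, 2⁻¹]) ?_).flip hι h2 hN 5 1 (by decide) ?_) <;>
    · ext k; fin_cases k <;> simp [e, Matrix.vecHead, Matrix.vecTail] <;> ring
  have hu : InRv ι M ![0, 0, 2⁻¹, 2⁻¹, 2⁻¹, 2⁻¹] := by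
    refine ((hv0.swap hι h2 hN 1 3 4 5 (by decide) (v := ![0, 0, -2⁻¹, -2⁻¹, 2⁻¹, 2⁻¹]) ?_).flip
      hι h2 hN 2 3 (by decide) ?_) <;>
    · ext k; fin_cases k <;> simp [e, Matrix.vecHead, Matrix.vecTail] <;> ring
  have := hu.reflect hι h2 hN hv
  convert this using 1
  ext k
  simp only [dotProduct, Fin.sum_univ_six, Pi.sub_apply, Pi.smul_apply, smul_eq_mul]
  fin_cases k <;> simp <;> field_simp <;> ring_nf
  all_goals exact Or.inl trivial

end Rv

variable [Fintype F] {p : ℕ} (hF : Fintype.card F = p) (hp : p.Prime) (hp4 : p % 4 = 1)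
include hF hp hp4

/-- An element of order `p` commuting with the first diagonal product. -/
lemma exists_pElement {M : Subgroup (GL (Fin 4) F)} (hN : Nstd hι h2 ≤ M)
    (hC : ∃ g ∈ M, (g : M₄) = blk 1 (qC ι)) :
    ∃ U ∈ M, U ≠ 1 ∧ U ^ p = 1 ∧ (U : M₄) * px ι 0 3 = px ι 0 3 * (U : M₄) := by
  haveI := charP_of_card hF hp hp4
  obtain ⟨hx, hz⟩ := exists_vectors hι h2 hN hC
  have hh : (2⁻¹ : F) * 2 = 1 := inv_mul_cancel₀ h2
  obtain ⟨h, hdef⟩ : ∃ h : F, h = 2⁻¹ := ⟨_, rfl⟩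
  rw [← hdef] at hx hz hh
  have hi : ι ≠ 0 := fun h0 => by simp [h0] at hι
  have hI : ∃ g ∈ M, (g : M₄) = X ι (e 5) * Y ι (e 4) :=
    ⟨pxu hι 5 4, hN (mono_pxu hι h2 5 4), coe_pxu hι 5 4⟩
  have nz : ∀ k : ℕ, 0 < k → k ≤ 16 → ¬ p ∣ k → ((k : ℕ) : F) ≠ 0 := fun k _ _ hk h0 =>
    hk ((CharP.cast_eq_zero_iff F p k).1 h0)
  have hp3 : ¬ p ∣ 3 := fun hd => by
    have := (Nat.prime_dvd_prime_iff_eq hp Nat.prime_three).1 hd; omega
  have h3 : (3 : F) ≠ 0 := by exact_mod_cast nz 3 (by norm_num) (by norm_num) hp3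
  have h0 : h ≠ 0 := fun e0 => by simp [e0] at hh
  obtain ⟨w, hw⟩ : ∃ w : Fin 6 → F, w = ![h, 0, -(h * h), h * h, 0, 0] := ⟨_, rfl⟩
  have hxd : ![h, 0, -(h * h), h * h, h * h, -(3 * (h * h))] =
      (-(3 * (h * h))) • (e 5 : Fin 6 → F) + (h * h) • e 4 + w := by
    subst hw; ext k; fin_cases k <;> simp [e]
  have hww : w ⬝ᵥ w = 3 * (h * h * h) := by
    subst hw; simp [dotProduct, Fin.sum_univ_six]
    linear_combination (h * h * (h - 1)) * hh
  have hgx := hx.mul hι h2 hN (inRv_e hι h2 hN 4)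
  rw [hxd] at hgx
  have hab : h * h * (h * h) + -(3 * (h * h)) * -(3 * (h * h)) + 3 * (h * h * h) = 1 := by
    linear_combination ((5 * h + 4) * h * h + 2 * h + 1) * hh
  have hcase : (2 * (h * h) ≠ 0 ∧ (2 * (h * h)) ^ 2 ≠ 1 ∧ (2 * (h * h)) ^ 2 ≠ 2 ∧
      (2 * (h * h)) ^ 4 - 3 * (2 * (h * h)) ^ 2 + 1 ≠ 0) ∨ (2 * (h * h)) ^ 2 = 4 := by
    have e4 : (2 * (h * h)) = h := by linear_combination h * hh
    rw [e4]
    by_cases h5 : p = 5
    · right
      have : (5 : F) = 0 := by exact_mod_cast (CharP.cast_eq_zero_iff F p 5).2 (by rw [h5])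
      linear_combination (-3 * h * h) * this + ((4 : F) * (1 + h * 2)) * hh
    · left
      refine ⟨h0, fun e1 => h3 ?_, fun e1 => ?_, fun e1 => ?_⟩
      · linear_combination -4 * e1 + (h * 2 + 1) * hh
      · have h7 : ¬ p ∣ 7 := fun hd => by
          have := (Nat.prime_dvd_prime_iff_eq hp (by norm_num)).1 hd; omega
        exact nz 7 (by norm_num) (by norm_num) h7
          (show ((7 : ℕ) : F) = 0 by push_cast; linear_combination -4 * e1 + (h * 2 + 1) * hh)
      · have h5' : ¬ p ∣ 5 := fun hd => h5 ((Nat.prime_dvd_prime_iff_eq hp (by norm_num)).1 hd)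
        exact nz 5 (by norm_num) (by norm_num) h5'
          (show ((5 : ℕ) : F) = 0 by
            push_cast
            linear_combination 16 * e1 + ((h * 2) ^ 3 + (h * 2) ^ 2 - 11 * (h * 2) - 11) * (-1 : F) * hh)
  have hdot : ∀ k : Fin 6, (e k : Fin 6 → F) ⬝ᵥ w = w k := fun k => by rw [dotProduct_comm, dot_e]
  obtain ⟨hsph, -⟩ := triad hι h2 hF hp hp4 (p1 := e 5) (p2 := e 4) (w := w) (e_dot_self 5) (e_dot_self 4)
    hww (by simp [e_dot]) (by rw [hdot, hw]; simp) (by rw [hdot, hw]; simp)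
    (mul_ne_zero h3 (mul_ne_zero (mul_ne_zero h0 h0) h0)) hI hab
    (neg_ne_zero.2 (mul_ne_zero h3 (mul_ne_zero h0 h0))) hgx (hcase.imp id Or.inl)
  by_cases h5 : p = 5
  · -- `p = 5`: a product with a singular part
    have c5 : (5 : F) = 0 := by exact_mod_cast (CharP.cast_eq_zero_iff F p 5).2 (by rw [h5])
    have hv3 : h = 3 := by linear_combination (3 : F) * hh - h * c5
    have hn1 : 3 * (h * h * h) = 1 := by rw [hv3]; linear_combination (16 : F) * c5
    obtain ⟨k, hk, hkw⟩ := hsph 0 0 1 (by linear_combination hn1)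
    rw [zero_smul, zero_smul, zero_add, zero_add, one_smul] at hkw
    have hwR : InRv ι M w := inRv_of_mul hι h2 hN (hww.trans hn1) (inRv_e hι h2 hN 4) ⟨k, hk, hkw⟩
    obtain ⟨U, hU, hUv⟩ := hwR.mul hι h2 hN (inRv_e hι h2 hN 2)
    obtain ⟨q, hq⟩ : ∃ q : Fin 6 → F, q = w - w 2 • e 2 := ⟨_, rfl⟩
    have hqq : q ⬝ᵥ q = 0 := by
      subst hq hw; simp [dotProduct, Fin.sum_univ_six, e, Matrix.vecHead, Matrix.vecTail]; rw [hv3]; linear_combination (18 : F) * c5
    have hq2 : q ⬝ᵥ e 2 = 0 := by subst hq hw; simp [e, Matrix.vecHead, Matrix.vecTail]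
    have hq0 : q ≠ 0 := fun e0 => by
      have := congrFun e0 0
      subst hq hw; simp [e, Matrix.vecHead, Matrix.vecTail] at this; exact h0 this
    obtain ⟨N, hNdef⟩ : ∃ N : M₄, N = X ι q * Y ι (e 2) := ⟨_, rfl⟩
    have hUN : (U : M₄) = 1 + N := by
      have hw2 : w 2 = 1 := by subst hw; simp; rw [hv3]; linear_combination (-2 : F) * c5
      rw [hUv, show w = q + w 2 • e 2 by rw [hq, sub_add_cancel], X_add, X_smul, add_mul, ← hNdef,
        Matrix.smul_mul, X_mul_Y hι, e_dot_self, one_smul, hw2, one_smul, add_comm]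
    have hNN : N * N = 0 := by
      have a1 : Y ι (e 2) * X ι q = -(Y ι q * X ι (e 2)) :=
        eq_neg_of_add_eq_zero_left ((Y_mul_X_add hι (e 2) q).trans (by simp [dotProduct_comm, hq2]))
      rw [hNdef, mul_assoc, ← mul_assoc (Y ι (e 2)), a1, Matrix.neg_mul, Matrix.mul_neg,
        mul_assoc (Y ι q), ← mul_assoc, X_mul_Y hι, hqq, zero_smul, Matrix.zero_mul, neg_zero]
    have hpow : ∀ n : ℕ, (1 + N) ^ n = 1 + (n : F) • N := by
      intro n
      induction n with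
      | zero => simp
      | succ n ih =>
        rw [pow_succ, ih, add_mul, mul_add, mul_add, one_mul, one_mul, mul_one, Matrix.smul_mul, hNN,
          smul_zero, add_zero, Nat.cast_succ, add_smul, one_smul]
        abel
    have hN0 : N ≠ 0 := fun e0 => hq0 (X_injective hι h2 (by
      have := congrArg (· * X ι (e 2)) e0
      simp only [hNdef, mul_assoc, Y_mul_X hι, e_dot_self, one_smul, mul_one, Matrix.zero_mul] at this
      rw [this, show (0 : Fin 6 → F) = (0 : F) • 0 by simp, X_smul, zero_smul]))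
    obtain ⟨g, hg, hl⟩ := exists_swap hι h2 0 4 3 5 (by decide)
    refine ⟨g * U * g⁻¹, mul_mem (mul_mem (hN hg) hU) (inv_mem (hN hg)), fun e1 => hN0 ?_, ?_, ?_⟩
    · rw [mul_inv_eq_one, mul_eq_left] at e1
      rw [e1, Units.val_one, left_eq_add] at hUN
      exact hUN
    · rw [conj_pow, show U ^ p = 1 from Units.ext (by
        rw [Units.val_pow_eq_pow_val, hUN, hpow, CharP.cast_eq_zero, zero_smul, add_zero]; rfl),
        mul_one, mul_inv_cancel]
    · have hg4 : lam ι g (e 4) = e 0 := by rw [hl]; simp [e]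
      have hg5 : lam ι g (e 5) = e 3 := by rw [hl]; simp [e]
      rw [Units.val_mul, Units.val_mul, hUv, conj_XY hι h2 hg.1 w (by simp), px,
        ← hg4, ← hg5]
      refine (XY_comm hι ?_ ?_ ?_ ?_).symm <;> rw [dot_lam₂ hι h2 hg.1, dot_e] <;> simp [hw, e]
  · -- `p ≥ 13`: a generator of the multiplicative group
    have hp13 : 13 ≤ p := by
      have := hp.two_le
      by_contra hlt
      interval_cases p <;> first | omega | (norm_num at hp) | skip
    obtain ⟨s, hs⟩ := IsCyclic.exists_generator (α := Fˣ)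
    have hso : 12 ≤ orderOf (s : F) := by
      rw [orderOf_units, orderOf_eq_card_of_forall_mem_zpowers hs, Nat.card_units,
        Nat.card_eq_fintype_card, hF]
      omega
    have hs0 : (s : F) ≠ 0 := s.ne_zero
    obtain ⟨k, hk, hkv⟩ := hsph (((s : F) - (s : F)⁻¹) / (2 * ι)) (((s : F) + (s : F)⁻¹) / 2) 0 (by
      field_simp
      linear_combination (((s : F) * s + 1) * ((s : F) * s + 1)) * hι - (4 : F) * (s : F) * s * hι)
    rw [zero_smul, add_zero] at hkv
    have hzd : ![0, h, h, 0, h, h] = h • (e 5 : Fin 6 → F) + h • e 4 + ![0, h, h, 0, 0, 0] := by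
      ext i; fin_cases i <;> simp [e]
    have hgz := hz.mul hι h2 hN (inRv_e hι h2 hN 4)
    rw [hzd] at hgz
    have hn : (![0, h, h, 0, 0, 0] : Fin 6 → F) ⬝ᵥ ![0, h, h, 0, 0, 0] = h := by
      simp [dotProduct, Fin.sum_univ_six]; linear_combination h * hh
    obtain ⟨-, U, hU, hU1, hUp, hUv⟩ := triad hι h2 hF hp hp4 (p1 := e 5) (p2 := e 4) (e_dot_self 5)
      (e_dot_self 4) hn (by simp [e_dot]) (by rw [dotProduct_comm, dot_e]; simp)
      (by rw [dotProduct_comm, dot_e]; simp) h0 hI (by linear_combination (1 + h) * hh) h0 hgz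
      (Or.inr (Or.inr ⟨s, hso, k, hk, hkv⟩))
    refine ⟨U, hU, hU1, hUp, ?_⟩
    have c4 := XY_comm hι (u := e 4) (v := ![0, h, h, 0, 0, 0]) (a := e 0) (b := e 3)
      (by simp [e_dot]) (by simp [e_dot]) (by rw [dot_e]; simp) (by rw [dot_e]; simp)
    have c5 := XY_comm hι (u := e 5) (v := ![0, h, h, 0, 0, 0]) (a := e 0) (b := e 3)
      (by simp [e_dot]) (by simp [e_dot]) (by rw [dot_e]; simp) (by rw [dot_e]; simp)
    rw [hUv, px]
    simp only [add_mul, mul_add, one_mul, mul_one, Matrix.smul_mul, Matrix.mul_smul, sub_mul, mul_sub, c4, c5]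

/-- Every element of `p`-th power one commuting with the first diagonal product lies in `M`. -/
lemma mem_of_comm {M : Subgroup (GL (Fin 4) F)} (hN : Nstd hι h2 ≤ M)
    (hC : ∃ g ∈ M, (g : M₄) = blk 1 (qC ι)) {g : GL (Fin 4) F} (hgp : g ^ p = 1)
    (hg : (g : M₄) * px ι 0 3 = px ι 0 3 * (g : M₄)) : g ∈ M := by
  haveI : Fact p.Prime := ⟨hp⟩
  have hdet : ∀ {A : M₂}, A ^ p = 1 → A.det = 1 := fun {A} hA => by
    have := congrArg Matrix.det hA
    rwa [Matrix.det_pow, Matrix.det_one, ← hF, FiniteField.pow_card] at this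
  have blk_pow : ∀ (A B : M₂) (n : ℕ), blk A B ^ n = blk (A ^ n) (B ^ n) := by
    intro A B n
    induction n with
    | zero => simp [blk_one]
    | succ n ih => rw [pow_succ, ih, blk_mul, ← pow_succ, ← pow_succ]
  have split : ∀ {U : GL (Fin 4) F}, U ^ p = 1 → (U : M₄) * px ι 0 3 = px ι 0 3 * (U : M₄) →
      ∃ A B : SL₂, (U : M₄) = blk (A : M₂) (B : M₂) ∧ A ^ p = 1 ∧ B ^ p = 1 := by
    intro U hUp hUc
    have hb := exists_blk hι h2 hUc
    have := congrArg (fun x : GL (Fin 4) F => (x : M₄)) hUp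
    simp only [Units.val_pow_eq_pow_val, Units.val_one] at this
    rw [hb, blk_pow, ← blk_one] at this
    obtain ⟨hA, hB⟩ := blk_inj this
    let A' : SL₂ := ⟨_, hdet hA⟩
    let B' : SL₂ := ⟨_, hdet hB⟩
    exact ⟨A', B', hb, Subtype.ext ((Matrix.SpecialLinearGroup.coe_pow A' p).trans hA),
      Subtype.ext ((Matrix.SpecialLinearGroup.coe_pow B' p).trans hB)⟩
  have hZ : (qZ : M₂) * qZ = 1 := qZ_sq hι h2
  have hZc : ∀ A : M₂, (qZ : M₂) * (qZ * A * qZ) * qZ = A := fun A => by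
    rw [← mul_assoc, ← mul_assoc, hZ, one_mul, mul_assoc, hZ, mul_one]
  have hdc : ∀ A : SL₂, ((qZ : M₂) * (A : M₂) * qZ).det = 1 := fun A => by
    rw [Matrix.det_mul, Matrix.det_mul, A.2, mul_one, ← Matrix.det_mul, hZ, Matrix.det_one]
  let cz : SL₂ → SL₂ := fun A => ⟨(qZ : M₂) * (A : M₂) * qZ, hdc A⟩
  let G1 : Subgroup SL₂ := M.comap (lowHom (F := F))
  have hlow : ∀ B : SL₂, ((lowHom B : GL (Fin 4) F) : M₄) = blk 1 (B : M₂) := coe_lowHom
  have htop : G1 = ⊤ := by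
    obtain ⟨U, hU, hU1, hUp, hUc⟩ := exists_pElement hι h2 hF hp hp4 hN hC
    obtain ⟨A, B, hUv, hAp, hBp⟩ := split hUp hUc
    obtain ⟨U, A, B, hU, hUv, hB1, hBp⟩ : ∃ (U : GL (Fin 4) F) (A B : SL₂),
        U ∈ M ∧ (U : M₄) = blk (A : M₂) (B : M₂) ∧ B ≠ 1 ∧ B ^ p = 1 := by
      by_cases hB : B = 1
      swap
      · exact ⟨U, A, B, hU, hUv, hB, hBp⟩
      have hA : A ≠ 1 := fun hA => hU1 (Units.ext (by
        rw [hUv, hA, hB, Matrix.SpecialLinearGroup.coe_one, blk_one]; rfl))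
      have hq := hN (mono_pxu hι h2 0 2)
      refine ⟨pxu hι 0 2 * U * (pxu hι 0 2)⁻¹, cz B, cz A, mul_mem (mul_mem hq hU) (inv_mem hq), ?_, ?_, ?_⟩
      · rw [Units.val_mul, Units.val_mul, coe_pxu, hUv, px02_blk hι, mul_assoc, ← coe_pxu hι,
          Units.mul_inv, mul_one]
      · intro hh
        have := congrArg (fun x : SL₂ => (qZ : M₂) * (x : M₂) * qZ) hh
        simp only [cz, hZc, Matrix.SpecialLinearGroup.coe_one, mul_one, hZ] at this
        exact hA (Subtype.ext this)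
      · have hpw : ∀ n : ℕ, ((cz A ^ n : SL₂) : M₂) = qZ * ((A ^ n : SL₂) : M₂) * qZ := by
          intro n
          induction n with
          | zero => simp [hZ]
          | succ n ih =>
            rw [pow_succ, pow_succ, Matrix.SpecialLinearGroup.coe_mul, Matrix.SpecialLinearGroup.coe_mul, ih]
            show qZ * _ * qZ * (qZ * (A : M₂) * qZ) = _
            simp only [mul_assoc]
            rw [← mul_assoc (qZ : M₂) qZ, hZ, one_mul]
        refine Subtype.ext ?_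
        rw [hpw, hAp]
        simp [hZ]
    have memG : ∀ {B : SL₂} {g : GL (Fin 4) F}, g ∈ M → (g : M₄) = blk 1 (B : M₂) → B ∈ G1 := by
      intro B g hg hgv
      show lowHom B ∈ M
      rwa [show lowHom B = g from Units.ext ((hlow B).trans hgv.symm)]
    have dI : (qI ι).det = 1 := by simp [qI, Matrix.det_fin_two]; linear_combination -hι
    have dW : (qW : M₂).det = 1 := by simp [qW, Matrix.det_fin_two]
    obtain ⟨c, hc, hcv⟩ := hC
    refine eq_top_of_normalised_pElement hF hp hp4 hι (I := ⟨qI ι, dI⟩) (W := ⟨qW, dW⟩)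
      (C := ⟨qC ι, det_qC hι h2⟩) rfl (hN (qI_mono hι h2 (hlow _))) rfl (hN (qW_mono hι h2 (hlow _)))
      rfl (memG hc hcv) hB1 hBp fun X hX => ?_
    show lowHom (B * X * B⁻¹) ∈ M
    have he : lowHom (B * X * B⁻¹) = U * lowHom X * U⁻¹ := by
      rw [eq_mul_inv_iff_mul_eq]
      refine Units.ext ?_
      rw [Units.val_mul, Units.val_mul, hlow, hlow, hUv, blk_mul, blk_mul, one_mul, mul_one,
        ← Matrix.SpecialLinearGroup.coe_mul, inv_mul_cancel_right]
      rfl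
    rw [he]
    exact mul_mem (mul_mem hU hX) (inv_mem hU)
  have mem_low : ∀ B : SL₂, lowHom B ∈ M := fun B => by
    have : B ∈ G1 := htop ▸ Subgroup.mem_top B
    exact this
  obtain ⟨A, B, hgv, -, -⟩ := split hgp hg
  have hq := hN (mono_pxu hι h2 0 2)
  have he : g = pxu hι 0 2 * lowHom (cz A) * (pxu hι 0 2)⁻¹ * lowHom B := by
    refine Units.ext ?_
    rw [hgv, Units.val_mul, Units.val_mul, Units.val_mul, hlow, hlow, coe_pxu, px02_blk hι]
    show _ = blk (qZ * (qZ * (A : M₂) * qZ) * qZ) (qZ * 1 * qZ) * px ι 0 2 * _ * _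
    rw [mul_assoc (blk _ _) (px ι 0 2), ← coe_pxu hι, Units.mul_inv, mul_one, hZc, mul_one, hZ, blk_mul,
      one_mul, mul_one]
  rw [he]
  exact mul_mem (mul_mem (mul_mem hq (mem_low _)) (inv_mem hq)) (mem_low _)

/-- The closing step: the monomial group and the controlled element of order three generate. -/
theorem eq_specialLinear_of_qC {M : Subgroup (GL (Fin 4) F)}
    (hle : M ≤ Cfsg.Geo.specialLinear (Fin 4) F) (hN : Nstd hι h2 ≤ M)
    (hC : ∃ g ∈ M, (g : M₄) = blk 1 (qC ι)) : M = Cfsg.Geo.specialLinear (Fin 4) F := by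
  haveI : Fact p.Prime := ⟨hp⟩
  haveI := charP_of_card hF hp hp4
  refine le_antisymm hle ?_
  have moved : ∀ a b c d : Fin 6, [a, b, c, d].Nodup → ∀ {T : GL (Fin 4) F}, T ^ p = 1 → ∀ u v : Fin 6,
      (∀ w : Fin 6 → F, w = e 0 → w - (w a - w b) • (e a - e b) - (w c - w d) • (e c - e d) = e u) →
      (∀ w : Fin 6 → F, w = e 3 → w - (w a - w b) • (e a - e b) - (w c - w d) • (e c - e d) = e v) →
      (T : M₄) * px ι u v = px ι u v * (T : M₄) → T ∈ M := by
    intro a b c d hn T hT u v hu hv hTc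
    obtain ⟨g, hg, hl⟩ := exists_swap hι h2 a b c d hn
    have hconj : (g : M₄) * px ι 0 3 * ((g⁻¹ : GL (Fin 4) F) : M₄) = px ι u v := by
      rw [px, conj_XY hι h2 hg.1 (e 0) (by simp), hl, hl, hu _ rfl, hv _ rfl, px]
    have hmem := mem_of_comm hι h2 hF hp hp4 hN hC (g := g⁻¹ * T * g) (by
      have := conj_pow (a := g⁻¹) (b := T) (i := p)
      rw [inv_inv] at this
      rw [this, hT, mul_one, inv_mul_cancel]) (by
      rw [← hconj] at hTc
      have := congrArg (fun x : M₄ => ((g⁻¹ : GL (Fin 4) F) : M₄) * x * (g : M₄)) hTc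
      simpa [mul_assoc] using this)
    have := mul_mem (mul_mem (hN hg) hmem) (inv_mem (hN hg))
    rwa [show g * (g⁻¹ * T * g) * g⁻¹ = T by group] at this
  have hM : M.comap (SpecialLinearGroup.toGL : Matrix.SpecialLinearGroup (Fin 4) F →* GL (Fin 4) F) = ⊤ := by
    refine CfsgLib.ClassicalLinear.eq_top_of_transvection_mem fun i j hij c => ?_
    rw [Subgroup.mem_comap]
    obtain ⟨T, hT⟩ : ∃ T, T = SpecialLinearGroup.toGL (SpecialLinearGroup.transvection hij c) := ⟨_, rfl⟩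
    have hTv : (T : M₄) = Matrix.transvection i j c := by rw [hT]; rfl
    have hpowc : ∀ n : ℕ, Matrix.transvection i j c ^ n = Matrix.transvection i j ((n : F) * c) := by
      intro n
      induction n with
      | zero => simp [Matrix.transvection_zero]
      | succ n ih =>
        rw [pow_succ, ih, Matrix.transvection_mul_transvection_same _ _ hij, Nat.cast_succ, add_mul, one_mul]
    have hTp : T ^ p = 1 := Units.ext (by
      rw [Units.val_pow_eq_pow_val, hTv, hpowc, CharP.cast_eq_zero, zero_mul, Matrix.transvection_zero]; rfl)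
    have hd : ∀ d : Fin 4 → F, d i = d j → (T : M₄) * Matrix.diagonal d = Matrix.diagonal d * (T : M₄) := by
      intro d hd
      rw [hTv]
      ext a b
      simp only [Matrix.mul_diagonal, Matrix.diagonal_mul, Matrix.transvection, Matrix.add_apply,
        Matrix.one_apply, Matrix.single_apply]
      by_cases hab : a = b
      · subst hab; ring
      · by_cases hij' : i = a ∧ j = b
        · obtain ⟨rfl, rfl⟩ := hij'
          rw [if_neg hab, hd]; ring
        · rw [if_neg hab, if_neg hij']; ring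
    have hpairs : (i.val / 2 = j.val / 2) ∨ (i.val % 2 = j.val % 2) ∨ i.val + j.val = 3 := by
      revert hij; fin_cases i <;> fin_cases j <;> simp
    have hcase : (T : M₄) * px ι 0 3 = px ι 0 3 * (T : M₄) ∨ (T : M₄) * px ι 1 4 = px ι 1 4 * (T : M₄) ∨
        (T : M₄) * px ι 2 5 = px ι 2 5 * (T : M₄) := by
      have d03 : (px ι 0 3 : M₄) = Matrix.diagonal ![-ι, -ι, ι, ι] := by
        rw [px03 hι]; ext a b; fin_cases a <;> fin_cases b <;> simp
      have d14 : (px ι 1 4 : M₄) = Matrix.diagonal ![-ι, ι, -ι, ι] := by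
        rw [px14 hι]; ext a b; fin_cases a <;> fin_cases b <;> simp
      have d25 : (px ι 2 5 : M₄) = Matrix.diagonal ![-ι, ι, ι, -ι] := by
        rw [px25 hι]; ext a b; fin_cases a <;> fin_cases b <;> simp
      rw [d03, d14, d25]
      rcases hpairs with h | h | h
      · exact Or.inl (hd _ (by revert h hij; fin_cases i <;> fin_cases j <;> simp))
      · exact Or.inr (Or.inl (hd _ (by revert h hij; fin_cases i <;> fin_cases j <;> simp)))
      · exact Or.inr (Or.inr (hd _ (by revert h hij; fin_cases i <;> fin_cases j <;> simp)))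
    rw [← hT]
    rcases hcase with h | h | h
    · exact mem_of_comm hι h2 hF hp hp4 hN hC hTp h
    · refine moved 0 1 3 4 (by decide) hTp 1 4 ?_ ?_ h <;>
        rintro w rfl <;> ext k <;> fin_cases k <;> simp [e, Matrix.vecHead, Matrix.vecTail]
    · refine moved 0 2 3 5 (by decide) hTp 2 5 ?_ ?_ h <;>
        rintro w rfl <;> ext k <;> fin_cases k <;> simp [e, Matrix.vecHead, Matrix.vecTail]
  intro g hg
  rw [Cfsg.Geo.specialLinear, ← CfsgLib.ClassicalLinear.toGL_range_eq_ker_det] at hg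
  obtain ⟨x, rfl⟩ := hg
  have : x ∈ M.comap (SpecialLinearGroup.toGL : Matrix.SpecialLinearGroup (Fin 4) F →* GL (Fin 4) F) :=
    hM ▸ Subgroup.mem_top x
  exact this

end CfsgLib.Geometric.SLFour
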