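import Cfsg.Agent.Lib.Geometric.SLFour.Perm
import Cfsg.Agent.Lib.Involutions.BrauerSuzuki
import Cfsg.Agent.Lib.CoprimeAction.Abelian
import Cfsg.Agent.Lib.CoprimeAction.Glauberman

/-!
A finite group with a subgroup `N`, an extension of a four-dimensional elementary abelian
2-group, the even part of the permutation module on six points, by a group of permutations
containing the double transpositions: if the centralisers of the involutions of the normal
2-group lie in `N` and those involutions do not fuse to others of `N`, then `N` is the whole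
group.
-/

set_option autoImplicit false
set_option linter.unusedSectionVars false

namespace CfsgLib.Geometric.SLFour.Global

open Equiv CfsgLib.Involutions CfsgLib.Geometric.SLFour.Perm

universe u

/-- A subgroup with a normal 2-group indexed by pairs of six points. -/
structure Data (G : Type*) [Group G] (N : Subgroup G) where
  pi : N →* Equiv.Perm (Fin 6)
  x : Fin 6 → Fin 6 → G
  x_symm : ∀ a b, x a b = x b a
  x_self : ∀ a, x a a = 1
  x_ne : ∀ a b, a ≠ b → x a b ≠ 1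
  x_mem : ∀ a b, x a b ∈ N
  x_sq : ∀ a b, x a b * x a b = 1
  x_commute : ∀ a b c d, Commute (x a b) (x c d)
  x_ker : ∀ a b, pi ⟨x a b, x_mem a b⟩ = 1
  x_inj : ∀ a b c d, a ≠ b → x a b = x c d → (c = a ∧ d = b) ∨ (c = b ∧ d = a)
  x_mul : ∀ a b c d e f, [a, b, c, d, e, f].Nodup → x a b * x c d = x e f
  x_adj : ∀ a b c, a ≠ c → x a b * x b c = x a c
  ker_eq : ∀ n : N, pi n = 1 → ∃ a b, (n : G) = x a b
  conj : ∀ (n : N) a b, (n : G) * x a b * (n : G)⁻¹ = x (pi n a) (pi n b)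
  lift : ∀ a b c d, [a, b, c, d].Nodup →
    ∃ n : N, pi n = Equiv.swap a b * Equiv.swap c d ∧ n * n = 1

variable {G : Type u} [Group G] {N : Subgroup G}

/-- The centralisers of the involutions indexed by pairs lie in `N`. -/
def Local (D : Data G N) : Prop :=
  ∀ a b, a ≠ b → Subgroup.centralizer ({D.x a b} : Set G) ≤ N

/-- A conjugate in `N` of an involution indexed by a pair is indexed by a pair. -/
def Fusion (D : Data G N) : Prop :=
  ∀ (g : G) a b, a ≠ b → g * D.x a b * g⁻¹ ∈ N → ∃ c d, g * D.x a b * g⁻¹ = D.x c d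

/-- The normal 2-group. -/
def Data.V (D : Data G N) : Subgroup G := D.pi.ker.map N.subtype

variable (D : Data G N)

theorem Data.mem_V {g : G} : g ∈ D.V ↔ ∃ a b, g = D.x a b := by
  constructor
  · rintro ⟨n, hn, rfl⟩
    exact D.ker_eq n hn
  · rintro ⟨a, b, rfl⟩
    exact ⟨⟨D.x a b, D.x_mem a b⟩, D.x_ker a b, rfl⟩

theorem Data.coe_mem_V_iff {n : N} : (n : G) ∈ D.V ↔ D.pi n = 1 := by
  constructor
  · rintro ⟨m, hm, he⟩
    rwa [← Subtype.ext (show (m : G) = n from he)]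
  · exact fun h => ⟨n, h, rfl⟩

theorem Data.x_inv (a b : Fin 6) : (D.x a b)⁻¹ = D.x a b :=
  inv_eq_of_mul_eq_one_left (D.x_sq a b)

theorem Data.orderOf_x {a b : Fin 6} (h : a ≠ b) : orderOf (D.x a b) = 2 :=
  orderOf_eq_two_iff.2 ⟨D.x_sq a b, D.x_ne a b h⟩

theorem Data.V_sq {g : G} (h : g ∈ D.V) : g * g = 1 := by
  obtain ⟨a, b, rfl⟩ := D.mem_V.1 h
  exact D.x_sq a b

theorem Data.V_commute {g h : G} (hg : g ∈ D.V) (hh : h ∈ D.V) : Commute g h := by
  obtain ⟨a, b, rfl⟩ := D.mem_V.1 hg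
  obtain ⟨c, d, rfl⟩ := D.mem_V.1 hh
  exact D.x_commute a b c d

theorem Data.conj_mem_V {n g : G} (hn : n ∈ N) (hg : g ∈ D.V) : n * g * n⁻¹ ∈ D.V := by
  obtain ⟨a, b, rfl⟩ := D.mem_V.1 hg
  exact D.mem_V.2 ⟨_, _, D.conj ⟨n, hn⟩ a b⟩

theorem Data.commute_iff {n : N} {a b : Fin 6} (hab : a ≠ b) :
    Commute (n : G) (D.x a b) ↔ Inv (D.pi n) a b := by
  rw [commute_iff_eq, ← mul_inv_eq_iff_eq_mul, D.conj]
  constructor
  · intro h
    exact D.x_inj a b _ _ hab h.symm
  · rintro (⟨h1, h2⟩ | ⟨h1, h2⟩) <;> rw [h1, h2]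
    exact D.x_symm b a

theorem Data.sq_pi {n : N} (h : (n : G) * n = 1) : D.pi n * D.pi n = 1 := by
  rw [← map_mul, show n * n = (1 : N) from Subtype.ext h, map_one]

theorem Data.exists_move (a b c : Fin 6) (hba : b ≠ a) (hca : c ≠ a) :
    ∃ n : N, D.pi n a = a ∧ D.pi n b = c := by
  by_cases hbc : b = c
  · exact ⟨1, by simp, by simp [hbc]⟩
  obtain ⟨g, h, hgh, h1, h2, h3, h4, h5, h6⟩ := exists_pair_avoid a b c
  obtain ⟨n, hn, -⟩ := D.lift b c g h (by
    simp only [List.nodup_cons, List.mem_cons, List.not_mem_nil, List.nodup_nil]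
    grind)
  exact ⟨n, by rw [hn, Perm.mul_apply]; grind, by rw [hn, Perm.mul_apply]; grind⟩

/-- `N` is transitive on pairs. -/
theorem Data.exists_conj {a b c d : Fin 6} (hab : a ≠ b) (hcd : c ≠ d) :
    ∃ n : N, (n : G) * D.x a b * (n : G)⁻¹ = D.x c d := by
  obtain ⟨e, -, -, hea, hec, -⟩ := exists_pair_avoid a c c
  obtain ⟨n₁, -, h1⟩ := D.exists_move e a c hea.symm hec.symm
  obtain ⟨n₂, h2, h3⟩ := D.exists_move c (D.pi n₁ b) d
    (h1 ▸ fun he => hab ((D.pi n₁).injective he).symm) hcd.symm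
  exact ⟨n₂ * n₁, by rw [D.conj, map_mul, Perm.mul_apply, Perm.mul_apply, h1, h2, h3]⟩

theorem Data.mem_N_of_commute (hl : Local D) {a b : Fin 6} (hab : a ≠ b) {g : G}
    (hg : Commute g (D.x a b)) : g ∈ N :=
  hl a b hab (mem_centralizer_singleton.2 hg.eq)

/-- An element fusing two pair involutions lies in `N`. -/
theorem Data.mem_N_of_conj (hl : Local D) {a b : Fin 6} (hab : a ≠ b) {k : G}
    (hk : k * D.x a b * k⁻¹ ∈ D.V) : k ∈ N := by
  obtain ⟨c, d, hk⟩ := D.mem_V.1 hk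
  have hcd : c ≠ d := by
    rintro rfl
    rw [D.x_self, conj_eq_one_iff] at hk
    exact D.x_ne a b hab hk
  obtain ⟨n, hn⟩ := D.exists_conj hab hcd
  have h : (n : G)⁻¹ * k ∈ N := by
    refine D.mem_N_of_commute hl hab ?_
    rw [commute_iff_eq, ← mul_inv_eq_iff_eq_mul]
    calc (n : G)⁻¹ * k * D.x a b * ((n : G)⁻¹ * k)⁻¹
        = (n : G)⁻¹ * (k * D.x a b * k⁻¹) * n := by group
      _ = (n : G)⁻¹ * (n * D.x a b * (n : G)⁻¹) * n := by rw [hk, hn]
      _ = D.x a b := by group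
  simpa using mul_mem n.2 h

/-- Lifting `(a c)(b d)` to an involution centralising a given one. -/
theorem Data.exists_lift_commute {a b c d e f : Fin 6} (h : [a, b, c, d, e, f].Nodup) {n : N}
    (hn : n * n = 1) (ha : D.pi n a = b) (hb : D.pi n b = a) (hc : D.pi n c = d)
    (hd : D.pi n d = c) :
    ∃ m : N, D.pi m = swap a c * swap b d ∧ (m : G) * m = 1 ∧ Commute (n : G) m := by
  have hnd := h
  simp only [List.nodup_cons, List.mem_cons, List.not_mem_nil] at hnd
  obtain ⟨t, ht, ht2⟩ := D.lift a c b d (by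
    simp only [List.nodup_cons, List.mem_cons, List.not_mem_nil, List.nodup_nil]
    grind)
  have hn' : (n : G) * n = 1 := congrArg Subtype.val hn
  have ht' : (t : G) * t = 1 := congrArg Subtype.val ht2
  have hπn := apply_apply_of_sq (D.sq_pi hn')
  have hcomm : D.pi n * D.pi t = D.pi t * D.pi n := by
    refine Equiv.ext fun i => ?_
    rw [ht]
    simp only [Perm.mul_apply]
    have he : D.pi n e = e ∨ D.pi n e = f := by
      have := mem_of_nodup h (D.pi n e)
      grind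
    have hf : D.pi n f = e ∨ D.pi n f = f := by
      have := mem_of_nodup h (D.pi n f)
      grind
    rcases mem_of_nodup h i with rfl | rfl | rfl | rfl | rfl | rfl <;>
      rcases he with he | he <;> rcases hf with hf | hf <;> grind
  have hv : D.pi (n * t * (n * t)) = 1 := by
    simp only [map_mul]
    calc D.pi n * D.pi t * (D.pi n * D.pi t)
        = D.pi n * D.pi t * (D.pi t * D.pi n) := by rw [hcomm]
      _ = D.pi n * (D.pi t * D.pi t) * D.pi n := by group
      _ = 1 := by rw [D.sq_pi ht', mul_one, D.sq_pi hn']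
  obtain ⟨i, j, hij⟩ := D.ker_eq _ hv
  simp only [Subgroup.coe_mul] at hij
  have hnv : Commute (n : G) (D.x i j) := by
    rw [commute_iff_eq]
    calc (n : G) * D.x i j = n * (D.x i j)⁻¹ := by rw [D.x_inv]
      _ = n * ((n * t * (n * t)) : G)⁻¹ := by rw [hij]
      _ = n * ((t : G)⁻¹ * (n : G)⁻¹ * (t : G)⁻¹ * (n : G)⁻¹) := by group
      _ = n * (t * n * t * n) := by
        rw [inv_eq_of_mul_eq_one_left hn', inv_eq_of_mul_eq_one_left ht']
      _ = n * t * (n * t) * n := by group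
      _ = D.x i j * n := by rw [hij]
  have htv : Commute (t : G) (D.x i j) := by
    rw [commute_iff_eq]
    calc (t : G) * D.x i j = t * (D.x i j)⁻¹ := by rw [D.x_inv]
      _ = t * ((n * t * (n * t)) : G)⁻¹ := by rw [hij]
      _ = (t * (t : G)⁻¹) * ((n : G)⁻¹ * (t : G)⁻¹ * (n : G)⁻¹) := by group
      _ = n * t * n * (t * t) := by
        rw [inv_eq_of_mul_eq_one_left hn', inv_eq_of_mul_eq_one_left ht', ht', mul_one, one_mul]
      _ = n * t * (n * t) * t := by group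
      _ = D.x i j * t := by rw [hij]
  have hcases : D.x i j = 1 ∨ D.x i j = D.x e f := by
    by_cases hne : i = j
    · exact Or.inl (by rw [hne, D.x_self])
    · rcases eq_of_inv_of_inv h ha hb hc hd hne ((D.commute_iff hne).1 hnv)
        (ht ▸ (D.commute_iff hne).1 htv) with ⟨rfl, rfl⟩ | ⟨rfl, rfl⟩
      · exact Or.inr rfl
      · exact Or.inr (D.x_symm _ _)
  rcases hcases with hv1 | hv1
  · refine ⟨t, ht, ht', ?_⟩
    rw [hv1] at hij
    rw [commute_iff_eq]
    have h1 := eq_inv_of_mul_eq_one_left hij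
    rwa [mul_inv_rev, inv_eq_of_mul_eq_one_left hn', inv_eq_of_mul_eq_one_left ht'] at h1
  · refine ⟨⟨D.x a c, D.x_mem a c⟩ * t, by rw [map_mul, D.x_ker, one_mul, ht], ?_, ?_⟩
    · have hct : Commute (t : G) (D.x a c) := by
        refine (D.commute_iff ?_).2 ?_
        · grind
        · rw [ht]
          simp only [Perm.Inv, Perm.mul_apply]
          grind
      show D.x a c * (t : G) * (D.x a c * t) = 1
      rw [mul_assoc, ← mul_assoc (t : G), hct.eq, ← mul_assoc, ← mul_assoc, D.x_sq, one_mul, ht']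
    · have hbd : (n : G) * D.x a c = D.x b d * n := by
        rw [← mul_inv_eq_iff_eq_mul, D.conj, ha, hc]
      have hmul : D.x b d * D.x e f = D.x a c := D.x_mul b d e f a c (by
        simp only [List.nodup_cons, List.mem_cons, List.not_mem_nil, List.nodup_nil]
        grind)
      have hnt : (n : G) * t = D.x e f * (t * n) := by
        rw [← hv1, ← hij]
        calc (n : G) * t = n * t * n * (t * t) * n := by rw [ht', mul_one, mul_assoc _ (n : G), hn', mul_one]
          _ = n * t * (n * t) * (t * n) := by group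
      show (n : G) * (D.x a c * t) = D.x a c * t * n
      calc (n : G) * (D.x a c * t) = D.x b d * (n * t) := by rw [← mul_assoc, hbd, mul_assoc]
        _ = D.x b d * D.x e f * (t * n) := by rw [hnt, mul_assoc (D.x b d)]
        _ = D.x a c * t * n := by rw [hmul, mul_assoc]

/-- Of two involutions and their products with a power `w` of their product, each one of the
products is conjugate to one of the involutions, and different ones to different ones. -/
theorem conj_or_conj {x y : G} (hx : orderOf x = 2) (hy : orderOf y = 2) (h : ℕ) :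
    (IsConj x ((x * y) ^ h * x) ∧ IsConj y ((x * y) ^ h * y)) ∨
      (IsConj y ((x * y) ^ h * x) ∧ IsConj x ((x * y) ^ h * y)) := by
  have hX : ∀ k : ℤ, IsConj x ((x * y) ^ (2 * k) * x) := fun k =>
    isConj_iff.2 ⟨(x * y) ^ k, conj_left_by_zpow hx hy k⟩
  have hY : ∀ k : ℤ, IsConj y ((x * y) ^ (2 * k - 1) * x) := fun k => by
    refine isConj_iff.2 ⟨(x * y) ^ k, ?_⟩
    conv_lhs => arg 1; arg 2; rw [right_eq_zpow_mul hx hy]
    rw [← mul_assoc, ← zpow_add, ← zpow_neg, mul_assoc, mul_zpow_eq hx hy, ← mul_assoc, ← zpow_add]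
    congr 2
    ring
  have hwy : (x * y) ^ h * y = (x * y) ^ ((h : ℤ) - 1) * x := by
    conv_lhs => arg 2; rw [right_eq_zpow_mul hx hy]
    rw [← mul_assoc, ← zpow_natCast, ← zpow_add, sub_eq_add_neg]
  rw [hwy, ← zpow_natCast]
  rcases Int.even_or_odd' (h : ℤ) with ⟨k, hk | hk⟩ <;> rw [hk]
  · exact Or.inl ⟨hX k, hY k⟩
  · refine Or.inr ⟨?_, ?_⟩
    · have := hY (k + 1)
      rwa [show 2 * (k + 1) - 1 = 2 * k + 1 by ring] at this
    · rw [add_sub_cancel_right]
      exact hX k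

/-- An involution commuting with no other conjugate has commutators of odd order. -/
theorem oddComm_of_commute [Finite G] {r : G} (hr : orderOf r = 2)
    (h : ∀ k : G, Commute (k * r * k⁻¹) r → k * r * k⁻¹ = r) : OddComm r := by
  intro k
  rw [show r * k * r⁻¹ * k⁻¹ = r * (k * r * k⁻¹) by rw [inv_eq_self hr]; group]
  have hy : orderOf (k * r * k⁻¹) = 2 := (orderOf_conj k r).trans hr
  refine Nat.not_even_iff_odd.1 fun heven => ?_
  have hw := commute_half_left hr hy heven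
  have hconj : IsConj r ((r * (k * r * k⁻¹)) ^ (orderOf (r * (k * r * k⁻¹)) / 2) * r) := by
    rcases conj_or_conj hr hy (orderOf (r * (k * r * k⁻¹)) / 2) with ⟨h1, -⟩ | ⟨h1, -⟩
    · exact h1
    · exact (isConj_iff.2 ⟨k, rfl⟩ : IsConj r (k * r * k⁻¹)).trans h1
  obtain ⟨g, hg⟩ := isConj_iff.1 hconj
  have := h g (hg ▸ hw.mul_left (Commute.refl r))
  rw [hg, mul_eq_right] at this
  exact ne_one (orderOf_half heven (orderOf_pos _).ne') this

section Centralizers

variable [Finite G]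

/-- The centraliser of an involution of `N` with a fixed point lies in `N`. -/
theorem centralizer_le_of_fixed (hl : Local D) (hf : Fusion D) {z : N} (hz : orderOf (z : G) = 2)
    (hzV : D.pi z ≠ 1) (hfix : ∃ i, D.pi z i = i) :
    Subgroup.centralizer ({(z : G)} : Set G) ≤ N := by
  have hσ := D.sq_pi (mul_self_eq_one hz)
  obtain ⟨a, b, hab, hinv, hcent⟩ := exists_central_inv hσ hzV hfix
  have hcomm : ∀ {i j : Fin 6}, i ≠ j → Inv (D.pi z) i j → Commute (D.x i j) (z : G) :=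
    fun hij h => ((D.commute_iff hij).2 h).symm
  -- the centraliser has trivial odd core
  have hO : Cfsg.oddCore ↥(Subgroup.centralizer ({(z : G)} : Set G)) = ⊥ := by
    let K := Subgroup.centralizer ({(z : G)} : Set G)
    let A : Subgroup G := D.V ⊓ K
    let O : Subgroup G := (Cfsg.oddCore K).map K.subtype
    have : IsMulCommutative A :=
      ⟨⟨fun v w => Subtype.ext (D.V_commute v.2.1 w.2.1)⟩⟩
    have hnc : ¬ IsCyclic A := by
      intro hcyc
      obtain ⟨a', b', c', d', hab', hcd', hca, hcb, h1, h2⟩ := exists_two_inv hσ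
      obtain ⟨g, hg⟩ := hcyc.exists_generator
      have hg2 : g * g = 1 := Subtype.ext (D.V_sq g.2.1)
      have key : ∀ v : A, v ≠ 1 → v = g := by
        intro v hv
        obtain ⟨k, rfl⟩ := Subgroup.mem_zpowers_iff.1 (hg v)
        rcases Int.even_or_odd' k with ⟨l, rfl | rfl⟩
        · exact absurd (by rw [zpow_mul, zpow_two, hg2, one_zpow]) hv
        · rw [zpow_add, zpow_mul, zpow_two, hg2, one_zpow, one_mul, zpow_one]
      have e1 := key ⟨D.x a' b', D.mem_V.2 ⟨_, _, rfl⟩,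
        mem_centralizer_singleton.2 (hcomm hab' h1).eq⟩
        fun he => D.x_ne _ _ hab' (congrArg Subtype.val he)
      have e2 := key ⟨D.x c' d', D.mem_V.2 ⟨_, _, rfl⟩,
        mem_centralizer_singleton.2 (hcomm hcd' h2).eq⟩
        fun he => D.x_ne _ _ hcd' (congrArg Subtype.val he)
      rcases D.x_inj a' b' c' d' hab' (congrArg Subtype.val (e1.trans e2.symm)) with
        ⟨h, -⟩ | ⟨h, -⟩
      · exact hca h
      · exact hcb h
    have hOK : ∀ k ∈ K, ∀ o ∈ O, k * o * k⁻¹ ∈ O := by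
      rintro k hk _ ⟨o, ho, rfl⟩
      exact ⟨⟨k, hk⟩ * o * ⟨k, hk⟩⁻¹,
        (inferInstance : (Cfsg.oddCore K).Normal).conj_mem o ho _, rfl⟩
    have hcardO : Nat.card O = Nat.card (Cfsg.oddCore K) :=
      Nat.card_congr (Subgroup.equivMapOfInjective _ _ K.subtype_injective).symm.toEquiv
    have hoddO : (Nat.card O).Coprime 2 := hcardO ▸ Cores.card_pPrimeCore_coprime 2
    have hcop : (Nat.card A).Coprime (Nat.card O) := by
      obtain ⟨n, hn⟩ := IsPGroup.iff_card.1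
        (show IsPGroup 2 A from fun v => ⟨1, Subtype.ext (by
          rw [pow_one, pow_two]; exact D.V_sq v.2.1)⟩)
      rw [hn]
      exact Nat.Coprime.pow_left n hoddO.symm
    have hON : O ≤ N := by
      refine CoprimeAction.le_of_centralizers hnc
        (fun v hv => CoprimeAction.mem_normalizer_of_conj_mem (hOK v hv.2)) hcop ?_
      intro v hv hv1 o ho
      obtain ⟨i, j, rfl⟩ := D.mem_V.1 hv.1
      have hij : i ≠ j := fun he => hv1 (by rw [he, D.x_self])
      exact hl i j hij ho.2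
    have hodd : ∀ o ∈ O, Odd (orderOf o) := fun o ho =>
      Nat.coprime_two_right.1 <| hoddO.coprime_dvd_left (by
        rw [← Subgroup.orderOf_mk o ho]; exact orderOf_dvd_natCard _)
    have hbot : O = ⊥ := by
      refine (Subgroup.eq_bot_iff_forall _).2 fun o ho => ?_
      have hoN := hON ho
      have hoK : Commute o (z : G) := by
        obtain ⟨o', -, rfl⟩ := ho
        exact mem_centralizer_singleton.1 o'.2
      have hτ : ∀ i j, i ≠ j → Inv (D.pi z) i j → Inv (D.pi ⟨o, hoN⟩) i j := by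
        intro i j hij hi
        refine (D.commute_iff hij).1 ?_
        show Commute o (D.x i j)
        rw [commute_iff_eq, ← mul_inv_eq_iff_eq_mul, ← mul_inv_eq_one]
        refine eq_one_of_odd_of_sq (hodd _ ?_) (D.V_sq ?_)
        · rw [show o * D.x i j * o⁻¹ * (D.x i j)⁻¹ = o * (D.x i j * o⁻¹ * (D.x i j)⁻¹) by group]
          exact mul_mem ho (hOK _ (mem_centralizer_singleton.2 (hcomm hij hi).eq) _ (inv_mem ho))
        · exact mul_mem (D.conj_mem_V hoN (D.mem_V.2 ⟨i, j, rfl⟩))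
            (inv_mem (D.mem_V.2 ⟨i, j, rfl⟩))
      have hoV : D.pi ⟨o, hoN⟩ = 1 := by
        refine eq_one_of_odd_of_sq ((hodd o ho).of_dvd_nat ?_) (sq_eq_one_of_inv hσ hτ)
        rw [← Subgroup.orderOf_mk o hoN]
        exact orderOf_map_dvd D.pi _
      exact eq_one_of_odd_of_sq (hodd o ho) (D.V_sq (D.coe_mem_V_iff (n := ⟨o, hoN⟩) |>.2 hoV))
    exact (Subgroup.map_eq_bot_iff_of_injective _ K.subtype_injective).1 hbot
  -- the distinguished pair involution is isolated in the centraliser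
  let r : ↥(Subgroup.centralizer ({(z : G)} : Set G)) :=
    ⟨D.x a b, mem_centralizer_singleton.2 (hcomm hab hinv).eq⟩
  have hr : orderOf r = 2 := by
    rw [← Subgroup.orderOf_coe]
    exact D.orderOf_x hab
  have hcomm' : OddComm r := by
    refine oddComm_of_commute hr fun k hk => Subtype.ext ?_
    have hk' : Commute ((k : G) * D.x a b * (k : G)⁻¹) (D.x a b) := congrArg Subtype.val hk.eq
    obtain ⟨c, d, hcd⟩ := hf (k : G) a b hab (D.mem_N_of_commute hl hab hk')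
    have hkN : (k : G) ∈ N := D.mem_N_of_conj hl hab (D.mem_V.2 ⟨c, d, hcd⟩)
    have hkσ : Commute (D.pi z) (D.pi ⟨k, hkN⟩) :=
      Commute.map (Subtype.ext (mem_centralizer_singleton.1 k.2).symm : Commute z ⟨k, hkN⟩) D.pi
    show (k : G) * D.x a b * (k : G)⁻¹ = D.x a b
    rw [mul_inv_eq_iff_eq_mul]
    exact ((D.commute_iff (n := ⟨k, hkN⟩) hab).2 (hcent _ hkσ)).eq
  intro k hk
  have h1 := zstar_theorem hr hcomm' ⟨k, hk⟩
  rw [hO, Subgroup.mem_bot, mul_inv_eq_one, mul_inv_eq_iff_eq_mul] at h1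
  exact D.mem_N_of_commute hl hab (congrArg Subtype.val h1.symm : k * D.x a b = D.x a b * k)

/-- The centraliser of an involution of `N` without fixed point lies in `N`. -/
theorem centralizer_le_of_fpf (hl : Local D) (hf : Fusion D) {z : N} (hz : orderOf (z : G) = 2)
    (hfpf : ∀ i, D.pi z i ≠ i) : Subgroup.centralizer ({(z : G)} : Set G) ≤ N := by
  have hσ := D.sq_pi (mul_self_eq_one hz)
  obtain ⟨a, b, c, d, e, f, hnd, ha, hc, he⟩ := fpf_shape hσ hfpf
  have hb : D.pi z b = a := by rw [← ha, apply_apply_of_sq hσ]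
  have hd : D.pi z d = c := by rw [← hc, apply_apply_of_sq hσ]
  have hf' : D.pi z f = e := by rw [← he, apply_apply_of_sq hσ]
  obtain ⟨t, ht, ht2, hzt⟩ :=
    D.exists_lift_commute hnd (Subtype.ext (mul_self_eq_one hz)) ha hb hc hd
  have hnd' := hnd
  simp only [List.nodup_cons, List.mem_cons, List.not_mem_nil] at hnd'
  have hef : e ≠ f := by grind
  have htac : D.pi t a = c := by rw [ht, Perm.mul_apply]; grind
  have htne : D.pi t ≠ 1 := fun h => by rw [h, Perm.one_apply] at htac; grind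
  have htz : D.pi t ≠ D.pi z := fun h => by rw [h, ha] at htac; grind
  have ht' : orderOf (t : G) = 2 := orderOf_eq_two_iff.2
    ⟨ht2, fun h => htne (D.coe_mem_V_iff.1 (h ▸ one_mem _))⟩
  have hrz : Commute (D.x e f) (z : G) := ((D.commute_iff hef).2 (Or.inr ⟨he, hf'⟩)).symm
  have hrt : Commute (D.x e f) (t : G) := by
    refine ((D.commute_iff hef).2 (Or.inl ⟨?_, ?_⟩)).symm <;> rw [ht, Perm.mul_apply] <;> grind
  have hr := D.orderOf_x hef
  -- every involution in sight outside `V` with a fixed point has its centraliser in `N`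
  have hsmall : ∀ {w : G} (hw : w ∈ N), orderOf w = 2 → Commute w (z : G) → w ≠ z →
      ∀ {g : G}, Commute g w → Commute g (z : G) → g ∈ N := by
    intro w hw hw2 hwz hne g hgw hgz
    have hwσ := D.sq_pi (n := ⟨w, hw⟩) (mul_self_eq_one hw2)
    by_cases h1 : D.pi ⟨w, hw⟩ = 1
    · obtain ⟨i, j, hij⟩ := D.mem_V.1 (D.coe_mem_V_iff (n := ⟨w, hw⟩) |>.2 h1)
      have hij' : i ≠ j := fun he => ne_one hw2 (hij.trans (by rw [he, D.x_self]))
      exact D.mem_N_of_commute hl hij' ((show w = D.x i j from hij) ▸ hgw)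
    by_cases h2 : ∃ i, D.pi ⟨w, hw⟩ i = i
    · exact centralizer_le_of_fixed D hl hf (z := ⟨w, hw⟩) hw2 h1 h2
        (mem_centralizer_singleton.2 hgw.eq)
    have hwz2 : orderOf (w * (z : G)) = 2 := orderOf_mul_eq_two hw2 hz hwz hne
    have hgwz : Commute g (w * (z : G)) := hgw.mul_right hgz
    by_cases h3 : D.pi (⟨w, hw⟩ * z) = 1
    · obtain ⟨i, j, hij⟩ := D.mem_V.1 (D.coe_mem_V_iff.2 h3)
      have hij' : i ≠ j := fun he => ne_one hwz2 (hij.trans (by rw [he, D.x_self]))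
      refine D.mem_N_of_commute hl hij' ?_
      rw [← hij]
      exact hgwz
    · refine centralizer_le_of_fixed D hl hf (z := ⟨w, hw⟩ * z) hwz2 h3 ?_
        (mem_centralizer_singleton.2 hgwz.eq)
      rw [map_mul]
      exact exists_fixed_mul hwσ hσ (Commute.map (Subtype.ext hwz.eq : Commute ⟨w, hw⟩ z) D.pi)
        (fun i hi => h2 ⟨i, hi⟩) hfpf
  -- neither `t` nor `t z` fuses into `V`
  have hnotV : ∀ {s : G} (hs : s ∈ N), D.pi ⟨s, hs⟩ ≠ 1 → ∀ {r : G}, r ∈ D.V → r ≠ 1 →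
      ¬ IsConj r s := by
    intro s hs hs1 r hr hr1 hcj
    obtain ⟨g, hg⟩ := isConj_iff.1 hcj
    obtain ⟨i, j, rfl⟩ := D.mem_V.1 hr
    obtain ⟨k, l, hkl⟩ := hf g i j (fun he => hr1 (by rw [he, D.x_self])) (hg ▸ hs)
    exact hs1 (D.coe_mem_V_iff.1 (D.mem_V.2 ⟨k, l, hg.symm.trans hkl⟩))
  have hrV : D.x e f ∈ D.V := D.mem_V.2 ⟨e, f, rfl⟩
  intro k hk
  rw [mem_centralizer_singleton] at hk
  have hk' : Commute k (z : G) := hk
  have hkz : k * (z : G) * k⁻¹ = z := mul_inv_eq_iff_eq_mul.2 hk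
  have hy2 : orderOf (k * t * k⁻¹) = 2 := (orderOf_conj k _).trans ht'
  have hry : IsConj (t : G) (k * t * k⁻¹) := isConj_iff.2 ⟨k, rfl⟩
  have hyz : Commute (k * t * k⁻¹) (z : G) :=
    (hk'.mul_left hzt.symm).mul_left hk'.inv_left
  have heven : Even (orderOf (D.x e f * (k * t * k⁻¹))) := by
    refine Nat.not_odd_iff_even.1 fun hodd => ?_
    exact hnotV t.2 htne hrV (D.x_ne e f hef) ((isConj_of_odd hr hy2 hodd).trans hry.symm)
  have hwr := commute_half_left hr hy2 heven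
  have hwy := commute_half_right hr hy2 heven
  have hw2 := orderOf_half heven (orderOf_pos _).ne'
  have hwz := (hrz.mul_left hyz).pow_left (orderOf (D.x e f * (k * t * k⁻¹)) / 2)
  have hcases := conj_or_conj hr hy2 (orderOf (D.x e f * (k * t * k⁻¹)) / 2)
  revert hwr hwy hw2 hwz hcases
  generalize (D.x e f * (k * t * k⁻¹)) ^ (orderOf (D.x e f * (k * t * k⁻¹)) / 2) = w
  intro hwr hwy hw2 hwz hcases
  have hne : w ≠ z := by
    rintro rfl
    rcases hcases with ⟨h1, -⟩ | ⟨-, h2⟩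
    · refine hnotV (mul_mem z.2 (D.x_mem e f)) ?_ hrV (D.x_ne e f hef) h1
      show D.pi (z * ⟨D.x e f, D.x_mem e f⟩) ≠ 1
      rw [map_mul, D.x_ker, mul_one]
      exact fun h => hfpf a (by rw [h, Perm.one_apply])
    · have h3 : IsConj (D.x e f) ((z : G) * t) := by
        refine h2.trans (isConj_iff.2 ⟨k⁻¹, ?_⟩)
        calc k⁻¹ * ((z : G) * (k * t * k⁻¹)) * k⁻¹⁻¹
            = k⁻¹ * (k * z * k⁻¹) * k * t := by rw [hkz]; group
          _ = z * t := by group
      refine hnotV (mul_mem z.2 t.2) ?_ hrV (D.x_ne e f hef) h3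
      show D.pi (z * t) ≠ 1
      rw [map_mul]
      intro h
      apply htz
      rw [eq_inv_of_mul_eq_one_right h, inv_eq_of_mul_eq_one_left hσ]
  have hyN : k * t * k⁻¹ ∈ N :=
    hsmall (D.mem_N_of_commute hl hef hwr) hw2 hwz hne hwy.symm hyz
  have hconj : Commute (k * D.x e f * k⁻¹) (k * t * k⁻¹) :=
    Commute.map hrt (MulAut.conj k).toMonoidHom
  have hconjz : Commute (k * D.x e f * k⁻¹) (z : G) :=
    (hk'.mul_left hrz).mul_left hk'.inv_left
  have hyne : k * t * k⁻¹ ≠ z := by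
    intro h
    apply htz
    have : (t : G) = z := by
      have h' : k * t * k⁻¹ = k * z * k⁻¹ := h.trans hkz.symm
      exact mul_left_cancel (mul_right_cancel h')
    rw [Subtype.ext this]
  obtain ⟨i, j, hij⟩ := hf k e f hef (hsmall hyN hy2 hyz hyne hconj hconjz)
  exact D.mem_N_of_conj hl hef (D.mem_V.2 ⟨i, j, hij⟩)

theorem centralizer_le (hl : Local D) (hf : Fusion D) {z : N} (hz : orderOf (z : G) = 2) :
    Subgroup.centralizer ({(z : G)} : Set G) ≤ N := by
  by_cases h1 : D.pi z = 1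
  · obtain ⟨a, b, hab⟩ := D.mem_V.1 (D.coe_mem_V_iff.2 h1)
    rw [hab]
    exact hl a b fun he => ne_one hz (by rw [hab, he, D.x_self])
  by_cases h2 : ∃ i, D.pi z i = i
  · exact centralizer_le_of_fixed D hl hf hz h1 h2
  · exact centralizer_le_of_fpf D hl hf hz fun i hi => h2 ⟨i, hi⟩

/-- If the pair involutions have their centralisers in `N` and do not fuse to other involutions
of `N`, then `N` is the whole group. -/
theorem eq_top (hl : Local D) (hf : Fusion D) : N = ⊤ := by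
  obtain ⟨u, hu, hu2⟩ := D.lift 0 1 2 3 (by decide)
  have hu' : orderOf (u : G) = 2 := by
    refine orderOf_eq_two_iff.2 ⟨congrArg Subtype.val hu2, fun h => ?_⟩
    have h1 := D.coe_mem_V_iff.1 (h ▸ one_mem D.V : (u : G) ∈ D.V)
    rw [hu] at h1
    exact absurd (congrArg (fun p : Perm (Fin 6) => p 0) h1) (by decide)
  have h45 : (4 : Fin 6) ≠ 5 := by decide
  have hxu : Commute (D.x 4 5) (u : G) :=
    ((D.commute_iff h45).2 (Or.inl ⟨by rw [hu]; decide, by rw [hu]; decide⟩)).symm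
  have hu1 : D.pi u ≠ 1 := by
    rw [hu]
    exact fun h => absurd (congrArg (fun p : Perm (Fin 6) => p 0) h) (by decide)
  refine Subgroup.eq_top_iff' _ |>.2 fun g => ?_
  have hy : orderOf (g * u * g⁻¹) = 2 := (orderOf_conj g _).trans hu'
  have hx := D.orderOf_x h45
  have heven : Even (orderOf (D.x 4 5 * (g * u * g⁻¹))) := by
    refine Nat.not_odd_iff_even.1 fun hodd => hu1 (D.coe_mem_V_iff.1 ?_)
    obtain ⟨d, hd⟩ := isConj_iff.1
      ((isConj_of_odd hx hy hodd).trans (isConj_iff.2 ⟨g, rfl⟩ : IsConj (u : G) _).symm)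
    obtain ⟨i, j, hij⟩ := hf d 4 5 h45 (hd ▸ u.2)
    exact D.mem_V.2 ⟨i, j, hd.symm.trans hij⟩
  have hwN := D.mem_N_of_commute hl h45 (commute_half_left hx hy heven)
  have hyN : g * u * g⁻¹ ∈ N :=
    centralizer_le D hl hf (z := ⟨_, hwN⟩) (orderOf_half heven (orderOf_pos _).ne')
      (mem_centralizer_singleton.2 (commute_half_right hx hy heven).symm.eq)
  have hgx : g * D.x 4 5 * g⁻¹ ∈ N :=
    centralizer_le D hl hf (z := ⟨_, hyN⟩) hy
      (mem_centralizer_singleton.2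
        (Commute.map hxu (MulAut.conj g).toMonoidHom : Commute (g * D.x 4 5 * g⁻¹) _).eq)
  obtain ⟨i, j, hij⟩ := hf g 4 5 h45 hgx
  exact D.mem_N_of_conj hl h45 (D.mem_V.2 ⟨i, j, hij⟩)

end Centralizers

section FusionSetup

variable [Finite G]

set_option maxHeartbeats 800000 in
/-- A conjugate of a pair involution in `N` and outside the normal 2-group comes with a frame
of three commuting double transpositions. -/
theorem fusion_setup (hl : Local D) {g : G} {a₀ b₀ : Fin 6}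
    (hy : g * D.x a₀ b₀ * g⁻¹ ∈ N) (hnot : ∀ c d, g * D.x a₀ b₀ * g⁻¹ ≠ D.x c d) :
    ∃ a b c d e f p q r s t u : Fin 6, [a, b, c, d, e, f].Nodup ∧ [p, q, r, s, t, u].Nodup ∧
      ∃ n₁ n₂ n₃ m : N, (n₁ : G) = g * D.x p q * g⁻¹ ∧ (n₂ : G) = g * D.x r s * g⁻¹ ∧
        (n₃ : G) = g * D.x t u * g⁻¹ ∧ D.pi n₁ = swap a b * swap c d ∧
        D.pi n₂ = swap a b * swap e f ∧ D.pi n₃ = swap c d * swap e f ∧
        D.pi m = swap a c * swap b d ∧ Commute (m : G) n₁ ∧
        (m : G) * n₂ * (m : G)⁻¹ = n₃ := by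
  let c : MulAut G := MulAut.conj g
  have hc : ∀ h, c h = g * h * g⁻¹ := fun h => rfl
  have hgN : g ∉ N := fun h => by
    obtain ⟨i, j, hij⟩ := D.mem_V.1 (D.conj_mem_V h (D.mem_V.2 ⟨a₀, b₀, rfl⟩))
    exact hnot i j hij
  have hdisj : ∀ v ∈ D.V, g * v * g⁻¹ ∈ D.V → v = 1 := by
    intro v hv hgv
    obtain ⟨i, j, rfl⟩ := D.mem_V.1 hv
    by_contra hne
    exact hgN (D.mem_N_of_conj hl (fun he => hne (by rw [he, D.x_self])) hgv)
  have hab₀ : a₀ ≠ b₀ := fun he => hnot a₀ a₀ (by rw [← he, D.x_self]; group)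
  -- elements of `A`, given in `N` and as conjugates of pair involutions
  have hstep : ∀ {i j : Fin 6} (hij : i ≠ j) (hn : g * D.x i j * g⁻¹ ∈ N),
      D.pi ⟨_, hn⟩ ≠ 1 ∧ D.pi ⟨_, hn⟩ * D.pi ⟨_, hn⟩ = 1 ∧
      (∀ v ∈ D.V, g⁻¹ * v * g ∈ N ↔ Commute (g * D.x i j * g⁻¹) v) := by
    intro i j hij hn
    refine ⟨fun h => D.x_ne i j hij (hdisj _ (D.mem_V.2 ⟨i, j, rfl⟩)
      (D.coe_mem_V_iff (n := ⟨_, hn⟩) |>.2 h)), D.sq_pi ?_, fun v hv => ⟨fun hvN => ?_, fun h => ?_⟩⟩
    · show g * D.x i j * g⁻¹ * (g * D.x i j * g⁻¹) = 1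
      calc _ = g * (D.x i j * D.x i j) * g⁻¹ := by group
        _ = 1 := by rw [D.x_sq]; group
    · rw [commute_iff_eq, ← mul_inv_eq_iff_eq_mul, ← mul_inv_eq_one]
      obtain ⟨k, l, rfl⟩ := D.mem_V.1 hv
      set w := D.x k l
      have h1 : g * D.x i j * g⁻¹ * w * (g * D.x i j * g⁻¹)⁻¹ * w⁻¹ ∈ D.V :=
        mul_mem (D.conj_mem_V hn hv) (inv_mem hv)
      have h2 : D.x i j * ((g⁻¹ * w * g) * D.x i j * (g⁻¹ * w * g)⁻¹) ∈ D.V :=
        mul_mem (D.mem_V.2 ⟨i, j, rfl⟩) (D.conj_mem_V hvN (D.mem_V.2 ⟨i, j, rfl⟩))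
      have h3 : g * (D.x i j * ((g⁻¹ * w * g) * D.x i j * (g⁻¹ * w * g)⁻¹)) * g⁻¹ =
          g * D.x i j * g⁻¹ * w * (g * D.x i j * g⁻¹)⁻¹ * w⁻¹ := by
        conv_rhs => rw [show (g * D.x i j * g⁻¹)⁻¹ = g * (D.x i j)⁻¹ * g⁻¹ by group, D.x_inv]
        group
      rw [← h3]
      rw [hdisj _ h2 (h3.symm ▸ h1)]
      group
    · refine D.mem_N_of_commute hl hij ?_
      have := (Commute.map h.symm (MulAut.conj g⁻¹).toMonoidHom)
      simpa [mul_assoc] using this
  obtain ⟨hσ₀ne, hσ₀, hW⟩ := hstep hab₀ hy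
  obtain ⟨a', b', c', d', hab', hcd', hca, hcb, hi1, hi2⟩ := exists_two_inv hσ₀
  -- two elements of `W`, read in `N` through `g`
  have hWmem : ∀ {i j : Fin 6}, i ≠ j → Inv (D.pi ⟨_, hy⟩) i j → g⁻¹ * D.x i j * g ∈ N :=
    fun hij h => (hW _ (D.mem_V.2 ⟨_, _, rfl⟩)).2 ((D.commute_iff (n := ⟨_, hy⟩) hij).2 h)
  -- invariant pairs of an element of `W`
  have hWinv : ∀ {v : G}, v ∈ D.V → v ≠ 1 → ∀ (hn : g⁻¹ * v * g ∈ N) {i j : Fin 6}, i ≠ j →
      (Inv (D.pi ⟨_, hn⟩) i j ↔ g * D.x i j * g⁻¹ ∈ N) := by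
    intro v hv hv1 hn i j hij
    rw [← D.commute_iff (n := ⟨_, hn⟩) hij]
    constructor
    · intro h
      obtain ⟨k, l, rfl⟩ := D.mem_V.1 hv
      refine D.mem_N_of_commute hl (a := k) (b := l)
        (fun he => hv1 (by rw [he, D.x_self])) ?_
      have := Commute.map h.symm (MulAut.conj g).toMonoidHom
      simpa [mul_assoc] using this
    · intro h
      have h' : Commute (g * D.x i j * g⁻¹) v := ((hstep hij h).2.2 v hv).1 hn
      have := Commute.map h'.symm (MulAut.conj g⁻¹).toMonoidHom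
      simpa [mul_assoc] using this
  have hw1 := hWmem hab' hi1
  have hw2 := hWmem hcd' hi2
  have hv1 : D.x a' b' ∈ D.V := D.mem_V.2 ⟨_, _, rfl⟩
  have hv2 : D.x c' d' ∈ D.V := D.mem_V.2 ⟨_, _, rfl⟩
  have hv12 : D.x a' b' * D.x c' d' ≠ 1 := fun h => by
    rw [mul_eq_one_iff_eq_inv, D.x_inv] at h
    rcases D.x_inj a' b' c' d' hab' h with ⟨h', -⟩ | ⟨h', -⟩
    exacts [hca h', hcb h']
  have hw12 : g⁻¹ * (D.x a' b' * D.x c' d') * g ∈ N := by
    rw [show g⁻¹ * (D.x a' b' * D.x c' d') * g =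
      (g⁻¹ * D.x a' b' * g) * (g⁻¹ * D.x c' d' * g) by group]
    exact mul_mem hw1 hw2
  have hwne : ∀ {v : G}, v ∈ D.V → v ≠ 1 → ∀ hn : g⁻¹ * v * g ∈ N, D.pi ⟨_, hn⟩ ≠ 1 := by
    intro v hv hv1 hn h
    have h' := D.coe_mem_V_iff (n := ⟨_, hn⟩) |>.2 h
    have h'' := hdisj _ h' (by rw [show g * (g⁻¹ * v * g) * g⁻¹ = v by group]; exact hv)
    exact hv1 (by
      calc v = g * (g⁻¹ * v * g) * g⁻¹ := by group
        _ = 1 := by
          rw [show g⁻¹ * v * g = 1 from h'']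
          group)
  have hwsq : ∀ {v : G}, v ∈ D.V → ∀ hn : g⁻¹ * v * g ∈ N,
      D.pi ⟨_, hn⟩ * D.pi ⟨_, hn⟩ = 1 := fun {v} hv hn => D.sq_pi (by
    show g⁻¹ * v * g * (g⁻¹ * v * g) = 1
    calc _ = g⁻¹ * (v * v) * g := by group
      _ = 1 := by rw [D.V_sq hv]; group)
  have hpi12 : D.pi ⟨_, hw12⟩ = D.pi ⟨_, hw1⟩ * D.pi ⟨_, hw2⟩ := by
    rw [← map_mul]
    congr 1
    apply Subtype.ext
    simp only [Subgroup.coe_mul]
    group
  have hcomm12 : Commute (D.pi ⟨_, hw1⟩) (D.pi ⟨_, hw2⟩) := by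
    refine Commute.map ?_ D.pi
    refine Subtype.ext ?_
    exact (Commute.map (D.V_commute hv1 hv2) (MulAut.conj g⁻¹).toMonoidHom).eq |> fun h => by
      simpa [mul_assoc] using h
  have hne12 : D.pi ⟨_, hw1⟩ ≠ D.pi ⟨_, hw2⟩ := fun h =>
    hwne (mul_mem hv1 hv2) hv12 hw12 (by rw [hpi12, ← h, hwsq hv1])
  obtain ⟨p, q, r, s, t, u, hpq, -, -, -, hA⟩ := three_doubles (hwsq hv1 hw1) (hwsq hv2 hw2)
    hcomm12 hne12
    (fun i j hij => (hWinv hv1 (D.x_ne _ _ hab') hw1 hij).trans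
      (hWinv hv2 (D.x_ne _ _ hcd') hw2 hij).symm)
    (fun i j hij => by
      rw [← hpi12]
      exact (hWinv hv1 (D.x_ne _ _ hab') hw1 hij).trans (hWinv (mul_mem hv1 hv2) hv12 hw12 hij).symm)
  -- the nontrivial elements of `A`
  have hA' : ∀ {i j : Fin 6}, i ≠ j → (g * D.x i j * g⁻¹ ∈ N ↔
      ((i = p ∧ j = q) ∨ (i = q ∧ j = p)) ∨ ((i = r ∧ j = s) ∨ (i = s ∧ j = r)) ∨
        ((i = t ∧ j = u) ∨ (i = u ∧ j = t))) := fun {i j} hij =>
    (hWinv hv1 (D.x_ne _ _ hab') hw1 hij).symm.trans (hA i j hij)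
  have hpq' := hpq
  simp only [List.nodup_cons, List.mem_cons, List.not_mem_nil] at hpq'
  have hp : p ≠ q := by grind
  have hr : r ≠ s := by grind
  have ht : t ≠ u := by grind
  have h1N := (hA' hp).2 (Or.inl (Or.inl ⟨rfl, rfl⟩))
  have h2N := (hA' hr).2 (Or.inr (Or.inl (Or.inl ⟨rfl, rfl⟩)))
  have h3N := (hA' ht).2 (Or.inr (Or.inr (Or.inl ⟨rfl, rfl⟩)))
  obtain ⟨hne1, hsq1, hW1⟩ := hstep hp h1N
  obtain ⟨hne2, hsq2, hW2⟩ := hstep hr h2N
  obtain ⟨hne3, hsq3, hW3⟩ := hstep ht h3N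
  have h12 : (⟨_, h1N⟩ : N) * ⟨_, h2N⟩ = ⟨_, h3N⟩ := by
    apply Subtype.ext
    show g * D.x p q * g⁻¹ * (g * D.x r s * g⁻¹) = g * D.x t u * g⁻¹
    rw [← D.x_mul p q r s t u hpq]
    group
  have hinv : ∀ {i j k l : Fin 6} (hN : g * D.x i j * g⁻¹ ∈ N) (hN' : g * D.x k l * g⁻¹ ∈ N),
      i ≠ j → k ≠ l → ∀ x y, x ≠ y → (Inv (D.pi ⟨_, hN⟩) x y ↔ Inv (D.pi ⟨_, hN'⟩) x y) := by
    intro i j k l hN hN' hij hkl x y hxy
    rw [← D.commute_iff (n := ⟨_, hN⟩) hxy, ← D.commute_iff (n := ⟨_, hN'⟩) hxy,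
      ← (hstep hij hN).2.2 _ (D.mem_V.2 ⟨x, y, rfl⟩),
      ← (hstep hkl hN').2.2 _ (D.mem_V.2 ⟨x, y, rfl⟩)]
  obtain ⟨a, b, c, d, e, f, habc, h1, h2, h3, -⟩ := three_doubles hsq1 hsq2
    (Commute.map (Subtype.ext (Commute.map (D.x_commute p q r s) (MulAut.conj g).toMonoidHom).eq :
      Commute (⟨_, h1N⟩ : N) ⟨_, h2N⟩) D.pi)
    (fun h => hne3 (by rw [← h12, map_mul, ← h, hsq1]))
    (hinv h1N h2N hp hr)
    (fun x y hxy => by rw [← map_mul, h12]; exact hinv h1N h3N hp ht x y hxy)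
  rw [← map_mul, h12] at h3
  have habc' := habc
  simp only [List.nodup_cons, List.mem_cons, List.not_mem_nil] at habc'
  obtain ⟨m, hm, -, hmc⟩ := D.exists_lift_commute habc (n := ⟨_, h1N⟩)
    (Subtype.ext (show g * D.x p q * g⁻¹ * (g * D.x p q * g⁻¹) = 1 by
      calc _ = g * (D.x p q * D.x p q) * g⁻¹ := by group
        _ = 1 := by rw [D.x_sq]; group))
    (by rw [h1, Perm.mul_apply]; grind) (by rw [h1, Perm.mul_apply]; grind)
    (by rw [h1, Perm.mul_apply]; grind) (by rw [h1, Perm.mul_apply]; grind)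
  refine ⟨a, b, c, d, e, f, p, q, r, s, t, u, habc, hpq, ⟨_, h1N⟩, ⟨_, h2N⟩, ⟨_, h3N⟩, m, rfl, rfl,
    rfl, h1, h2, h3, hm, hmc.symm, ?_⟩
  have hmN' : g⁻¹ * (m : G) * g ∈ N := by
    refine D.mem_N_of_commute hl hp ?_
    have := Commute.map hmc.symm (MulAut.conj g⁻¹).toMonoidHom
    simpa [mul_assoc] using this
  obtain ⟨i, j, hij⟩ := D.mem_V.1 (D.conj_mem_V hmN' (D.mem_V.2 ⟨r, s, rfl⟩))
  have hconj : (m : G) * (g * D.x r s * g⁻¹) * (m : G)⁻¹ = g * D.x i j * g⁻¹ := by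
    rw [← hij]
    group
  have hN' : g * D.x i j * g⁻¹ ∈ N := hconj ▸ mul_mem (mul_mem m.2 h2N) (inv_mem m.2)
  have hπ : D.pi ⟨_, hN'⟩ = swap c d * swap e f := by
    rw [show (⟨_, hN'⟩ : N) = m * ⟨_, h2N⟩ * m⁻¹ from Subtype.ext hconj.symm, map_mul, map_mul,
      map_inv, mul_inv_eq_iff_eq_mul, hm, h2]
    refine Equiv.ext fun k => ?_
    simp only [Perm.mul_apply]
    rcases mem_of_nodup habc k with rfl | rfl | rfl | rfl | rfl | rfl <;> grind
  show (m : G) * (g * D.x r s * g⁻¹) * (m : G)⁻¹ = g * D.x t u * g⁻¹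
  rw [hconj]
  by_cases hij' : i = j
  · exfalso
    have : (⟨_, hN'⟩ : N) = 1 := Subtype.ext (by
      show g * D.x i j * g⁻¹ = 1
      rw [hij', D.x_self]; group)
    rw [this, map_one] at hπ
    have := congrArg (fun p : Perm (Fin 6) => p c) hπ
    simp only [Perm.mul_apply, Perm.one_apply] at this
    grind
  rcases (hA' hij').1 hN' with (⟨hi, hj⟩ | ⟨hi, hj⟩) | (⟨hi, hj⟩ | ⟨hi, hj⟩) | (⟨hi, hj⟩ | ⟨hi, hj⟩)
  · exfalso
    subst hi hj
    have := congrArg (fun p : Perm (Fin 6) => p a) (h1.symm.trans hπ)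
    simp only [Perm.mul_apply] at this
    grind
  · exfalso
    subst hi hj
    have e1 : (⟨_, hN'⟩ : N) = ⟨_, h1N⟩ := Subtype.ext (by simp only [D.x_symm j i])
    rw [e1] at hπ
    have := congrArg (fun p : Perm (Fin 6) => p a) (h1.symm.trans hπ)
    simp only [Perm.mul_apply] at this
    grind
  · exfalso
    subst hi hj
    have := congrArg (fun p : Perm (Fin 6) => p a) (h2.symm.trans hπ)
    simp only [Perm.mul_apply] at this
    grind
  · exfalso
    subst hi hj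
    have e2 : (⟨_, hN'⟩ : N) = ⟨_, h2N⟩ := Subtype.ext (by simp only [D.x_symm j i])
    rw [e2] at hπ
    have := congrArg (fun p : Perm (Fin 6) => p a) (h2.symm.trans hπ)
    simp only [Perm.mul_apply] at this
    grind
  · rw [hi, hj]
  · rw [hi, hj, D.x_symm]

end FusionSetup

end CfsgLib.Geometric.SLFour.Global
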