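import Cfsg.Agent.Lib.Geometric.SLFour.Quotient
import Cfsg.Agent.Lib.Geometric.SLFour.Global

/-!
An overgroup of the monomial group in the special linear group in which the elements commuting up
to scalars with a product of two frame vectors are monomial is the monomial group.
-/

set_option autoImplicit false

namespace CfsgLib.Geometric.SLFour

open Matrix

variable {F : Type*} [Field F] {ι : F}

local notation "M₄" => Matrix (Fin 4) (Fin 4) F

variable (hι : ι * ι = -1) (h2 : (2 : F) ≠ 0) {M : Subgroup (GL (Fin 4) F)}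
  (hN : Nstd hι h2 ≤ M) (hM : M ≤ Cfsg.Geo.specialLinear (Fin 4) F)

include hM in
/-- The overgroup modulo scalars with its monomial subgroup. -/
noncomputable def qData : Global.Data (QM M) (NQ hι h2 M) where
  pi := piQ hι h2 hN
  x := xQ hι h2 hN
  x_symm := xQ_symm hι h2 hN
  x_self := xQ_self hι h2 hN
  x_ne _ _ h := xQ_ne hι h2 hM hN h
  x_mem := xQ_mem hι h2 hN
  x_sq := xQ_sq hι h2 hN
  x_commute := xQ_commute hι h2 hN
  x_ker := piQ_xQ hι h2 hN
  x_inj _ _ _ _ h he := xQ_inj hι h2 hM hN h he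
  x_mul _ _ _ _ _ _ h := xQ_mul hι h2 hM hN h
  x_adj a b c _ := xQ_adj hι h2 hN a b c
  ker_eq := xQ_ker hι h2 hM hN
  conj := xQ_conj hι h2 hN
  lift _ _ _ _ h := exists_lift_dbl hι h2 hM hN h

include hN hM

/-- Elements commuting up to scalars with a product being monomial, the overgroup is monomial. -/
theorem eq_Nstd_of_local [Finite F]
    (hLocal : ∀ a b, a ≠ b → ∀ g ∈ M,
      (∃ k : F, k ≠ 0 ∧ (g : M₄) * px ι a b = k • (px ι a b * (g : M₄))) → g ∈ Nstd hι h2) :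
    M = Nstd hι h2 := by
  set D := qData hι h2 hN hM with hD
  have hl : Global.Local D := by
    intro a b hab q hq
    obtain ⟨g, rfl⟩ := cls_surjective q
    have hc : cls g * xQ hι h2 hN a b = xQ hι h2 hN a b * cls g :=
      (Subgroup.mem_centralizer_singleton_iff.1 hq)
    obtain ⟨k, hk, he⟩ := smul_of_cls_eq (g := g * inM hι h2 hN ⟨pxu hι a b, mono_pxu hι h2 a b⟩)
      (h := inM hι h2 hN ⟨pxu hι a b, mono_pxu hι h2 a b⟩ * g) hc
    refine (cls_mem_NQ hι h2 hM).2 (hLocal a b hab g g.2 ⟨k, hk, ?_⟩)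
    simpa [coe_inM, coe_pxu] using he
  have hf : Global.Fusion D := by
    intro γ a₀ b₀ _ hy
    by_contra hnot
    push Not at hnot
    obtain ⟨a, b, c, d, f, t, p, q, r, s, u, v, hn, hn', n₁, n₂, n₃, m, e₁, e₂, e₃, q₁, q₂, q₃,
      qm, hc, hs⟩ := Global.fusion_setup D hl hy hnot
    obtain ⟨g, rfl⟩ := cls_surjective γ
    obtain ⟨⟨m, hmono⟩, rfl⟩ := toNQ_surjective hι h2 hN m
    -- the three conjugates as monomial elements
    have key : ∀ (n : NQ hι h2 M) (x y : Fin 6), (n : QM M) = cls g * D.x x y * (cls g)⁻¹ →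
        ∃ h : Mono ι ((g : GL (Fin 4) F) * pxu hι x y * (g : GL (Fin 4) F)⁻¹),
          n = toNQ hι h2 hN ⟨_, h⟩ := by
      intro n x y hn
      have h : ((g * inM hι h2 hN ⟨pxu hι x y, mono_pxu hι h2 x y⟩ * g⁻¹ : M) : GL (Fin 4) F) ∈
          Nstd hι h2 := (cls_mem_NQ hι h2 hM).1 (by
        have := n.2
        rw [hn] at this
        exact this)
      exact ⟨h, Subtype.ext hn⟩
    obtain ⟨h₁, rfl⟩ := key n₁ p q e₁
    obtain ⟨h₂, rfl⟩ := key n₂ r s e₂
    obtain ⟨h₃, rfl⟩ := key n₃ u v e₃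
    change piQ hι h2 hN _ = _ at q₁ q₂ q₃ qm
    rw [piQ_toNQ] at q₁ q₂ q₃ qm
    -- the two relations up to scalars
    have c1 : cls (inM hι h2 hN ⟨m, hmono⟩ * inM hι h2 hN ⟨_, h₁⟩ * (inM hι h2 hN ⟨m, hmono⟩)⁻¹) =
        cls (inM hι h2 hN ⟨_, h₁⟩) := by
      simp only [cls_mul, cls_inv]
      exact mul_inv_eq_iff_eq_mul.2 hc
    obtain ⟨k₁, -, hk₁⟩ := smul_of_cls_eq c1
    obtain ⟨k₂, -, hk₂⟩ := smul_of_cls_eq
      (g := inM hι h2 hN ⟨m, hmono⟩ * inM hι h2 hN ⟨_, h₂⟩ * (inM hι h2 hN ⟨m, hmono⟩)⁻¹)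
      (h := inM hι h2 hN ⟨_, h₃⟩) hs
    exact fused_false hι h2 hmono hn hn' rfl rfl rfl h₁ h₂ h₃
      (fun z => Equiv.congr_fun q₁ z) (fun z => Equiv.congr_fun q₂ z)
      (fun z => Equiv.congr_fun q₃ z) (fun z => Equiv.congr_fun qm z) hk₁ hk₂
  have htop := Global.eq_top D hl hf
  refine le_antisymm (fun g hg => ?_) hN
  exact (cls_mem_NQ hι h2 hM (g := ⟨g, hg⟩)).1 (htop ▸ Subgroup.mem_top _)

end CfsgLib.Geometric.SLFour
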