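import Cfsg.Agent.Lib.Geometric.SLFour.LocalBase

/-!
The monomial normaliser of the standard Pauli group is a proper subgroup of the special linear group.
-/

set_option autoImplicit false

namespace CfsgLib.Geometric.SLFour

open Matrix

variable {F : Type*} [Field F] {ι : F} (hι : ι * ι = -1) (h2 : (2 : F) ≠ 0)
include hι h2

lemma mem_specialLinear_iff' {g : GL (Fin 4) F} :
    g ∈ Cfsg.Geo.specialLinear (Fin 4) F ↔ (g : Matrix (Fin 4) (Fin 4) F).det = 1 := by
  rw [Cfsg.Geo.specialLinear, MonoidHom.mem_ker, Units.ext_iff]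
  simp [Matrix.GeneralLinearGroup.val_det_apply]

/-- The controlled element of order three is not monomial. -/
lemma qC_not_mono {g : GL (Fin 4) F} (hg : (g : Matrix (Fin 4) (Fin 4) F) = blk 1 (qC ι)) :
    g ∉ Nstd hι h2 := by
  intro hm
  obtain ⟨b, s, -, hb⟩ := hm.2 1
  rw [(lam_low_qC hι h2 hg).2.2] at hb
  have h1 := congrFun hb 1
  have h2' := congrFun hb 2
  have hne : (2⁻¹ : F) ≠ 0 := inv_ne_zero h2
  rcases eq_or_ne b 1 with rfl | hb1
  · simp [e] at h2'
    exact hne (by simpa using h2')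
  · simp [e, Ne.symm hb1] at h1
    exact hne (by simpa using h1)

lemma Nstd_lt : Nstd hι h2 < Cfsg.Geo.specialLinear (Fin 4) F := by
  refine lt_of_le_of_ne (fun g hg => (mem_specialLinear_iff' hι h2).2 hg.1) fun he => ?_
  have hmem : lowHom (sC hι h2) ∈ Cfsg.Geo.specialLinear (Fin 4) F :=
    (mem_specialLinear_iff' hι h2).2 (by rw [coe_lowHom, det_blk, Matrix.det_one, one_mul, (sC hι h2).2])
  exact qC_not_mono hι h2 (g := lowHom (sC hι h2)) rfl (he ▸ hmem)

end CfsgLib.Geometric.SLFour
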