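import Cfsg.Agent.Lib.Geometric.SLFour.Local
import Cfsg.Agent.Lib.Geometric.SLFour.Proper
import Cfsg.Agent.Lib.Geometric.SLFour.Fusion
import Cfsg.Agent.Lib.Geometric.SLFour.Close
import Cfsg.Agent.Lib.Geometric.SLFour.Standard

/-!
The normaliser of a symplectic type group of order `2 ^ 6` is maximal in `SL₄(p)`, `p ≡ 1 (mod 4)`.
-/

set_option autoImplicit false

namespace CfsgLib.Geometric.SLFour

open Cfsg.Geo

variable {F : Type*} [Field F] [Fintype F] {p : ℕ}

/-- The standard monomial normaliser is maximal. -/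
theorem Nstd_isMaximalIn (hp : p.Prime) (hF : Fintype.card F = p) (h4 : p % 4 = 1) {ι : F}
    (hι : ι * ι = -1) (h2 : (2 : F) ≠ 0) :
    IsMaximalIn (Cfsg.Geo.specialLinear (Fin 4) F) (Nstd hι h2) := by
  refine ⟨Nstd_lt hι h2, fun M hNM hMS => ?_⟩
  rcases local_dichotomy hι h2 hMS hNM hF hp h4 with hl | hC
  · exact Or.inl (eq_Nstd_of_local hι h2 hNM hMS hl)
  · exact Or.inr (eq_specialLinear_of_qC hι h2 hF hp h4 hMS hNM hC)

/-- The normaliser of a symplectic type group is maximal. -/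
theorem symplecticType_isMaximalIn (hp : p.Prime) (hF : Fintype.card F = p) (h4 : p % 4 = 1)
    {R : Subgroup (Matrix.GeneralLinearGroup (Fin 4) F)} (hR : IsLinearSymplecticTypeData 2 R) :
    IsMaximalIn (Cfsg.Geo.specialLinear (Fin 4) F)
      (subgroupNormalizer R ⊓ Cfsg.Geo.specialLinear (Fin 4) F) :=
  symplecticType_isMaximalIn_of_std hp hF h4 hR fun _ hι h2 => Nstd_isMaximalIn hp hF h4 hι h2

end CfsgLib.Geometric.SLFour
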