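import Cfsg.Agent.Lib.Geometric.SLFour.Mono
import Mathlib.LinearAlgebra.Matrix.SpecialLinearGroup

/-!
Block diagonal elements of dimension four, their action on the six frame vectors and the controlled
elements of the monomial group.
-/

set_option autoImplicit false

namespace CfsgLib.Geometric.SLFour

open Matrix

variable {F : Type*} [Field F] {ι : F}

local notation "M₄" => Matrix (Fin 4) (Fin 4) F
local notation "M₂" => Matrix (Fin 2) (Fin 2) F
local notation "SL₂" => Matrix.SpecialLinearGroup (Fin 2) F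

/-- A block diagonal matrix. -/
def blk (A B : M₂) : M₄ :=
  !![A 0 0, A 0 1, 0, 0; A 1 0, A 1 1, 0, 0; 0, 0, B 0 0, B 0 1; 0, 0, B 1 0, B 1 1]

lemma blk_mul (A B A' B' : M₂) : blk A B * blk A' B' = blk (A * A') (B * B') := by
  ext i j
  fin_cases i <;> fin_cases j <;> simp [blk, Matrix.mul_apply, Fin.sum_univ_four]

lemma blk_one : blk (1 : M₂) 1 = (1 : M₄) := by
  ext i j
  fin_cases i <;> fin_cases j <;> simp [blk]

lemma blk_smul (c : F) (A B : M₂) : c • blk A B = blk (c • A) (c • B) := by
  ext i j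
  fin_cases i <;> fin_cases j <;> simp [blk]

lemma det_blk (A B : M₂) : (blk A B).det = A.det * B.det := by
  rw [det_four, Matrix.det_fin_two, Matrix.det_fin_two]
  simp [blk]
  ring

lemma blk_inj {A B A' B' : M₂} (h : blk A B = blk A' B') : A = A' ∧ B = B' := by
  have e := fun i j => congrFun (congrFun h i) j
  constructor <;> ext i j <;> fin_cases i <;> fin_cases j
  · simpa [blk] using e 0 0
  · simpa [blk] using e 0 1
  · simpa [blk] using e 1 0
  · simpa [blk] using e 1 1
  · simpa [blk] using e 2 2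
  · simpa [blk] using e 2 3
  · simpa [blk] using e 3 2
  · simpa [blk] using e 3 3

/-- Upper entries of the congruence by a block diagonal matrix. -/
def blkAct (A B : M₂) (a : Fin 6 → F) : Fin 6 → F :=
  ![A.det * a 0,
    (A 0 0 * a 1 + A 0 1 * a 3) * B 0 0 + (A 0 0 * a 2 + A 0 1 * a 4) * B 0 1,
    (A 0 0 * a 1 + A 0 1 * a 3) * B 1 0 + (A 0 0 * a 2 + A 0 1 * a 4) * B 1 1,
    (A 1 0 * a 1 + A 1 1 * a 3) * B 0 0 + (A 1 0 * a 2 + A 1 1 * a 4) * B 0 1,
    (A 1 0 * a 1 + A 1 1 * a 3) * B 1 0 + (A 1 0 * a 2 + A 1 1 * a 4) * B 1 1,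
    B.det * a 5]

lemma blk_skew (A B : M₂) (a : Fin 6 → F) :
    blk A B * skew a * (blk A B)ᵀ = skew (blkAct A B a) := by
  ext i j
  fin_cases i <;> fin_cases j <;>
    simp [blk, skew, blkAct, Matrix.mul_apply, Fin.sum_univ_four, Matrix.det_fin_two] <;> ring

/-- The diagonal matrix `(i, -i)`. -/
def qI (ι : F) : M₂ := !![ι, 0; 0, -ι]

/-- The standard antisymmetric matrix. -/
def qW : M₂ := !![0, 1; -1, 0]

/-- Their product. -/
def qK (ι : F) : M₂ := !![0, ι; ι, 0]

/-- The three quaternion lines. -/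
def qP (ι : F) : Fin 3 → M₂ := ![qI ι, qW, qK ι]

/-- The element of order three. -/
def qC (ι : F) : M₂ := (2 : F)⁻¹ • !![-1 + ι, 1 + ι; -1 + ι, -1 - ι]

/-- The phase matrix. -/
def qS (ι : F) : M₂ := !![1, 0; 0, ι]

/-- The sign matrix. -/
def qZ : M₂ := !![1, 0; 0, -1]

variable (hι : ι * ι = -1) (h2 : (2 : F) ≠ 0)
include hι h2

lemma det_qC : (qC ι).det = 1 := by
  have hh : (2⁻¹ : F) * 2 = 1 := inv_mul_cancel₀ h2
  simp [qC, Matrix.det_fin_two]
  linear_combination (-2 * (2⁻¹ * 2⁻¹)) * hι + (1 + 2⁻¹ * 2) * hh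

lemma qC_pow : qC ι * (qC ι * qC ι) = 1 := by
  have hh : (2⁻¹ : F) * 2 = 1 := inv_mul_cancel₀ h2
  have h8 : (2⁻¹ * (2⁻¹ * 2⁻¹) : F) * 8 = 1 := by
    linear_combination (1 + 2⁻¹ * 2 + 2⁻¹ * 2⁻¹ * 4) * hh
  have hm : (!![-1 + ι, 1 + ι; -1 + ι, -1 - ι] : M₂) *
      (!![-1 + ι, 1 + ι; -1 + ι, -1 - ι] * !![-1 + ι, 1 + ι; -1 + ι, -1 - ι]) = (8 : F) • 1 := by
    ext i j
    fin_cases i <;> fin_cases j <;> simp [Matrix.mul_apply, Fin.sum_univ_two] <;>
      first
        | linear_combination (-6 + 2 * ι) * hι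
        | linear_combination (-6 - 2 * ι) * hι
        | linear_combination (2 * ι + 2) * hι
        | linear_combination (2 * ι - 2) * hι
        | linear_combination (-2 * ι) * hι
        | linear_combination (2 * ι) * hι
        | ring1
  rw [qC, Matrix.smul_mul, Matrix.mul_smul, Matrix.smul_mul, Matrix.mul_smul, Matrix.mul_smul, hm,
    smul_smul, smul_smul, smul_smul, mul_assoc, mul_assoc, show (2⁻¹ : F) * (2⁻¹ * (2⁻¹ * 8)) = 1 by
      linear_combination h8, one_smul]

omit h2 in
lemma lam_blk_eq (h2 : (2 : F) ≠ 0) {g : GL (Fin 4) F} {A B : M₂} (hg : (g : M₄) = blk A B)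
    {x y : Fin 6 → F} (h : blkAct A B (coord ι x) = coord ι y) : lam ι g x = y :=
  lam_eq hι h2 (by rw [hg, X, blk_skew, h, X])

lemma qI_mono {g : GL (Fin 4) F} (hg : (g : M₄) = blk 1 (qI ι)) : Mono ι g := by
  refine ⟨?_, fun a => ?_⟩
  · rw [hg, det_blk, Matrix.det_one]
    simp [qI, Matrix.det_fin_two]
    linear_combination -hι
  fin_cases a
  · exact ⟨0, 1, one_mul 1, lam_blk_eq hι h2 hg (by
      ext k; fin_cases k <;> simp [blkAct, qI, coord, e, Matrix.det_fin_two] <;>
        linear_combination -hι)⟩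
  · exact ⟨4, 1, one_mul 1, lam_blk_eq hι h2 hg (by
      ext k; fin_cases k <;> simp [blkAct, qI, coord, e, Matrix.det_fin_two])⟩
  · exact ⟨5, -1, by ring, lam_blk_eq hι h2 hg (by
      ext k; fin_cases k <;> simp [blkAct, qI, coord, e, Matrix.det_fin_two])⟩
  · exact ⟨3, 1, one_mul 1, lam_blk_eq hι h2 hg (by
      ext k; fin_cases k <;> simp [blkAct, qI, coord, e, Matrix.det_fin_two] <;>
        linear_combination ι * hι)⟩
  · exact ⟨1, -1, by ring, lam_blk_eq hι h2 hg (by
      ext k; fin_cases k <;> simp [blkAct, qI, coord, e, Matrix.det_fin_two, hι])⟩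
  · exact ⟨2, 1, one_mul 1, lam_blk_eq hι h2 hg (by
      ext k; fin_cases k <;> simp [blkAct, qI, coord, e, Matrix.det_fin_two, hι])⟩

lemma qW_mono {g : GL (Fin 4) F} (hg : (g : M₄) = blk 1 qW) : Mono ι g := by
  refine ⟨?_, fun a => ?_⟩
  · rw [hg, det_blk, Matrix.det_one]
    simp [qW, Matrix.det_fin_two]
  fin_cases a
  · exact ⟨0, 1, one_mul 1, lam_blk_eq hι h2 hg (by
      ext k; fin_cases k <;> simp [blkAct, qW, coord, e, Matrix.det_fin_two])⟩
  · exact ⟨2, -1, by ring, lam_blk_eq hι h2 hg (by
      ext k; fin_cases k <;> simp [blkAct, qW, coord, e, Matrix.det_fin_two])⟩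
  · exact ⟨1, 1, one_mul 1, lam_blk_eq hι h2 hg (by
      ext k; fin_cases k <;> simp [blkAct, qW, coord, e, Matrix.det_fin_two])⟩
  · exact ⟨3, 1, one_mul 1, lam_blk_eq hι h2 hg (by
      ext k; fin_cases k <;> simp [blkAct, qW, coord, e, Matrix.det_fin_two])⟩
  · exact ⟨5, -1, by ring, lam_blk_eq hι h2 hg (by
      ext k; fin_cases k <;> simp [blkAct, qW, coord, e, Matrix.det_fin_two])⟩
  · exact ⟨4, 1, one_mul 1, lam_blk_eq hι h2 hg (by
      ext k; fin_cases k <;> simp [blkAct, qW, coord, e, Matrix.det_fin_two])⟩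

lemma qCC_mono {g : GL (Fin 4) F} (hg : (g : M₄) = blk (qC ι) (qC ι)) : Mono ι g := by
  have hd := det_qC hι h2
  have hh : (2⁻¹ : F) * 2 = 1 := inv_mul_cancel₀ h2
  have h4 : (2⁻¹ * 2⁻¹ : F) * 4 = 1 := by linear_combination (1 + 2⁻¹ * 2) * hh
  refine ⟨by rw [hg, det_blk, hd, one_mul], fun a => ?_⟩
  fin_cases a
  · exact ⟨0, 1, one_mul 1, lam_blk_eq hι h2 hg (by
      ext k; fin_cases k <;> simp [blkAct, hd, coord, e] <;> simp [qC])⟩
  · exact ⟨4, -1, by ring, lam_blk_eq hι h2 hg (by
      ext k; fin_cases k <;> simp [blkAct, hd, coord, e] <;> simp [qC] <;>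
        first
          | linear_combination (-ι) * h4
          | linear_combination (2⁻¹ * 2⁻¹ * 2) * hι
          | linear_combination (-(2⁻¹ * 2⁻¹ * 2)) * hι
          | ring1)⟩
  · exact ⟨1, -1, by ring, lam_blk_eq hι h2 hg (by
      ext k; fin_cases k <;> simp [blkAct, hd, coord, e] <;> simp [qC] <;>
        first
          | linear_combination (2⁻¹ * 2⁻¹ * 2) * hι - h4
          | linear_combination (-(2⁻¹ * 2⁻¹ * 2)) * hι + h4
          | linear_combination (2⁻¹ * 2⁻¹ * 2) * hι
          | linear_combination (-(2⁻¹ * 2⁻¹ * 2)) * hι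
          | ring1)⟩
  · exact ⟨3, 1, one_mul 1, lam_blk_eq hι h2 hg (by
      ext k; fin_cases k <;> simp [blkAct, hd, coord, e] <;> simp [qC])⟩
  · exact ⟨2, 1, one_mul 1, lam_blk_eq hι h2 hg (by
      ext k; fin_cases k <;> simp [blkAct, hd, coord, e] <;> simp [qC] <;>
        first
          | linear_combination h4 - (2⁻¹ * 2⁻¹ * 4) * hι
          | linear_combination (2⁻¹ * 2⁻¹ * (2 * ι)) * hι
          | linear_combination (-(2⁻¹ * 2⁻¹ * (2 * ι))) * hι
          | linear_combination (2⁻¹ * 2⁻¹ * (4 * ι)) * hι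
          | linear_combination (-(2⁻¹ * 2⁻¹ * (4 * ι))) * hι
          | ring1)⟩
  · exact ⟨5, 1, one_mul 1, lam_blk_eq hι h2 hg (by
      ext k; fin_cases k <;> simp [blkAct, hd, coord, e] <;> simp [qC] <;>
        first
          | linear_combination ι * h4 - (2⁻¹ * 2⁻¹ * (2 * ι)) * hι
          | linear_combination (-ι) * h4 + (2⁻¹ * 2⁻¹ * (2 * ι)) * hι
          | linear_combination ι * h4
          | linear_combination (2⁻¹ * 2⁻¹ * (2 * ι)) * hι
          | ring1)⟩

lemma qSS_mono {g : GL (Fin 4) F} (hg : (g : M₄) = blk (qS ι) (ι • qS ι)) : Mono ι g := by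
  refine ⟨?_, fun a => ?_⟩
  · rw [hg, det_blk]
    simp [qS, Matrix.det_fin_two]
    linear_combination (ι * ι - 1) * hι
  fin_cases a
  · exact ⟨3, 1, one_mul 1, lam_blk_eq hι h2 hg (by
      ext k; fin_cases k <;> simp [blkAct, qS, coord, e, Matrix.det_fin_two, hι])⟩
  · exact ⟨4, 1, one_mul 1, lam_blk_eq hι h2 hg (by
      ext k; fin_cases k <;> simp [blkAct, qS, coord, e, Matrix.det_fin_two, hι])⟩
  · exact ⟨2, -1, by ring, lam_blk_eq hι h2 hg (by
      ext k; fin_cases k <;> simp [blkAct, qS, coord, e, Matrix.det_fin_two, hι])⟩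
  · exact ⟨0, -1, by ring, lam_blk_eq hι h2 hg (by
      ext k; fin_cases k <;> simp [blkAct, qS, coord, e, Matrix.det_fin_two, hι] <;>
        linear_combination -hι)⟩
  · exact ⟨1, -1, by ring, lam_blk_eq hι h2 hg (by
      ext k; fin_cases k <;> simp [blkAct, qS, coord, e, Matrix.det_fin_two, hι])⟩
  · exact ⟨5, -1, by ring, lam_blk_eq hι h2 hg (by
      ext k; fin_cases k <;> simp [blkAct, qS, coord, e, Matrix.det_fin_two, hι] <;>
        linear_combination ι * hι)⟩

lemma diag_mono {s : F} (hs : s ^ 8 = 1) {g : GL (Fin 4) F}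
    (hg : (g : M₄) = blk (s • 1) (s⁻¹ • 1)) : Mono ι g := by
  have hs0 : s ≠ 0 := fun h => by simp [h] at hs
  refine ⟨by rw [hg, det_blk, Matrix.det_smul, Matrix.det_smul, Matrix.det_one, mul_one, mul_one,
    ← mul_pow, mul_inv_cancel₀ hs0, one_pow], fun a => ?_⟩
  have key : ∀ b : Fin 6, b ≠ 0 → b ≠ 3 → lam ι g (e b) = (1 : F) • e b := fun b h0 h3 =>
    lam_blk_eq hι h2 hg (by
      ext k
      fin_cases k <;> fin_cases b <;> simp at h0 h3 <;>
        simp [blkAct, coord, e, Matrix.det_smul, hs0] <;> field_simp)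
  rcases mul_eq_zero.1 (show (s ^ 4 - 1) * (s ^ 4 + 1) = 0 by linear_combination hs) with h | h
  · fin_cases a
    · exact ⟨0, s * s, by linear_combination h, lam_blk_eq hι h2 hg (by
        ext k; fin_cases k <;> simp [blkAct, coord, e, Matrix.det_smul] <;>
          first
            | ring1
            | (field_simp; linear_combination -h))⟩
    all_goals first
      | exact ⟨_, 1, one_mul 1, key _ (by decide) (by decide)⟩
      | exact ⟨3, s * s, by linear_combination h, lam_blk_eq hι h2 hg (by
          ext k; fin_cases k <;> simp [blkAct, coord, e, Matrix.det_smul] <;>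
            first
              | ring1
              | (field_simp; linear_combination ι * h)
              | (field_simp; linear_combination -ι * h)
              | (field_simp; linear_combination (-1 - ι) * h)
              | (field_simp; linear_combination (1 + ι) * h)
              | (field_simp; linear_combination (ι - 1) * h)
              | (field_simp; linear_combination -h)
              | (field_simp; linear_combination h))⟩
  · have hσ : (-ι * (s * s)) * (-ι * (s * s)) = 1 := by linear_combination (s ^ 4) * hι - h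
    fin_cases a
    · exact ⟨3, -ι * (s * s), hσ, lam_blk_eq hι h2 hg (by
        ext k; fin_cases k <;> simp [blkAct, coord, e, Matrix.det_smul] <;>
          first
            | ring1
            | linear_combination (s * s) * hι
            | (field_simp; linear_combination (-(s ^ 4)) * hι + h)
            | (field_simp; linear_combination (s ^ 4) * hι - h))⟩
    all_goals first
      | exact ⟨_, 1, one_mul 1, key _ (by decide) (by decide)⟩
      | exact ⟨0, ι * (s * s), by linear_combination hσ, lam_blk_eq hι h2 hg (by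
          ext k; fin_cases k <;> simp [blkAct, coord, e, Matrix.det_smul] <;>
            first
              | ring1
              | (field_simp; linear_combination ι * h)
              | (field_simp; linear_combination -ι * h))⟩

omit h2 in
/-- The image of a frame vector under the controlled element of order three. -/
lemma lam_low_qC (h2 : (2 : F) ≠ 0) {g : GL (Fin 4) F} (hg : (g : M₄) = blk 1 (qC ι)) :
    lam ι g (e 0) = e 0 ∧ lam ι g (e 3) = e 3 ∧
      lam ι g (e 1) = ![0, -2⁻¹, -2⁻¹, 0, 2⁻¹, 2⁻¹] := by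
  have hd := det_qC hι h2
  have hh : (2⁻¹ : F) * 2 = 1 := inv_mul_cancel₀ h2
  refine ⟨lam_blk_eq hι h2 hg ?_, lam_blk_eq hι h2 hg ?_, lam_blk_eq hι h2 hg ?_⟩ <;> ext k <;>
    fin_cases k <;> simp [blkAct, hd, coord, e] <;> simp [qC] <;> ring

/-- An element commuting with the first diagonal product is block diagonal. -/
lemma exists_blk {g : M₄} (h : g * px ι 0 3 = px ι 0 3 * g) :
    g = blk !![g 0 0, g 0 1; g 1 0, g 1 1] !![g 2 2, g 2 3; g 3 2, g 3 3] := by
  have hi : ι ≠ 0 := fun h0 => by simp [h0] at hι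
  have z : ∀ {x : F}, x * ι = -(x * ι) → x = 0 := fun {x} hx =>
    (mul_eq_zero.1 ((mul_eq_zero.1 (show (2 : F) * (x * ι) = 0 by linear_combination hx)).resolve_left
      h2)).resolve_right hi
  have e' := fun i j => congrFun (congrFun h i) j
  simp only [px03 hι, Matrix.mul_apply, Fin.sum_univ_four] at e'
  ext i j
  fin_cases i <;> fin_cases j <;> simp [blk]
  all_goals refine z ?_
  all_goals first
    | (have := e' 0 2; simp at this; linear_combination this)
    | (have := e' 0 3; simp at this; linear_combination this)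
    | (have := e' 1 2; simp at this; linear_combination this)
    | (have := e' 1 3; simp at this; linear_combination this)
    | (have := e' 2 0; simp at this; linear_combination this)
    | (have := e' 2 1; simp at this; linear_combination this)
    | (have := e' 3 0; simp at this; linear_combination this)
    | (have := e' 3 1; simp at this; linear_combination this)
    | (have := e' 0 2; simp at this; linear_combination -this)
    | (have := e' 0 3; simp at this; linear_combination -this)
    | (have := e' 1 2; simp at this; linear_combination -this)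
    | (have := e' 1 3; simp at this; linear_combination -this)
    | (have := e' 2 0; simp at this; linear_combination -this)
    | (have := e' 2 1; simp at this; linear_combination -this)
    | (have := e' 3 0; simp at this; linear_combination -this)
    | (have := e' 3 1; simp at this; linear_combination -this)

omit h2 in
lemma blk_comm_px03 (A B : M₂) : blk A B * px ι 0 3 = px ι 0 3 * blk A B := by
  rw [px03 hι]
  ext i j
  fin_cases i <;> fin_cases j <;> simp [blk, Matrix.mul_apply, Fin.sum_univ_four] <;> ring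

omit h2 in
lemma px02_blk (A B : M₂) : px ι 0 2 * blk A B = blk (qZ * B * qZ) (qZ * A * qZ) * px ι 0 2 := by
  rw [px02 hι]
  ext i j
  fin_cases i <;> fin_cases j <;> simp [blk, qZ, Matrix.mul_apply, Fin.sum_univ_four, Matrix.vecMul, dotProduct, Fin.sum_univ_two]

end CfsgLib.Geometric.SLFour
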