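import Cfsg.Agent.Lib.Geometric.SLFour.Monomial
import Cfsg.Agent.Lib.Geometric.LinearDecomp

/-!
The decomposition types of maximal subgroups of the special linear group in dimension four.
-/

namespace CfsgLib.Geometric.SLFour

/-- Four lines, over at least seven elements. -/
theorem monomial {F : Type*} [Field F] [Fintype F] : 7 ≤ Fintype.card F →
    ∀ D : Fin 4 → Submodule F (Fin 4 → F), Cfsg.Geo.IsMDecomposition 1 D →
    Cfsg.Geo.IsMaximalIn (Cfsg.Geo.specialLinear (Fin 4) F)
      (Cfsg.Geo.decompositionStabilizer D ⊓ Cfsg.Geo.specialLinear (Fin 4) F) :=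
  fun hq _ hD => decompStab_isMaximalIn_lines hq hD

/-- Two planes, over at least four elements. -/
theorem two_planes {F : Type*} [Field F] [Fintype F] : 4 ≤ Fintype.card F →
    ∀ D : Fin 2 → Submodule F (Fin 4 → F), Cfsg.Geo.IsMDecomposition 2 D →
    Cfsg.Geo.IsMaximalIn (Cfsg.Geo.specialLinear (Fin 4) F)
      (Cfsg.Geo.decompositionStabilizer D ⊓ Cfsg.Geo.specialLinear (Fin 4) F) :=
  fun hq _ hD => Decomp.decompStab_isMaximalIn_of_two_le hD le_rfl (fun _ => Or.inr hq)
    (fun h => by omega)

end CfsgLib.Geometric.SLFour
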