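import Cfsg.Agent.Lib.Geometric.SLFour.Quad
import Cfsg.Agent.Lib.Geometric.LinearUnitaryFour

/-!
The two families of similarity groups of quadratic and unitary forms on four dimensional space.
-/

set_option autoImplicit false
set_option linter.style.longLine false

namespace CfsgLib.Geometric.SLFour

open Matrix QuadraticMap Module CfsgLib.ClassicalForms CfsgLib.Geometric CfsgLib.Geometric.Orth

/-- Item (7) of the list: similarities of a quadratic form, `q` odd. -/
theorem quad_similarity {F : Type*} [Field F] [Fintype F] (hodd : Odd (Fintype.card F)) (Q : (Fin 4 → F) → F) (hQ : Cfsg.Geo.IsNondegenerateQuadraticForm Q) : Cfsg.Geo.IsMaximalIn (Cfsg.Geo.specialLinear (Fin 4) F) (Cfsg.Geo.quadSimilarityGroup Q ⊓ Cfsg.Geo.specialLinear (Fin 4) F) := by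
  classical
  have hnd := nondeg_toQF hQ
  have hn' : 4 ≤ Fintype.card (Fin 4) := by rw [Fintype.card_fin]
  have h2 : (2 : F) ≠ 0 := by
    intro h
    have hchar : ringChar F = 2 := by
      obtain ⟨p, hp⟩ := CharP.exists F
      have hpp : p.Prime := CharP.char_is_prime F p
      have h2' : ((2 : ℕ) : F) = 0 := by exact_mod_cast h
      have := (CharP.cast_eq_zero_iff F p 2).mp h2'
      rw [ringChar.eq F p]
      exact (Nat.prime_dvd_prime_iff_eq hpp Nat.prime_two).mp this
    have := FiniteField.even_card_iff_char_two.mp hchar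
    rw [Nat.odd_iff] at hodd
    omega
  refine ⟨lt_of_le_of_ne inf_le_right fun he => ?_, fun M hHM hMS => ?_⟩
  · obtain ⟨z, -, hz0, hz⟩ := Orth.exists_singular_third (Q := toQF hQ) h2 (k := 0) ![] (by omega)
    have hzz : pf (toQF hQ) z z = 0 := by rw [pf_apply, polar_self', hz, mul_zero]
    have hm : tv z (pf (toQF hQ) z) hzz ∈ Cfsg.Geo.quadSimilarityGroup Q ⊓ Cfsg.Geo.specialLinear (Fin 4) F := by
      rw [he]; exact tv_mem_specialLinear _ _ _
    obtain ⟨c, hc⟩ := hm.1
    have hc' : ∀ v, toQF hQ (ap (tv z (pf (toQF hQ) z) hzz) v) = (c : F) * toQF hQ v := hc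
    obtain ⟨p, hp⟩ : ∃ p, QuadraticMap.polar (toQF hQ) p z ≠ 0 := by
      by_contra h
      push Not at h
      exact hz0 (hnd z fun y => by rw [QuadraticMap.polar_comm]; exact h y)
    have e0 : QuadraticMap.polar (toQF hQ) z z = 0 := hzz
    have e1 := hc' (p + z)
    have e2 := hc' p
    simp only [ap_tv, map_add, pf_apply, e0, zero_smul, add_zero] at e1 e2
    have e3 : ∀ s : F, toQF hQ (p + s • z) = toQF hQ p + s * QuadraticMap.polar (toQF hQ) p z :=
      fun s => by
        rw [QuadraticMap.map_add (⇑(toQF hQ)), QuadraticMap.map_smul, hz,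
          QuadraticMap.polar_smul_right, smul_zero, add_zero, smul_eq_mul]
    rw [e3] at e2
    rw [show p + z + QuadraticMap.polar (toQF hQ) p z • z =
      p + (1 + QuadraticMap.polar (toQF hQ) p z) • z by module, e3,
      show p + z = p + (1 : F) • z by rw [one_smul], e3] at e1
    have hc1 : (c : F) = 1 := by
      refine (mul_right_cancel₀ hp ?_).symm
      linear_combination e1 - e2
    rw [hc1] at e2
    exact hp (mul_self_eq_zero.mp (by linear_combination e2))
  by_cases hM : M ≤ Cfsg.Geo.quadSimilarityGroup Q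
  · exact Or.inl (le_antisymm (le_inf hM hMS) hHM)
  refine Or.inr (le_antisymm hMS ?_)
  obtain ⟨g, hgM, hg⟩ := SetLike.not_le_iff_exists.mp hM
  exact Quad.specialLinear_le_of_not_similarity hnd h2 (Fintype.card_fin 4)
    (fun k hk hsim => hHM ⟨hsim, hk⟩) ⟨g, hgM, hg⟩

/-- Item (9) of the list: similarities of a unitary form. -/
theorem unitary_similarity {F : Type*} [Field F] [Fintype F] (σ : F ≃+* F) (f : (Fin 4 → F) → (Fin 4 → F) → F) (hf : Cfsg.Geo.IsUnitaryForm σ f) : Cfsg.Geo.IsMaximalIn (Cfsg.Geo.specialLinear (Fin 4) F) (Cfsg.Geo.similarityGroup f ⊓ Cfsg.Geo.specialLinear (Fin 4) F) :=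
  unitarySimilarity_isMaximalIn_four (by rw [Fintype.card_fin]) hf

end CfsgLib.Geometric.SLFour
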