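import Mathlib.LinearAlgebra.Matrix.GeneralLinearGroup.Defs
import Mathlib.LinearAlgebra.Matrix.SemiringInverse
import Mathlib.Tactic.LinearCombination
import Mathlib.Tactic.FieldSimp

/-!
Alternating matrices of size four as a six-dimensional quadratic space: the vectors, the two
matrices of a vector, the action of `g` by `B ↦ g B gᵀ` and the products of two vectors.
-/

set_option autoImplicit false

namespace CfsgLib.Geometric.SLFour

open Matrix

variable {F : Type*} [Field F]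

local notation "M₄" => Matrix (Fin 4) (Fin 4) F

/-- The alternating matrix with the given upper entries `01, 02, 03, 12, 13, 23`. -/
def skew (a : Fin 6 → F) : M₄ :=
  !![0, a 0, a 1, a 2; -a 0, 0, a 3, a 4; -a 1, -a 3, 0, a 5; -a 2, -a 4, -a 5, 0]

/-- The adjugate form of `skew`. -/
def dual (a : Fin 6 → F) : M₄ :=
  !![0, -a 5, a 4, -a 3; a 5, 0, -a 2, a 1; -a 4, a 2, 0, -a 0; a 3, -a 1, a 0, 0]

/-- The polarised Pfaffian. -/
def pol (a b : Fin 6 → F) : F :=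
  a 0 * b 5 + b 0 * a 5 - a 1 * b 4 - b 1 * a 4 + a 2 * b 3 + b 2 * a 3

/-- The Pfaffian. -/
def pfa (a : Fin 6 → F) : F := a 0 * a 5 - a 1 * a 4 + a 2 * a 3

lemma skew_mul_dual (a : Fin 6 → F) : skew a * dual a = pfa a • (1 : M₄) := by
  ext i j
  fin_cases i <;> fin_cases j <;>
    simp [skew, dual, pfa, Matrix.mul_apply, Fin.sum_univ_four] <;> ring

lemma dual_mul_skew (a : Fin 6 → F) : dual a * skew a = pfa a • (1 : M₄) := by
  ext i j
  fin_cases i <;> fin_cases j <;>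
    simp [skew, dual, pfa, Matrix.mul_apply, Fin.sum_univ_four] <;> ring

lemma skew_mul_dual_add (a b : Fin 6 → F) :
    skew a * dual b + skew b * dual a = pol a b • (1 : M₄) := by
  ext i j
  fin_cases i <;> fin_cases j <;>
    simp [skew, dual, pol, Matrix.mul_apply, Fin.sum_univ_four] <;> ring

lemma dual_mul_skew_add (a b : Fin 6 → F) :
    dual a * skew b + dual b * skew a = pol a b • (1 : M₄) := by
  ext i j
  fin_cases i <;> fin_cases j <;>
    simp [skew, dual, pol, Matrix.mul_apply, Fin.sum_univ_four] <;> ring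

lemma det_skew (a : Fin 6 → F) : (skew a).det = pfa a ^ 2 := by
  simp [skew, pfa, Matrix.det_succ_row_zero, Fin.sum_univ_succ, Fin.succAbove]
  ring

lemma det_dual (a : Fin 6 → F) : (dual a).det = pfa a ^ 2 := by
  simp [dual, pfa, Matrix.det_succ_row_zero, Fin.sum_univ_succ, Fin.succAbove]
  ring

/-- The upper entries of a matrix. -/
def upper (B : M₄) : Fin 6 → F := ![B 0 1, B 0 2, B 0 3, B 1 2, B 1 3, B 2 3]

@[simp] lemma upper_skew (a : Fin 6 → F) : upper (skew a) = a := by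
  ext k; fin_cases k <;> simp [upper, skew]

lemma skew_upper (h2 : (2 : F) ≠ 0) {B : M₄} (hB : Bᵀ = -B) : skew (upper B) = B := by
  have h : ∀ i j, B j i = -B i j := fun i j => congrFun (congrFun hB i) j
  have hd : ∀ i, B i i = 0 := fun i =>
    (mul_eq_zero.1 (show (2 : F) * B i i = 0 by linear_combination h i i)).resolve_left h2
  ext i j
  fin_cases i <;> fin_cases j <;>
    simp [upper, skew, hd, h 0 1, h 0 2, h 0 3, h 1 2, h 1 3, h 2 3]

lemma skew_transpose (a : Fin 6 → F) : (skew a)ᵀ = -skew a := by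
  ext i j; fin_cases i <;> fin_cases j <;> simp [skew]

lemma dual_transpose (a : Fin 6 → F) : (dual a)ᵀ = -dual a := by
  ext i j; fin_cases i <;> fin_cases j <;> simp [dual]

lemma det_four (g : M₄) : g.det =
    g 0 0 * (g 1 1 * (g 2 2 * g 3 3 - g 2 3 * g 3 2) - g 1 2 * (g 2 1 * g 3 3 - g 2 3 * g 3 1)
        + g 1 3 * (g 2 1 * g 3 2 - g 2 2 * g 3 1))
      - g 0 1 * (g 1 0 * (g 2 2 * g 3 3 - g 2 3 * g 3 2) - g 1 2 * (g 2 0 * g 3 3 - g 2 3 * g 3 0)
        + g 1 3 * (g 2 0 * g 3 2 - g 2 2 * g 3 0))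
      + g 0 2 * (g 1 0 * (g 2 1 * g 3 3 - g 2 3 * g 3 1) - g 1 1 * (g 2 0 * g 3 3 - g 2 3 * g 3 0)
        + g 1 3 * (g 2 0 * g 3 1 - g 2 1 * g 3 0))
      - g 0 3 * (g 1 0 * (g 2 1 * g 3 2 - g 2 2 * g 3 1) - g 1 1 * (g 2 0 * g 3 2 - g 2 2 * g 3 0)
        + g 1 2 * (g 2 0 * g 3 1 - g 2 1 * g 3 0)) := by
  simp [Matrix.det_succ_row_zero, Fin.sum_univ_succ, Fin.succAbove]
  ring

lemma upper_conj (g : M₄) (a : Fin 6 → F) (i j : Fin 4) :
    (g * skew a * gᵀ) i j =
      a 0 * (g i 0 * g j 1 - g i 1 * g j 0) + a 1 * (g i 0 * g j 2 - g i 2 * g j 0)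
      + a 2 * (g i 0 * g j 3 - g i 3 * g j 0) + a 3 * (g i 1 * g j 2 - g i 2 * g j 1)
      + a 4 * (g i 1 * g j 3 - g i 3 * g j 1) + a 5 * (g i 2 * g j 3 - g i 3 * g j 2) := by
  simp [skew, Matrix.mul_apply, Fin.sum_univ_four]
  ring

lemma pfa_upper_conj (g : M₄) (a : Fin 6 → F) :
    pfa (upper (g * skew a * gᵀ)) = g.det * pfa a := by
  simp only [pfa, upper, Matrix.cons_val, upper_conj, det_four]
  ring

variable (ι : F)

/-- The upper entries of the matrix of a vector. -/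
def coord (x : Fin 6 → F) : Fin 6 → F :=
  ![x 0 + ι * x 3, x 1 + ι * x 4, x 2 + ι * x 5, x 2 - ι * x 5, -x 1 + ι * x 4, x 0 - ι * x 3]

/-- The vector with given upper entries. -/
def decoord (a : Fin 6 → F) : Fin 6 → F :=
  ![2⁻¹ * (a 0 + a 5), 2⁻¹ * (a 1 - a 4), 2⁻¹ * (a 2 + a 3),
    -ι * (2⁻¹ * (a 0 - a 5)), -ι * (2⁻¹ * (a 1 + a 4)), -ι * (2⁻¹ * (a 2 - a 3))]

/-- The alternating matrix of a vector. -/
def X (x : Fin 6 → F) : M₄ := skew (coord ι x)

/-- The matrix inverse to `X x` up to the value of `x`. -/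
def Y (x : Fin 6 → F) : M₄ := dual (coord ι x)

variable {ι}

lemma coord_add (x y : Fin 6 → F) : coord ι (x + y) = coord ι x + coord ι y := by
  ext k; fin_cases k <;> simp [coord] <;> ring

lemma coord_smul (c : F) (x : Fin 6 → F) : coord ι (c • x) = c • coord ι x := by
  ext k; fin_cases k <;> simp [coord] <;> ring

lemma skew_add (a b : Fin 6 → F) : skew (a + b) = skew a + skew b := by
  ext i j; fin_cases i <;> fin_cases j <;> simp [skew] <;> ring

lemma skew_smul (c : F) (a : Fin 6 → F) : skew (c • a) = c • skew a := by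
  ext i j; fin_cases i <;> fin_cases j <;> simp [skew]

lemma dual_add (a b : Fin 6 → F) : dual (a + b) = dual a + dual b := by
  ext i j; fin_cases i <;> fin_cases j <;> simp [dual] <;> ring

lemma dual_smul (c : F) (a : Fin 6 → F) : dual (c • a) = c • dual a := by
  ext i j; fin_cases i <;> fin_cases j <;> simp [dual]

lemma X_add (x y : Fin 6 → F) : X ι (x + y) = X ι x + X ι y := by
  rw [X, X, X, coord_add, skew_add]

lemma X_smul (c : F) (x : Fin 6 → F) : X ι (c • x) = c • X ι x := by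
  rw [X, X, coord_smul, skew_smul]

lemma X_neg (x : Fin 6 → F) : X ι (-x) = -X ι x := by
  rw [← neg_one_smul F x, X_smul, neg_one_smul]

lemma Y_add (x y : Fin 6 → F) : Y ι (x + y) = Y ι x + Y ι y := by
  rw [Y, Y, Y, coord_add, dual_add]

lemma Y_smul (c : F) (x : Fin 6 → F) : Y ι (c • x) = c • Y ι x := by
  rw [Y, Y, coord_smul, dual_smul]

lemma Y_neg (x : Fin 6 → F) : Y ι (-x) = -Y ι x := by
  rw [← neg_one_smul F x, Y_smul, neg_one_smul]

section

variable (hι : ι * ι = -1)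
include hι

lemma pol_coord (x y : Fin 6 → F) : pol (coord ι x) (coord ι y) = 2 * (x ⬝ᵥ y) := by
  simp [pol, coord, dotProduct, Fin.sum_univ_six]
  linear_combination (-2 * (x 3 * y 3 + x 4 * y 4 + x 5 * y 5)) * hι

lemma pfa_coord (x : Fin 6 → F) : pfa (coord ι x) = x ⬝ᵥ x := by
  simp [pfa, coord, dotProduct, Fin.sum_univ_six]
  linear_combination (-(x 3 * x 3 + x 4 * x 4 + x 5 * x 5)) * hι

lemma X_mul_Y (x : Fin 6 → F) : X ι x * Y ι x = (x ⬝ᵥ x) • (1 : M₄) := by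
  rw [X, Y, skew_mul_dual, pfa_coord hι]

lemma Y_mul_X (x : Fin 6 → F) : Y ι x * X ι x = (x ⬝ᵥ x) • (1 : M₄) := by
  rw [X, Y, dual_mul_skew, pfa_coord hι]

lemma X_mul_Y_add (x y : Fin 6 → F) :
    X ι x * Y ι y + X ι y * Y ι x = (2 * (x ⬝ᵥ y)) • (1 : M₄) := by
  rw [X, Y, X, Y, skew_mul_dual_add, pol_coord hι]

lemma Y_mul_X_add (x y : Fin 6 → F) :
    Y ι x * X ι y + Y ι y * X ι x = (2 * (x ⬝ᵥ y)) • (1 : M₄) := by
  rw [X, Y, X, Y, dual_mul_skew_add, pol_coord hι]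

lemma YXY (v w : Fin 6 → F) :
    Y ι v * X ι w * Y ι v = (2 * (v ⬝ᵥ w)) • Y ι v - (v ⬝ᵥ v) • Y ι w := by
  have h := eq_sub_of_add_eq (Y_mul_X_add hι v w)
  rw [h, sub_mul, Matrix.smul_mul, one_mul, mul_assoc, X_mul_Y hι, Matrix.mul_smul, mul_one]

lemma XYX (u z : Fin 6 → F) :
    X ι u * Y ι z * X ι u = (2 * (u ⬝ᵥ z)) • X ι u - (u ⬝ᵥ u) • X ι z := by
  have h := eq_sub_of_add_eq (X_mul_Y_add hι u z)
  rw [h, sub_mul, Matrix.smul_mul, one_mul, mul_assoc, Y_mul_X hι, Matrix.mul_smul, mul_one]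

lemma det_X (x : Fin 6 → F) : (X ι x).det = (x ⬝ᵥ x) ^ 2 := by rw [X, det_skew, pfa_coord hι]

lemma det_Y (x : Fin 6 → F) : (Y ι x).det = (x ⬝ᵥ x) ^ 2 := by rw [Y, det_dual, pfa_coord hι]

variable (h2 : (2 : F) ≠ 0)
include h2

lemma coord_decoord (a : Fin 6 → F) : coord ι (decoord ι a) = a := by
  have hh : (2⁻¹ : F) * 2 = 1 := inv_mul_cancel₀ h2
  ext k
  fin_cases k <;> simp [coord, decoord] <;>
    first
      | linear_combination (-(2⁻¹) * (a 0 - a 5)) * hι + a 0 * hh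
      | linear_combination (-(2⁻¹) * (a 1 + a 4)) * hι + a 1 * hh
      | linear_combination (-(2⁻¹) * (a 2 - a 3)) * hι + a 2 * hh
      | linear_combination (2⁻¹ * (a 2 - a 3)) * hι + a 3 * hh
      | linear_combination (-(2⁻¹) * (a 1 + a 4)) * hι + a 4 * hh
      | linear_combination (2⁻¹ * (a 0 - a 5)) * hι + a 5 * hh

lemma decoord_coord (x : Fin 6 → F) : decoord ι (coord ι x) = x := by
  have hh : (2⁻¹ : F) * 2 = 1 := inv_mul_cancel₀ h2
  ext k
  fin_cases k <;> simp [coord, decoord] <;>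
    first
      | linear_combination (x 0) * hh
      | linear_combination (x 1) * hh
      | linear_combination (x 2) * hh
      | linear_combination (-(x 3) * 2⁻¹ * 2) * hι + (x 3) * hh
      | linear_combination (-(x 4) * 2⁻¹ * 2) * hι + (x 4) * hh
      | linear_combination (-(x 5) * 2⁻¹ * 2) * hι + (x 5) * hh

lemma X_injective : Function.Injective (X ι (F := F)) := fun x y h => by
  have h' := congrArg (fun B => decoord ι (upper B)) h
  simpa [X, decoord_coord hι h2] using h'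

end

variable (ι)

/-- The action on vectors. -/
def lam (g : GL (Fin 4) F) (x : Fin 6 → F) : Fin 6 → F :=
  decoord ι (upper ((g : M₄) * X ι x * (g : M₄)ᵀ))

/-- The frame vectors. -/
def e (a : Fin 6) : Fin 6 → F := Pi.single a 1

variable {ι}

section

variable (hι : ι * ι = -1) (h2 : (2 : F) ≠ 0)
include hι h2

lemma X_lam (g : GL (Fin 4) F) (x : Fin 6 → F) :
    X ι (lam ι g x) = (g : M₄) * X ι x * (g : M₄)ᵀ := by
  have hB : ((g : M₄) * X ι x * (g : M₄)ᵀ)ᵀ = -((g : M₄) * X ι x * (g : M₄)ᵀ) := by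
    rw [Matrix.transpose_mul, Matrix.transpose_mul, Matrix.transpose_transpose, X, skew_transpose,
      Matrix.neg_mul, Matrix.mul_neg, mul_assoc]
  rw [lam, X, coord_decoord hι h2, skew_upper h2 hB]

lemma lam_eq {g : GL (Fin 4) F} {x y : Fin 6 → F}
    (h : (g : M₄) * X ι x * (g : M₄)ᵀ = X ι y) : lam ι g x = y :=
  X_injective hι h2 ((X_lam hι h2 g x).trans h)

lemma lam_one (x : Fin 6 → F) : lam ι 1 x = x := lam_eq hι h2 (by simp)

lemma lam_mul (g k : GL (Fin 4) F) (x : Fin 6 → F) :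
    lam ι (g * k) x = lam ι g (lam ι k x) :=
  lam_eq hι h2 (by simp [X_lam hι h2, Matrix.transpose_mul, mul_assoc])

lemma lam_add (g : GL (Fin 4) F) (x y : Fin 6 → F) :
    lam ι g (x + y) = lam ι g x + lam ι g y :=
  lam_eq hι h2 (by rw [X_add, X_add, Matrix.mul_add, Matrix.add_mul, X_lam hι h2, X_lam hι h2])

lemma lam_smul (g : GL (Fin 4) F) (c : F) (x : Fin 6 → F) :
    lam ι g (c • x) = c • lam ι g x :=
  lam_eq hι h2 (by rw [X_smul, X_smul, Matrix.mul_smul, Matrix.smul_mul, X_lam hι h2])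

lemma lam_scalar {g : GL (Fin 4) F} {c : F} (hg : (g : M₄) = c • 1) (x : Fin 6 → F) :
    lam ι g x = (c * c) • x :=
  lam_eq hι h2 (by
    rw [hg, Matrix.transpose_smul, Matrix.transpose_one, Matrix.smul_mul, one_mul, Matrix.mul_smul,
      mul_one, X_smul, smul_smul])

lemma dot_lam {g : GL (Fin 4) F} (hg : (g : M₄).det = 1) (x : Fin 6 → F) :
    lam ι g x ⬝ᵥ lam ι g x = x ⬝ᵥ x := by
  have h := congrArg upper (X_lam hι h2 g x)
  rw [X, upper_skew] at h
  rw [← pfa_coord hι, ← pfa_coord hι, h, X, pfa_upper_conj, hg, one_mul]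

lemma dot_lam₂ {g : GL (Fin 4) F} (hg : (g : M₄).det = 1) (x y : Fin 6 → F) :
    lam ι g x ⬝ᵥ lam ι g y = x ⬝ᵥ y := by
  have h := dot_lam hι h2 hg (x + y)
  rw [lam_add hι h2] at h
  simp only [add_dotProduct, dotProduct_add, dot_lam hι h2 hg, dotProduct_comm (lam ι g y) (lam ι g x),
    dotProduct_comm y x] at h
  refine mul_left_cancel₀ h2 ?_
  linear_combination h

lemma Y_lam {g : GL (Fin 4) F} (hg : (g : M₄).det = 1) {x : Fin 6 → F} (hx : x ⬝ᵥ x ≠ 0) :
    Y ι (lam ι g x) = ((g⁻¹ : GL (Fin 4) F) : M₄)ᵀ * Y ι x * ((g⁻¹ : GL (Fin 4) F) : M₄) := by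
  set N := ((g⁻¹ : GL (Fin 4) F) : M₄)
  have hN : (g : M₄) * N = 1 := g.mul_inv
  have h1 : X ι (lam ι g x) * (Nᵀ * Y ι x * N) = (x ⬝ᵥ x) • 1 := by
    rw [X_lam hι h2]
    calc (g : M₄) * X ι x * (g : M₄)ᵀ * (Nᵀ * Y ι x * N)
        = (g : M₄) * X ι x * ((g : M₄)ᵀ * Nᵀ) * (Y ι x * N) := by simp only [mul_assoc]
      _ = _ := by
        rw [← Matrix.transpose_mul, show N * (g : M₄) = 1 from g.inv_mul, Matrix.transpose_one,
          mul_one, mul_assoc, ← mul_assoc (X ι x), X_mul_Y hι, Matrix.smul_mul, one_mul,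
          Matrix.mul_smul, hN]
  have h0 : Y ι (lam ι g x) * X ι (lam ι g x) = (x ⬝ᵥ x) • 1 := by
    rw [Y_mul_X hι, dot_lam hι h2 hg]
  have key := congrArg (Y ι (lam ι g x) * ·) h1
  simp only [← mul_assoc] at key
  rw [h0, Matrix.smul_mul, one_mul, Matrix.mul_smul, mul_one] at key
  refine smul_right_injective M₄ hx ?_
  simpa [mul_assoc] using key.symm

/-- Conjugation moves the two vectors of a product. -/
lemma conj_XY {g : GL (Fin 4) F} (hg : (g : M₄).det = 1) (u : Fin 6 → F) {v : Fin 6 → F}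
    (hv : v ⬝ᵥ v ≠ 0) :
    (g : M₄) * (X ι u * Y ι v) * ((g⁻¹ : GL (Fin 4) F) : M₄) =
      X ι (lam ι g u) * Y ι (lam ι g v) := by
  set N := ((g⁻¹ : GL (Fin 4) F) : M₄) with hNdef
  rw [X_lam hι h2, Y_lam hι h2 hg hv, ← hNdef]
  have hT : (g : M₄)ᵀ * Nᵀ = 1 := by
    rw [← Matrix.transpose_mul, show N * (g : M₄) = 1 from g.inv_mul, Matrix.transpose_one]
  calc (g : M₄) * (X ι u * Y ι v) * N
      = (g : M₄) * X ι u * ((g : M₄)ᵀ * Nᵀ) * (Y ι v * N) := by
        rw [hT, mul_one]; simp only [mul_assoc]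
    _ = _ := by simp only [mul_assoc]

omit h2 in
/-- The product of two vectors, scaled. -/
def pr (c : F) (u v : Fin 6 → F) (h : c * c * ((u ⬝ᵥ u) * (v ⬝ᵥ v)) = 1) : GL (Fin 4) F where
  val := c • (X ι u * Y ι v)
  inv := c • (X ι v * Y ι u)
  val_inv := by
    rw [Matrix.smul_mul, Matrix.mul_smul, smul_smul, mul_assoc, ← mul_assoc (Y ι v), Y_mul_X hι,
      Matrix.smul_mul, one_mul, Matrix.mul_smul, X_mul_Y hι, smul_smul, smul_smul]
    convert one_smul F (1 : M₄) using 2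
    linear_combination h
  inv_val := by
    rw [Matrix.smul_mul, Matrix.mul_smul, smul_smul, mul_assoc, ← mul_assoc (Y ι u), Y_mul_X hι,
      Matrix.smul_mul, one_mul, Matrix.mul_smul, X_mul_Y hι, smul_smul, smul_smul]
    convert one_smul F (1 : M₄) using 2
    linear_combination h

omit h2 in
@[simp] lemma coe_pr (c : F) (u v : Fin 6 → F) (h) :
    ((pr hι c u v h : GL (Fin 4) F) : M₄) = c • (X ι u * Y ι v) := rfl

omit h2 in
lemma det_pr (c : F) (u v : Fin 6 → F) (h) :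
    ((pr hι c u v h : GL (Fin 4) F) : M₄).det = 1 := by
  rw [coe_pr, Matrix.det_smul, Matrix.det_mul, det_X hι, det_Y hι, Fintype.card_fin]
  linear_combination (c * c * ((u ⬝ᵥ u) * (v ⬝ᵥ v)) + 1) * h

/-- A product of two vectors acts as the product of their reflections. -/
lemma lam_pr (c : F) (u v : Fin 6 → F) (h) (w : Fin 6 → F) :
    lam ι (pr hι c u v h) w = (c * c) •
      ((4 * (v ⬝ᵥ w) * (u ⬝ᵥ v) - 2 * (v ⬝ᵥ v) * (u ⬝ᵥ w)) • u -
        (2 * (u ⬝ᵥ u) * (v ⬝ᵥ w)) • v + ((u ⬝ᵥ u) * (v ⬝ᵥ v)) • w) := by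
  refine lam_eq hι h2 ?_
  rw [coe_pr, Matrix.transpose_smul, Matrix.transpose_mul, Y, X, dual_transpose, skew_transpose,
    neg_mul_neg, ← X, ← Y, Matrix.smul_mul, Matrix.smul_mul, Matrix.mul_smul, smul_smul, X_smul]
  congr 1
  rw [show X ι u * Y ι v * X ι w * (Y ι v * X ι u) = X ι u * (Y ι v * X ι w * Y ι v) * X ι u by
    simp only [mul_assoc], YXY hι, Matrix.mul_sub, Matrix.sub_mul, Matrix.mul_smul, Matrix.smul_mul,
    Matrix.mul_smul, Matrix.smul_mul, XYX hι, XYX hι]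
  simp only [sub_eq_add_neg, X_add, X_neg, X_smul]
  module

end

lemma e_dot (a b : Fin 6) : (e a : Fin 6 → F) ⬝ᵥ e b = if a = b then 1 else 0 := by
  rw [e, e, single_dotProduct, one_mul, Pi.single_apply]

@[simp] lemma e_dot_self (a : Fin 6) : (e a : Fin 6 → F) ⬝ᵥ e a = 1 := by simp [e_dot]

lemma dot_e (x : Fin 6 → F) (a : Fin 6) : x ⬝ᵥ e a = x a := by simp [e]

end CfsgLib.Geometric.SLFour
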