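import Cfsg.Agent.Lib.Geometric.SLFour.LocalBase

/-!
Elements centralising a product of two frame vectors: either they are monomial or the group contains a
controlled element of order three.
-/

set_option autoImplicit false
set_option linter.unusedSectionVars false

namespace CfsgLib.Geometric.SLFour

open Matrix

variable {F : Type*} [Field F] [Fintype F]

local notation "M₄" => Matrix (Fin 4) (Fin 4) F
local notation "M₂" => Matrix (Fin 2) (Fin 2) F
local notation "SL₂" => Matrix.SpecialLinearGroup (Fin 2) F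

variable {ι : F} (hι : ι * ι = -1) (h2 : (2 : F) ≠ 0)
include hι h2

/-- Monomial elements with a quaternion unit in the first block. -/
lemma exists_first (i : Fin 4) : ∃ (m : GL (Fin 4) F) (ε : F), m ∈ Nstd hι h2 ∧ ε * ε = 1 ∧
    (m : M₄) = blk (ε • qR ι i) 1 := by
  obtain ⟨n, hn, hnv⟩ : ∃ n : GL (Fin 4) F, n ∈ Nstd hι h2 ∧ (n : M₄) = blk 1 (qR ι i) := by
    fin_cases i
    · exact ⟨1, one_mem _, by simp [qR, blk_one]⟩
    · exact ⟨_, qI_mono hι h2 (g := lowHom (sI hι)) rfl, rfl⟩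
    · exact ⟨_, qW_mono hι h2 (g := lowHom (sW : SL₂)) rfl, rfl⟩
    · refine ⟨lowHom (sI hι) * lowHom (sW : SL₂),
        mul_mem (qI_mono hι h2 rfl) (qW_mono hι h2 rfl), ?_⟩
      rw [← map_mul, coe_lowHom]
      congr 1
      rw [Matrix.SpecialLinearGroup.coe_mul]
      ext a b; fin_cases a <;> fin_cases b <;> simp [sI, sW, qR, qI, qW, qK]
  have hm : pxu hι 0 2 * n * (pxu hι 0 2)⁻¹ ∈ Nstd hι h2 :=
    mul_mem (mul_mem (mono_pxu hι h2 0 2) hn) (inv_mem (mono_pxu hι h2 0 2))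
  have hmv : ((pxu hι 0 2 * n * (pxu hι 0 2)⁻¹ : GL (Fin 4) F) : M₄) = blk (qZ * qR ι i * qZ) 1 := by
    rw [Units.val_mul, Units.val_mul, hnv, coe_pxu, px02_blk hι, mul_assoc, ← coe_pxu hι 0 2,
      Units.mul_inv, mul_one, mul_one, qZ_sq hι h2]
  obtain ⟨ε, hε, he⟩ : ∃ ε : F, ε * ε = 1 ∧ (qZ * qR ι i * qZ : M₂) = ε • qR ι i := by
    fin_cases i
    · exact ⟨1, one_mul 1, by simp [qR, qZ_sq hι h2]⟩
    · exact ⟨1, one_mul 1, by ext a b; fin_cases a <;> fin_cases b <;> simp [qR, qI, qZ]⟩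
    · exact ⟨-1, by ring, by ext a b; fin_cases a <;> fin_cases b <;> simp [qR, qW, qZ]⟩
    · exact ⟨-1, by ring, by ext a b; fin_cases a <;> fin_cases b <;> simp [qR, qK, qZ]⟩
  exact ⟨_, ε, hm, hε, by rw [hmv, he]⟩

lemma qR_sq (i : Fin 4) : ∃ c : F, c * c = 1 ∧ qR ι i * qR ι i = c • (1 : M₂) := by
  refine Fin.cases ⟨1, one_mul 1, by simp [qR]⟩ (fun k => ?_) i
  exact ⟨-1, by ring, by rw [← qP_eq_qR, qP_sq hι, neg_one_smul]⟩

variable {M : Subgroup (GL (Fin 4) F)} (hle : M ≤ Cfsg.Geo.specialLinear (Fin 4) F)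
  (hN : Nstd hι h2 ≤ M)
include hle hN

lemma det_eq_one {g : GL (Fin 4) F} (hg : g ∈ M) : (g : M₄).det = 1 := by
  have h := hle hg
  rw [Cfsg.Geo.specialLinear, MonoidHom.mem_ker] at h
  simpa using congrArg Units.val h

lemma sI_mem : lowHom (sI hι) ∈ M := hN (qI_mono hι h2 rfl)

lemma sW_mem : lowHom (sW : SL₂) ∈ M := hN (qW_mono hι h2 rfl)

lemma sC_norm {h : SL₂} (hh : lowHom h ∈ M) : lowHom (sC hι h2 * h * (sC hι h2)⁻¹) ∈ M := by
  obtain ⟨c, hc⟩ := exists_GL hι h2 (m := blk (qC ι) (qC ι)) (by rw [det_blk, det_qC hι h2, one_mul])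
  have hcM : c ∈ M := hN (qCC_mono hι h2 hc)
  have e : lowHom (sC hι h2 * h * (sC hι h2)⁻¹) = c * lowHom h * c⁻¹ := by
    rw [eq_mul_inv_iff_mul_eq]
    refine Units.ext ?_
    rw [Units.val_mul, Units.val_mul, coe_lowHom, coe_lowHom, hc, blk_mul, blk_mul, one_mul, mul_one]
    congr 1
    show ((sC hι h2 * h * (sC hι h2)⁻¹ : SL₂) : M₂) * ((sC hι h2 : SL₂) : M₂) = ((sC hι h2 : SL₂) : M₂) * (h : M₂)
    rw [← Matrix.SpecialLinearGroup.coe_mul, ← Matrix.SpecialLinearGroup.coe_mul, inv_mul_cancel_right]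
  rw [e]
  exact M.mul_mem (M.mul_mem hcM hh) (M.inv_mem hcM)

/-- Make the first block scalar. -/
lemma exists_scalar_first {x : GL (Fin 4) F} (hx : x ∈ M) {U V : M₂} (hxv : (x : M₄) = blk U V)
    (hU : Act ι U 1) : ∃ (m : GL (Fin 4) F) (r : F), m ∈ Nstd hι h2 ∧ r ≠ 0 ∧
      ((x * m : GL (Fin 4) F) : M₄) = blk (r • 1) V := by
  obtain ⟨hUu, -, -⟩ := inv_blk hι h2 hxv (det_eq_one hι h2 hle hN hx)
  obtain ⟨t, i, ei⟩ := eq_of_act_one hι h2 hUu hU
  obtain ⟨m, ε, hm, hε, hmv⟩ := exists_first hι h2 i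
  obtain ⟨c, hc, hcv⟩ := qR_sq hι h2 i
  have ht : t ≠ 0 := fun h => by simp [ei, h] at hUu
  refine ⟨m, t * ε * c, hm, mul_ne_zero (mul_ne_zero ht fun h => by simp [h] at hε)
    (fun h => by simp [h] at hc), ?_⟩
  rw [Units.val_mul, hxv, hmv, blk_mul, mul_one, ei, Matrix.smul_mul, Matrix.mul_smul, hcv, smul_smul,
    smul_smul, mul_assoc]

variable (hQ : ∀ B : Matrix.SpecialLinearGroup (Fin 2) F,
  lowHom B ∈ M → IsQ ι (B : Matrix (Fin 2) (Fin 2) F))
include hQ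

/-- Both blocks of a block element permute the lines. -/
lemma act_blocks {g : GL (Fin 4) F} (hg : g ∈ M) {A B : M₂} (hgv : (g : M₄) = blk A B) :
    (∃ σ, Act ι A σ) ∧ ∃ σ, Act ι B σ := by
  have right : ∀ {g : GL (Fin 4) F}, g ∈ M → ∀ {A B : M₂}, (g : M₄) = blk A B → ∃ σ, Act ι B σ := by
    intro g hg A B hgv
    obtain ⟨hA, hB, hinv⟩ := inv_blk hι h2 hgv (det_eq_one hι h2 hle hN hg)
    refine act_of_conj hι h2 (B' := B⁻¹) (Matrix.mul_nonsing_inv B hB) (Matrix.nonsing_inv_mul B hB)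
      fun k => ?_
    obtain ⟨P, hP, hPv⟩ : ∃ P : SL₂, lowHom P ∈ M ∧ (P : M₂) = qP ι k := by
      fin_cases k
      · exact ⟨sI hι, sI_mem hι h2 hle hN, rfl⟩
      · exact ⟨sW, sW_mem hι h2 hle hN, rfl⟩
      · refine ⟨sI hι * sW, by rw [map_mul]; exact M.mul_mem (sI_mem hι h2 hle hN) (sW_mem hι h2 hle hN),
          ?_⟩
        rw [Matrix.SpecialLinearGroup.coe_mul]
        ext a b; fin_cases a <;> fin_cases b <;> simp [sI, sW, qP, qI, qW, qK]
    have hd : (B * qP ι k * B⁻¹).det = 1 := by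
      rw [← hPv, Matrix.det_mul, Matrix.det_mul, P.2, mul_one, ← Matrix.det_mul,
        Matrix.mul_nonsing_inv B hB, Matrix.det_one]
    refine hQ ⟨_, hd⟩ ?_
    have e : lowHom (⟨_, hd⟩ : SL₂) = g * lowHom P * g⁻¹ := Units.ext (by
      show blk 1 (B * qP ι k * B⁻¹) = _
      rw [Units.val_mul, Units.val_mul, hgv, hinv, coe_lowHom, blk_mul, blk_mul, mul_one,
        Matrix.mul_nonsing_inv A hA, hPv])
    rw [e]
    exact M.mul_mem (M.mul_mem hg hP) (M.inv_mem hg)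
  refine ⟨?_, right hg hgv⟩
  have hs : pxu hι 0 2 * g * (pxu hι 0 2)⁻¹ ∈ M :=
    M.mul_mem (M.mul_mem (hN (mono_pxu hι h2 0 2)) hg) (M.inv_mem (hN (mono_pxu hι h2 0 2)))
  have hsv : ((pxu hι 0 2 * g * (pxu hι 0 2)⁻¹ : GL (Fin 4) F) : M₄) =
      blk (qZ * B * qZ) (qZ * A * qZ) := by
    rw [Units.val_mul, Units.val_mul, hgv, coe_pxu, px02_blk hι, mul_assoc, ← coe_pxu hι 0 2,
      Units.mul_inv, mul_one]
  obtain ⟨σ, hσ⟩ := right hs hsv
  refine ⟨σ, ?_⟩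
  have := ((act_qZ hι h2).mul hσ).mul (act_qZ hι h2)
  rw [one_mul, mul_one] at this
  convert this using 1
  simp only [← mul_assoc, qZ_sq hι h2, one_mul]
  rw [mul_assoc, qZ_sq hι h2, mul_one]

/-- A block element acts equally on both sets of lines. -/
lemma act_eq {g : GL (Fin 4) F} (hg : g ∈ M) {A B : M₂} (hgv : (g : M₄) = blk A B)
    {σ τ : Equiv.Perm (Fin 3)} (hA : Act ι A σ) (hB : Act ι B τ) : σ = τ := by
  obtain ⟨d, A₁, B₁, hd, hdv, hA₁, hB₁⟩ := exists_diag_perm hι h2 σ⁻¹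
  have hgd : g * d ∈ M := M.mul_mem hg (hN hd)
  have hgdv : ((g * d : GL (Fin 4) F) : M₄) = blk (A * A₁) (B * B₁) := by
    rw [Units.val_mul, hgv, hdv, blk_mul]
  have aB : Act ι (B * B₁) (τ * σ⁻¹) := hB.mul hB₁
  obtain ⟨m, r, hm, hr, hxv⟩ := exists_scalar_first hι h2 hle hN hgd hgdv (by simpa using hA.mul hA₁)
  have hxM : g * d * m ∈ M := M.mul_mem hgd (hN hm)
  generalize g * d * m = x at hxv hxM
  generalize B * B₁ = V at hxv aB
  suffices τ * σ⁻¹ = 1 from (mul_inv_eq_one.1 this).symm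
  obtain ⟨hrU, hV, hxinv⟩ := inv_blk hι h2 hxv (det_eq_one hι h2 hle hN hxM)
  have key : ∀ (Q₁ Q₂ : M₂) (ρ : Equiv.Perm (Fin 3)) (n : GL (Fin 4) F), n ∈ Nstd hι h2 →
      (n : M₄) = blk Q₁ Q₂ → Act ι Q₂ ρ → τ * σ⁻¹ * ρ * (τ * σ⁻¹)⁻¹ * ρ⁻¹ = 1 := by
    intro Q₁ Q₂ ρ n hn hnv hQ₂
    obtain ⟨hnA, hnB, hninv⟩ := inv_blk hι h2 hnv (det_eq_one hι h2 hle hN (hN hn))
    have hy : x * n * x⁻¹ * n⁻¹ ∈ M :=
      M.mul_mem (M.mul_mem (M.mul_mem hxM (hN hn)) (M.inv_mem hxM)) (M.inv_mem (hN hn))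
    have hyv : ((x * n * x⁻¹ * n⁻¹ : GL (Fin 4) F) : M₄) = blk 1 (V * Q₂ * V⁻¹ * Q₂⁻¹) := by
      rw [Units.val_mul, Units.val_mul, Units.val_mul, hxv, hnv, hxinv, hninv, blk_mul, blk_mul, blk_mul]
      congr 1
      rw [show (r • (1 : M₂))⁻¹ = r⁻¹ • 1 from Matrix.inv_eq_right_inv (by
          rw [Matrix.smul_mul, one_mul, smul_smul, mul_inv_cancel₀ hr, one_smul]),
        Matrix.smul_mul, one_mul, Matrix.mul_smul, mul_one, smul_smul, inv_mul_cancel₀ hr, one_smul,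
        Matrix.mul_nonsing_inv _ hnA]
    have hd1 : (V * Q₂ * V⁻¹ * Q₂⁻¹).det = 1 := by
      have := det_eq_one hι h2 hle hN hy
      rwa [hyv, det_blk, Matrix.det_one, one_mul] at this
    have hq : IsQ ι (V * Q₂ * V⁻¹ * Q₂⁻¹) := by
      refine hQ ⟨_, hd1⟩ ?_
      rwa [show lowHom (⟨_, hd1⟩ : SL₂) = x * n * x⁻¹ * n⁻¹ from Units.ext hyv.symm]
    have h1 : Act ι (V * Q₂ * V⁻¹ * Q₂⁻¹) 1 := by
      obtain ⟨k, e | e⟩ := hq <;> rw [e]
      · exact act_qR hι h2 k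
      · rw [← neg_one_smul F (qR ι k)]
        exact (act_qR hι h2 k).smul _
    refine Act.unique hι h2 ?_ ?_ h1
    · rw [hd1]; exact isUnit_one
    · exact ((aB.mul hQ₂).mul (aB.inv (Matrix.mul_nonsing_inv V hV) (Matrix.nonsing_inv_mul V hV))).mul
        (hQ₂.inv (Matrix.mul_nonsing_inv _ hnB) (Matrix.nonsing_inv_mul _ hnB))
  obtain ⟨c, hc⟩ := exists_GL hι h2 (m := blk (qC ι) (qC ι)) (by rw [det_blk, det_qC hι h2, one_mul])
  obtain ⟨s, hs⟩ := exists_GL hι h2 (m := blk (qS ι) (ι • qS ι)) (by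
    rw [det_blk]
    simp [qS, Matrix.det_fin_two]
    linear_combination (ι * ι - 1) * hι)
  exact perm_central hι h2 _ (key _ _ _ c (qCC_mono hι h2 hc) hc (act_qC hι h2))
    (key _ _ _ s (qSS_mono hι h2 hs) hs ((act_qS hι h2).smul ι))

/-- A block element is monomial. -/
lemma blk_mono {g : GL (Fin 4) F} (hg : g ∈ M) {A B : M₂} (hgv : (g : M₄) = blk A B) :
    g ∈ Nstd hι h2 := by
  obtain ⟨⟨σ, hA⟩, τ, hB⟩ := act_blocks hι h2 hle hN hQ hg hgv
  obtain rfl := act_eq hι h2 hle hN hQ hg hgv hA hB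
  obtain ⟨d, A₁, B₁, hd, hdv, hA₁, hB₁⟩ := exists_diag_perm hι h2 σ⁻¹
  suffices g * d ∈ Nstd hι h2 by simpa using mul_mem this (inv_mem hd)
  have hgd : g * d ∈ M := M.mul_mem hg (hN hd)
  have hgdv : ((g * d : GL (Fin 4) F) : M₄) = blk (A * A₁) (B * B₁) := by
    rw [Units.val_mul, hgv, hdv, blk_mul]
  obtain ⟨m, r, hm, hr, hxv⟩ := exists_scalar_first hι h2 hle hN hgd hgdv (by simpa using hA.mul hA₁)
  suffices g * d * m ∈ Nstd hι h2 by simpa using mul_mem this (inv_mem hm)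
  have hxM : g * d * m ∈ M := M.mul_mem hgd (hN hm)
  have aV : Act ι (B * B₁) 1 := by simpa using hB.mul hB₁
  generalize g * d * m = x at hxv hxM
  generalize B * B₁ = V at hxv aV
  obtain ⟨-, hV, -⟩ := inv_blk hι h2 hxv (det_eq_one hι h2 hle hN hxM)
  obtain ⟨t, j, ej⟩ := eq_of_act_one hι h2 hV aV
  obtain ⟨n, hn, hnv⟩ : ∃ n : GL (Fin 4) F, n ∈ Nstd hι h2 ∧ (n : M₄) = blk 1 (qR ι j) := by
    fin_cases j
    · exact ⟨1, one_mem _, by simp [qR, blk_one]⟩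
    · exact ⟨_, qI_mono hι h2 (g := lowHom (sI hι)) rfl, rfl⟩
    · exact ⟨_, qW_mono hι h2 (g := lowHom (sW : SL₂)) rfl, rfl⟩
    · refine ⟨lowHom (sI hι) * lowHom (sW : SL₂),
        mul_mem (qI_mono hι h2 rfl) (qW_mono hι h2 rfl), ?_⟩
      rw [← map_mul, coe_lowHom]
      congr 1
      rw [Matrix.SpecialLinearGroup.coe_mul]
      ext a b; fin_cases a <;> fin_cases b <;> simp [sI, sW, qR, qI, qW, qK]
  obtain ⟨c, hc, hcv⟩ := qR_sq hι h2 j
  suffices x * n ∈ Nstd hι h2 by simpa using mul_mem this (inv_mem hn)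
  have hzM : x * n ∈ M := M.mul_mem hxM (hN hn)
  have hzv : ((x * n : GL (Fin 4) F) : M₄) = blk (r • 1) ((t * c) • 1) := by
    rw [Units.val_mul, hxv, hnv, blk_mul, mul_one, ej, Matrix.smul_mul, hcv, smul_smul]
  generalize x * n = z at hzv hzM
  generalize t * c = u at hzv
  have hsu : (r * u) * (r * u) = 1 := by
    have := det_eq_one hι h2 hle hN hzM
    rw [hzv, det_blk, Matrix.det_smul, Matrix.det_smul, Matrix.det_one, Fintype.card_fin] at this
    linear_combination this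
  obtain ⟨ν, hν, hνu⟩ : ∃ ν : F, ν * ν = 1 ∧ u = ν * r⁻¹ := ⟨r * u, hsu, by field_simp⟩
  obtain ⟨w, hw⟩ := exists_GL hι h2 (m := blk (1 : M₂) (ν • 1)) (by
    simp [det_blk, Matrix.det_smul, sq, hν])
  have hwN : w ∈ Nstd hι h2 := by
    rcases mul_self_eq_one_iff.1 hν with rfl | rfl
    · rw [show w = 1 from Units.ext (by rw [hw, one_smul, blk_one]; rfl)]
      exact one_mem _
    · rw [show w = lowHom (sI hι) * lowHom (sI hι) from Units.ext (by
        rw [hw, Units.val_mul, coe_lowHom, blk_mul, one_mul, neg_one_smul, ← qP_sq hι 0]; rfl)]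
      exact mul_mem (qI_mono hι h2 rfl) (qI_mono hι h2 rfl)
  obtain ⟨D, hD⟩ := exists_GL hι h2 (m := blk (r • (1 : M₂)) (r⁻¹ • 1)) (by
    simp [det_blk, Matrix.det_smul]
    field_simp)
  have hzD : z = D * w := Units.ext (by
    rw [hzv, Units.val_mul, hD, hw, blk_mul, mul_one, Matrix.smul_mul, one_mul, smul_smul, hνu, mul_comm])
  rw [hzD]
  refine mul_mem (diag_mono hι h2 ?_ hD) hwN
  have hDM : D ∈ M := by
    have h := M.mul_mem hzM (M.inv_mem (hN hwN))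
    rwa [hzD, mul_inv_cancel_right] at h
  -- move to the second diagonal product
  obtain ⟨L, hl, hLv⟩ := exists_move hι h2 (show (1 : Fin 6) ≠ 4 by decide)
  have hdiag : (blk !![r, 0; 0, r⁻¹] !![r, 0; 0, r⁻¹] : M₄) * (L : M₄) = (L : M₄) * blk (r • 1) (r⁻¹ • 1) := by
    have h03 : blk (r • (1 : M₂)) (r⁻¹ • 1) =
        ((r + r⁻¹) * 2⁻¹) • (1 : M₄) + ((r - r⁻¹) * 2⁻¹ * ι) • px ι 0 3 := by
      rw [px03 hι]
      ext a b
      fin_cases a <;> fin_cases b <;> simp [blk] <;> field_simp <;>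
        first
          | ring1
          | linear_combination (r * r - 1) * hι
          | linear_combination -(r * r - 1) * hι
    have h14 : blk !![r, 0; 0, r⁻¹] !![r, 0; 0, r⁻¹] =
        ((r + r⁻¹) * 2⁻¹) • (1 : M₄) + ((r - r⁻¹) * 2⁻¹ * ι) • px ι 1 4 := by
      rw [px14 hι]
      ext a b
      fin_cases a <;> fin_cases b <;> simp [blk] <;> field_simp <;>
        first
          | ring1
          | linear_combination (r * r - 1) * hι
          | linear_combination -(r * r - 1) * hι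
    rw [h03, h14, Matrix.add_mul, Matrix.mul_add, Matrix.smul_mul, Matrix.smul_mul, Matrix.mul_smul,
      Matrix.mul_smul, one_mul, mul_one, hLv]
  have hprod : D * (L * D * L⁻¹) ∈ M :=
    M.mul_mem hDM (M.mul_mem (M.mul_mem (hN hl) hDM) (M.inv_mem (hN hl)))
  have hprodv : ((D * (L * D * L⁻¹) : GL (Fin 4) F) : M₄) =
      blk !![r * r, 0; 0, 1] !![1, 0; 0, (r * r)⁻¹] := by
    rw [Units.val_mul, Units.val_mul, Units.val_mul, hD, ← hdiag, mul_assoc _ (L : M₄), Units.mul_inv,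
      mul_one, blk_mul]
    congr 1 <;> ext a b <;> fin_cases a <;> fin_cases b <;> simp [hr]
  obtain ⟨⟨ρ, hρ⟩, -⟩ := act_blocks hι h2 hle hN hQ hprod hprodv
  linear_combination act_diag hι h2 hρ

omit hQ
variable {p : ℕ} (hF : Fintype.card F = p) (hp : p.Prime) (hp4 : p % 4 = 1)
include hF hp hp4

/-- Either every element centralising a product of two frame vectors up to a scalar is monomial, or
the controlled element of order three lies in the group. -/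
theorem local_dichotomy :
    (∀ a b : Fin 6, a ≠ b → ∀ g ∈ M, (∃ k : F, k ≠ 0 ∧ (g : M₄) * px ι a b = k • (px ι a b * (g : M₄))) →
      g ∈ Nstd hι h2) ∨ ∃ g ∈ M, (g : M₄) = blk 1 (qC ι) := by
  by_cases hQ : ∀ B : SL₂, lowHom B ∈ M → IsQ ι (B : M₂)
  swap
  · simp only [not_forall] at hQ
    obtain ⟨b, hb, hbQ⟩ := hQ
    exact Or.inr ⟨_, sC_mem (H := M.comap lowHom) hι h2 hF hp hp4 (sI_mem hι h2 hle hN)
      (sW_mem hι h2 hle hN) (fun h hh => sC_norm hι h2 hle hN hh) hb hbQ, rfl⟩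
  refine Or.inl fun a b hab g hg ⟨k, hk, hgk⟩ => ?_
  obtain ⟨L, hLN, hLv⟩ := exists_move hι h2 hab
  set h := L⁻¹ * g * L
  suffices h ∈ Nstd hι h2 by simpa [h, mul_assoc] using mul_mem (mul_mem hLN this) (inv_mem hLN)
  have hh : h ∈ M := M.mul_mem (M.mul_mem (M.inv_mem (hN hLN)) hg) (hN hLN)
  have hhk : (h : M₄) * px ι 0 3 = k • (px ι 0 3 * (h : M₄)) := by
    have hLi : ((L⁻¹ : GL (Fin 4) F) : M₄) * px ι a b = px ι 0 3 * ((L⁻¹ : GL (Fin 4) F) : M₄) := by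
      calc ((L⁻¹ : GL (Fin 4) F) : M₄) * px ι a b
          = ((L⁻¹ : GL (Fin 4) F) : M₄) * (px ι a b * L) * ((L⁻¹ : GL (Fin 4) F) : M₄) := by
            rw [mul_assoc, mul_assoc, Units.mul_inv, mul_one]
        _ = _ := by rw [← hLv, ← mul_assoc, Units.inv_mul, one_mul]
    simp only [h, Units.val_mul, mul_assoc]
    rw [hLv, ← mul_assoc (g : M₄), hgk, Matrix.smul_mul, Matrix.mul_smul, mul_assoc, ← mul_assoc, hLi,
      mul_assoc]
  have hk2 : k * k = 1 := by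
    have h1 : (h : M₄) * (px ι 0 3 * px ι 0 3) = (k * k) • (px ι 0 3 * px ι 0 3 * (h : M₄)) := by
      rw [← mul_assoc, hhk, Matrix.smul_mul, mul_assoc, hhk, Matrix.mul_smul, smul_smul, mul_assoc]
    rw [px_sq hι (show (0 : Fin 6) ≠ 3 by decide), Matrix.mul_neg, mul_one, Matrix.neg_mul, one_mul,
      smul_neg, neg_inj] at h1
    have h2' : (k * k - 1) • (h : M₄) = 0 := by rw [sub_smul, one_smul, ← h1, sub_self]
    exact sub_eq_zero.1 ((smul_eq_zero.1 h2').resolve_right h.ne_zero)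
  rcases mul_self_eq_one_iff.1 hk2 with rfl | rfl
  · rw [one_smul] at hhk
    exact blk_mono hι h2 hle hN hQ hh (exists_blk hι h2 hhk)
  · set j := pxu hι 0 1
    have hjN : j ∈ Nstd hι h2 := mono_pxu hι h2 0 1
    suffices h * j ∈ Nstd hι h2 by simpa using mul_mem this (inv_mem hjN)
    have hj : (j : M₄) * px ι 0 3 = -(px ι 0 3 * (j : M₄)) := by
      rw [coe_pxu, px01 hι, px03 hι]
      ext a b
      fin_cases a <;> fin_cases b <;> simp [Matrix.mul_apply, Fin.sum_univ_four]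
    refine blk_mono hι h2 hle hN hQ (M.mul_mem hh (hN hjN)) (exists_blk hι h2 ?_)
    rw [Units.val_mul, mul_assoc, hj, Matrix.mul_neg, ← mul_assoc, hhk, Matrix.smul_mul, mul_assoc,
      neg_one_smul, neg_neg]

end CfsgLib.Geometric.SLFour
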