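import Cfsg.Agent.Lib.Geometric.SLFour.Quaternion
import Cfsg.Agent.Lib.Geometric.SLFour.SL2

/-!
The controlled embedding of `SL₂`, the criterion for the element of order three, monomial block
elements and lifts of double transpositions.
-/

set_option autoImplicit false
set_option linter.unusedSectionVars false

namespace CfsgLib.Geometric.SLFour

open Matrix

variable {F : Type*} [Field F]

local notation "M₄" => Matrix (Fin 4) (Fin 4) F
local notation "M₂" => Matrix (Fin 2) (Fin 2) F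
local notation "SL₂" => Matrix.SpecialLinearGroup (Fin 2) F

/-- The controlled embedding of `SL₂`. -/
def lowHom : SL₂ →* GL (Fin 4) F :=
  MonoidHom.toHomUnits
    { toFun := fun B => blk 1 (B : M₂)
      map_one' := by rw [Matrix.SpecialLinearGroup.coe_one, blk_one]
      map_mul' := fun B C => by rw [blk_mul, one_mul, Matrix.SpecialLinearGroup.coe_mul] }

@[simp] lemma coe_lowHom (B : SL₂) : ((lowHom B : GL (Fin 4) F) : M₄) = blk 1 (B : M₂) := rfl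

variable {ι : F} (hι : ι * ι = -1) (h2 : (2 : F) ≠ 0)

/-- `qI` in `SL₂`. -/
def sI : SL₂ := ⟨qI ι, by simp [qI, Matrix.det_fin_two, hι]⟩

/-- `qW` in `SL₂`. -/
def sW : SL₂ := ⟨qW, by simp [qW, Matrix.det_fin_two]⟩

/-- `qC` in `SL₂`. -/
def sC : SL₂ := ⟨qC ι, det_qC hι h2⟩

include hι h2

lemma isQ_of_mem_closure {B : SL₂} (h : B ∈ Subgroup.closure ({sI hι, sW} : Set SL₂)) :
    IsQ ι (B : M₂) := by
  refine Subgroup.closure_induction (p := fun (B : SL₂) _ => IsQ ι (B : M₂)) ?_ ?_ ?_ ?_ h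
  · rintro _ (rfl | rfl)
    · exact ⟨1, Or.inl rfl⟩
    · exact ⟨2, Or.inl rfl⟩
  · exact ⟨0, Or.inl Matrix.SpecialLinearGroup.coe_one⟩
  · intro x y _ _ hx hy
    rw [Matrix.SpecialLinearGroup.coe_mul]
    exact isQ_mul hι hx hy
  · intro x _ hx
    rw [Matrix.SpecialLinearGroup.coe_inv]
    exact isQ_adjugate hι hx

lemma mem_of_isQ {H : Subgroup SL₂} (hI : sI hι ∈ H) (hW : sW ∈ H) {B : SL₂} (hB : IsQ ι (B : M₂)) :
    B ∈ H := by
  have hn : ∃ N ∈ H, (N : M₂) = -1 := ⟨_, H.mul_mem hI hI, by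
    rw [Matrix.SpecialLinearGroup.coe_mul]; exact qP_sq hι 0⟩
  have hb : ∀ j, ∃ N ∈ H, (N : M₂) = qR ι j := fun j => by
    fin_cases j
    · exact ⟨1, H.one_mem, Matrix.SpecialLinearGroup.coe_one⟩
    · exact ⟨_, hI, rfl⟩
    · exact ⟨_, hW, rfl⟩
    · refine ⟨_, H.mul_mem hI hW, ?_⟩
      rw [Matrix.SpecialLinearGroup.coe_mul]
      ext a b; fin_cases a <;> fin_cases b <;> simp [sI, sW, qR, qI, qW, qK]
  obtain ⟨N, hN, hNv⟩ := hn
  obtain ⟨j, hj⟩ := hB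
  obtain ⟨R, hR, hRv⟩ := hb j
  rcases hj with hj | hj
  · rwa [show B = R from Subtype.ext (hj.trans hRv.symm)]
  · rw [show B = N * R from Subtype.ext (by
      rw [Matrix.SpecialLinearGroup.coe_mul, hNv, hRv, neg_one_mul]; exact hj)]
    exact H.mul_mem hN hR

variable [Fintype F] {p : ℕ} (hF : Fintype.card F = p) (hp : p.Prime) (hp4 : p % 4 = 1)
include hF hp hp4

/-- A subgroup of `SL₂` strictly above the quaternion group normalised by `qC` contains it. -/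
lemma sC_mem {H : Subgroup SL₂} (hI : sI hι ∈ H) (hW : sW ∈ H)
    (hC : ∀ h ∈ H, sC hι h2 * h * (sC hι h2)⁻¹ ∈ H) {b : SL₂} (hb : b ∈ H)
    (hbQ : ¬ IsQ ι (b : M₂)) : sC hι h2 ∈ H := by
  by_cases hall : ∀ h ∈ H, ∃ σ, Act ι (h : M₂) σ
  swap
  · simp only [not_forall] at hall
    obtain ⟨h, hh, hno⟩ := hall
    refine order_three_mem hF hp hp4 hι (I := sI hι) rfl hI (W := sW) rfl hW (C := sC hι h2) rfl hC hh
      fun hn => hno ?_
    refine act_of_conj hι h2 (B := (h : M₂)) (B' := ((h⁻¹ : SL₂) : M₂))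
      (by rw [← Matrix.SpecialLinearGroup.coe_mul, mul_inv_cancel, Matrix.SpecialLinearGroup.coe_one])
      (by rw [← Matrix.SpecialLinearGroup.coe_mul, inv_mul_cancel, Matrix.SpecialLinearGroup.coe_one]) ?_
    intro k
    obtain ⟨P, hP, hPv⟩ : ∃ P ∈ Subgroup.closure ({sI hι, sW} : Set SL₂), (P : M₂) = qP ι k := by
      fin_cases k
      · exact ⟨sI hι, Subgroup.subset_closure (by simp), rfl⟩
      · exact ⟨sW, Subgroup.subset_closure (by simp), rfl⟩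
      · refine ⟨sI hι * sW, Subgroup.mul_mem _ (Subgroup.subset_closure (by simp))
          (Subgroup.subset_closure (by simp)), ?_⟩
        rw [Matrix.SpecialLinearGroup.coe_mul]
        ext a b; fin_cases a <;> fin_cases b <;> simp [sI, sW, qP, qI, qW, qK]
    have := isQ_of_mem_closure hι h2 ((Subgroup.mem_normalizer_iff.1 hn P).1 hP)
    rwa [Matrix.SpecialLinearGroup.coe_mul, Matrix.SpecialLinearGroup.coe_mul, hPv] at this
  have hdet : ∀ x : SL₂, IsUnit (x : M₂).det := fun x => by rw [x.2]; exact isUnit_one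
  have hpm : ∀ x : SL₂, ∀ (t : F) (j : Fin 4), (x : M₂) = t • qR ι j → IsQ ι (x : M₂) := fun x t j e => by
    have ht : t * t = 1 := by
      have := x.2
      rwa [e, Matrix.det_smul, det_qR hι, Fintype.card_fin, mul_one, sq] at this
    rcases mul_self_eq_one_iff.1 ht with rfl | rfl
    · exact ⟨j, Or.inl (by rw [e, one_smul])⟩
    · exact ⟨j, Or.inr (by rw [e, neg_one_smul])⟩
  have triv : ∀ x : SL₂, Act ι (x : M₂) 1 → x ∈ H := fun x hx => by
    obtain ⟨t, j, e⟩ := eq_of_act_one hι h2 (hdet x) hx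
    exact mem_of_isQ hι h2 hI hW (hpm x t j e)
  obtain ⟨σ, hσ⟩ := hall b hb
  have hσ1 : σ ≠ 1 := fun h1 => hbQ (by
    obtain ⟨t, j, e⟩ := eq_of_act_one hι h2 (hdet b) (h1 ▸ hσ)
    exact hpm b t j e)
  have hCA : Act ι ((sC hι h2 : SL₂) : M₂) cσ := act_qC hι h2
  have hinv : ∀ (x : SL₂) (τ : Equiv.Perm (Fin 3)), Act ι (x : M₂) τ → Act ι ((x⁻¹ : SL₂) : M₂) τ⁻¹ :=
    fun x τ hx => hx.inv
      (by rw [← Matrix.SpecialLinearGroup.coe_mul, mul_inv_cancel, Matrix.SpecialLinearGroup.coe_one])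
      (by rw [← Matrix.SpecialLinearGroup.coe_mul, inv_mul_cancel, Matrix.SpecialLinearGroup.coe_one])
  have fin : ∀ y ∈ H, Act ι (y : M₂) cσ ∨ Act ι (y : M₂) cσ⁻¹ → sC hι h2 ∈ H := by
    intro y hy hy'
    have main : ∀ z ∈ H, Act ι (z : M₂) cσ → sC hι h2 ∈ H := fun z hz hz' => by
      have h1 : Act ι ((sC hι h2 * z⁻¹ : SL₂) : M₂) 1 := by
        rw [Matrix.SpecialLinearGroup.coe_mul, ← mul_inv_cancel cσ]
        exact hCA.mul (hinv z _ hz')
      simpa using H.mul_mem (triv _ h1) hz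
    rcases hy' with h | h
    · exact main y hy h
    · exact main _ (H.inv_mem hy) (by simpa using hinv y _ h)
  rcases perm_comm hι h2 σ hσ1 with h | h | h | h
  · exact fin b hb (Or.inl (h ▸ hσ))
  · exact fin b hb (Or.inr (h ▸ hσ))
  all_goals
    refine fin (sC hι h2 * b * (sC hι h2)⁻¹ * b⁻¹) (H.mul_mem (hC b hb) (H.inv_mem hb)) ?_
    have hy : Act ι ((sC hι h2 * b * (sC hι h2)⁻¹ * b⁻¹ : SL₂) : M₂) (cσ * σ * cσ⁻¹ * σ⁻¹) := by
      simp only [Matrix.SpecialLinearGroup.coe_mul]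
      exact ((hCA.mul hσ).mul (hinv _ _ hCA)).mul (hinv _ _ hσ)
    rw [h] at hy
    first
      | exact Or.inl hy
      | exact Or.inr hy

omit hF hp hp4

lemma inv_blk {g : GL (Fin 4) F} {A B : M₂} (hg : (g : M₄) = blk A B) (hd : (g : M₄).det = 1) :
    IsUnit A.det ∧ IsUnit B.det ∧ ((g⁻¹ : GL (Fin 4) F) : M₄) = blk A⁻¹ B⁻¹ := by
  rw [hg, det_blk] at hd
  have hA : IsUnit A.det := IsUnit.of_mul_eq_one _ hd
  have hB : IsUnit B.det := IsUnit.of_mul_eq_one_right _ hd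
  refine ⟨hA, hB, Units.inv_eq_of_mul_eq_one_right ?_⟩
  rw [hg, blk_mul, Matrix.mul_nonsing_inv A hA, Matrix.mul_nonsing_inv B hB, blk_one]

lemma exists_GL {m : M₄} (h : m.det = 1) : ∃ g : GL (Fin 4) F, (g : M₄) = m :=
  ⟨Matrix.GeneralLinearGroup.mk'' m (by rw [h]; exact isUnit_one), rfl⟩

/-- Monomial block elements realising every permutation of the lines on both blocks. -/
lemma exists_diag_perm (σ : Equiv.Perm (Fin 3)) :
    ∃ (g : GL (Fin 4) F) (A B : M₂), g ∈ Nstd hι h2 ∧ (g : M₄) = blk A B ∧ Act ι A σ ∧ Act ι B σ := by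
  obtain ⟨c, hc⟩ := exists_GL hι h2 (m := blk (qC ι) (qC ι)) (by rw [det_blk, det_qC hι h2, one_mul])
  obtain ⟨s, hs⟩ := exists_GL hι h2 (m := blk (qS ι) (ι • qS ι)) (by
    rw [det_blk]
    simp [qS, Matrix.det_fin_two]
    linear_combination (ι * ι - 1) * hι)
  have hcN : c ∈ Nstd hι h2 := qCC_mono hι h2 hc
  have hsN : s ∈ Nstd hι h2 := qSS_mono hι h2 hs
  have aC := act_qC hι h2
  have aS := act_qS hι h2
  have hmul : ∀ {x y : GL (Fin 4) F} {A B A' B' : M₂}, (x : M₄) = blk A B → (y : M₄) = blk A' B' →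
      ((x * y : GL (Fin 4) F) : M₄) = blk (A * A') (B * B') := fun hx hy => by
    rw [Units.val_mul, hx, hy, blk_mul]
  rcases perm_gen hι h2 σ with rfl | rfl | rfl | rfl | rfl | rfl
  · exact ⟨1, 1, 1, one_mem _, by rw [blk_one]; rfl, act_one, act_one⟩
  · exact ⟨c, _, _, hcN, hc, aC, aC⟩
  · exact ⟨c * c, _, _, mul_mem hcN hcN, hmul hc hc, aC.mul aC, aC.mul aC⟩
  · exact ⟨s, _, _, hsN, hs, aS, aS.smul ι⟩
  · exact ⟨c * s, _, _, mul_mem hcN hsN, hmul hc hs, aC.mul aS, aC.mul (aS.smul ι)⟩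
  · exact ⟨c * c * s, _, _, mul_mem (mul_mem hcN hcN) hsN, hmul (hmul hc hc) hs,
      (aC.mul aC).mul aS, (aC.mul aC).mul (aS.smul ι)⟩

lemma qZ_sq : (qZ : M₂) * qZ = 1 := by
  ext a b; fin_cases a <;> fin_cases b <;> simp [qZ]

omit [Fintype F]

/-- The lift of a double transposition. -/
lemma exists_lift {q₁ q₂ q₃ q₄ : Fin 6} (hn : [q₁, q₂, q₃, q₄].Nodup) :
    ∃ L : GL (Fin 4) F, L ∈ Nstd hι h2 ∧
      ∀ z, lam ι L (e z) = e ((Equiv.swap q₁ q₂ * Equiv.swap q₃ q₄) z) := by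
  simp only [List.nodup_cons, List.mem_cons, not_or, List.not_mem_nil, not_false_iff, and_true,
    List.nodup_nil] at hn
  obtain ⟨⟨hpq, hpr, hps⟩, ⟨hqr, hqs⟩, hrs⟩ := hn
  have h4 : (2⁻¹ : F) * 2⁻¹ * (2 * 2) = 1 := by field_simp
  have hh : (2⁻¹ : F) * 2⁻¹ *
      (((e q₁ - e q₂) ⬝ᵥ (e q₁ - e q₂)) * ((e q₃ - e q₄) ⬝ᵥ (e q₃ - e q₄))) = 1 := by
    simp [sub_dotProduct, dotProduct_sub, e_dot, hpq, hrs, Ne.symm hpq, Ne.symm hrs]
    linear_combination h4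
  have hlam : ∀ z, lam ι (pr hι 2⁻¹ (e q₁ - e q₂) (e q₃ - e q₄) hh) (e z) =
      e ((Equiv.swap q₁ q₂ * Equiv.swap q₃ q₄) z) := by
    intro z
    rw [lam_pr hι h2]
    have hcase : z = q₁ ∨ z = q₂ ∨ z = q₃ ∨ z = q₄ ∨
      ((z ≠ q₁ ∧ q₁ ≠ z) ∧ (z ≠ q₂ ∧ q₂ ≠ z) ∧ (z ≠ q₃ ∧ q₃ ≠ z) ∧ (z ≠ q₄ ∧ q₄ ≠ z)) := by
      simp only [ne_eq, eq_comm (b := z), and_self]; tauto
    rw [Equiv.Perm.mul_apply]
    ext b
    rcases hcase with rfl | rfl | rfl | rfl | ⟨⟨z1, z1'⟩, ⟨z2, z2'⟩, ⟨z3, z3'⟩, z4, z4'⟩ <;>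
      simp [sub_dotProduct, dotProduct_sub, e_dot, Equiv.swap_apply_def, hpq, hpr, hps, hqr, hqs,
        hrs, Ne.symm hpq, Ne.symm hpr, Ne.symm hps, Ne.symm hqr, Ne.symm hqs, Ne.symm hrs, *] <;>
      field_simp <;> ring
  exact ⟨_, ⟨det_pr hι _ _ _ _, fun z => ⟨_, 1, one_mul 1, by rw [one_smul]; exact hlam z⟩⟩, hlam⟩

/-- A monomial element carrying the first diagonal product to any product. -/
lemma exists_move {a b : Fin 6} (hab : a ≠ b) :
    ∃ L : GL (Fin 4) F, L ∈ Nstd hι h2 ∧ (L : M₄) * px ι 0 3 = px ι a b * L := by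
  obtain ⟨c, d, hc, hd⟩ : ∃ c d : Fin 6, [(0 : Fin 6), c, 3, d].Nodup ∧ [c, a, d, b].Nodup := by
    revert a b
    decide +kernel
  obtain ⟨L₁, hL₁, h₁⟩ := exists_lift hι h2 hc
  obtain ⟨L₂, hL₂, h₂⟩ := exists_lift hι h2 hd
  have hLN : L₂ * L₁ ∈ Nstd hι h2 := mul_mem hL₂ hL₁
  simp only [List.nodup_cons, List.mem_cons, not_or, List.not_mem_nil, not_false_iff, and_true,
    List.nodup_nil] at hc hd
  refine ⟨L₂ * L₁, hLN, ?_⟩
  have h := conj_XY hι h2 hLN.1 (e 0) (v := e 3) (by simp)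
  rw [lam_mul hι h2, lam_mul hι h2, h₁, h₁, h₂, h₂] at h
  have e0 : (Equiv.swap c a * Equiv.swap d b) ((Equiv.swap 0 c * Equiv.swap 3 d) 0) = a := by
    simp [Equiv.swap_apply_def, hc, hd, Ne.symm hc.1.2.1, Ne.symm hd.1.2.1]
    try aesop
  have e3 : (Equiv.swap c a * Equiv.swap d b) ((Equiv.swap 0 c * Equiv.swap 3 d) 3) = b := by
    simp [Equiv.swap_apply_def, hc, hd]
    try aesop
  rw [e0, e3, ← px, ← px] at h
  rw [← h, mul_assoc _ _ ((L₂ * L₁ : GL (Fin 4) F) : M₄), Units.inv_mul, mul_one]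

end CfsgLib.Geometric.SLFour
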