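import Cfsg.Agent.Lib.Geometric.SLFour.Klein
import Cfsg.Prelude.Def_GeometricClasses
import Mathlib.GroupTheory.Perm.Sign
import Mathlib.Algebra.BigOperators.Fin

/-!
The standard Pauli group of dimension four, the products of two frame vectors, and the group of
determinant one elements permuting the six frame vectors up to sign.
-/

set_option autoImplicit false

namespace CfsgLib.Geometric.SLFour

open Matrix

variable {F : Type*} [Field F] {ι : F}

local notation "M₄" => Matrix (Fin 4) (Fin 4) F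

variable (ι) in
/-- The product of two frame vectors. -/
def px (a b : Fin 6) : M₄ := X ι (e a) * Y ι (e b)

lemma eq_sum_e (x : Fin 6 → F) : x = ∑ a, x a • e a := by
  simp [e, ← Pi.single_smul', Finset.univ_sum_single]

lemma smul_e_inj {s t : F} {a b : Fin 6} (hs : s ≠ 0) (h : s • (e a : Fin 6 → F) = t • e b) :
    a = b ∧ s = t := by
  have ha := congrFun h a
  rw [Pi.smul_apply, Pi.smul_apply, e, e, Pi.single_eq_same, smul_eq_mul, mul_one] at ha
  rcases eq_or_ne a b with rfl | hab
  · exact ⟨rfl, by simpa using ha⟩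
  · rw [Pi.single_eq_of_ne hab, smul_zero] at ha
    exact absurd ha hs

lemma mem_six {a b c d f g : Fin 6} (h : [a, b, c, d, f, g].Nodup) (z : Fin 6) :
    z = a ∨ z = b ∨ z = c ∨ z = d ∨ z = f ∨ z = g := by
  have : ([a, b, c, d, f, g].toFinset) = Finset.univ := Finset.eq_univ_of_card _ (by
    rw [List.toFinset_card_of_nodup h]; rfl)
  have hz := Finset.mem_univ z
  rw [← this] at hz
  simpa using hz

variable (hι : ι * ι = -1)
include hι

lemma px_mul (a b c : Fin 6) : px ι a b * px ι b c = px ι a c := by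
  rw [px, px, px, mul_assoc, ← mul_assoc (Y ι (e b)), Y_mul_X hι, e_dot_self, one_smul, one_mul]

lemma px_self (a : Fin 6) : px ι a a = 1 := by rw [px, X_mul_Y hι, e_dot_self, one_smul]

lemma px_swap {a b : Fin 6} (h : a ≠ b) : px ι b a = -px ι a b := by
  refine eq_neg_of_add_eq_zero_left ?_
  rw [px, px, X_mul_Y_add hι, e_dot, if_neg h.symm, mul_zero, zero_smul]

/-- The unit of a product of two frame vectors. -/
def pxu (a b : Fin 6) : GL (Fin 4) F := pr hι 1 (e a) (e b) (by simp)

lemma coe_pxu (a b : Fin 6) : ((pxu hι a b : GL (Fin 4) F) : M₄) = px ι a b := by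
  rw [pxu, coe_pr, one_smul, px]

lemma det_pxu (a b : Fin 6) : ((pxu hι a b : GL (Fin 4) F) : M₄).det = 1 := det_pr hι _ _ _ _

lemma pxu_self (a : Fin 6) : pxu hι a a = 1 := Units.ext (by rw [coe_pxu, px_self hι]; rfl)

lemma pxu_mul (a b c : Fin 6) : pxu hι a b * pxu hι b c = pxu hι a c :=
  Units.ext (by simp [coe_pxu, px_mul hι])

lemma pxu_inv (a b : Fin 6) : (pxu hι a b)⁻¹ = pxu hι b a :=
  inv_eq_of_mul_eq_one_right (by rw [pxu_mul, pxu_self])

lemma px_ne_zero (a b : Fin 6) : px ι a b ≠ (0 : M₄) := coe_pxu hι a b ▸ (pxu hι a b).ne_zero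

lemma px_sq {a b : Fin 6} (h : a ≠ b) : px ι a b * px ι a b = (-1 : M₄) := by
  nth_rw 2 [← neg_neg (px ι a b)]
  rw [← px_swap hι h, Matrix.mul_neg, px_mul hι, px_self hι]

lemma px03 : px ι 0 3 = !![-ι, 0, 0, 0; 0, -ι, 0, 0; 0, 0, ι, 0; 0, 0, 0, ι] := by
  ext i j
  fin_cases i <;> fin_cases j <;> simp [px, X, Y, skew, dual, coord, e, Pi.single_apply]

lemma px14 : px ι 1 4 = !![-ι, 0, 0, 0; 0, ι, 0, 0; 0, 0, -ι, 0; 0, 0, 0, ι] := by
  ext i j
  fin_cases i <;> fin_cases j <;> simp [px, X, Y, skew, dual, coord, e, Pi.single_apply]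

lemma px25 : px ι 2 5 = !![-ι, 0, 0, 0; 0, ι, 0, 0; 0, 0, ι, 0; 0, 0, 0, -ι] := by
  ext i j
  fin_cases i <;> fin_cases j <;> simp [px, X, Y, skew, dual, coord, e, Pi.single_apply]

lemma px01 : px ι 0 1 = !![0, 0, 0, 1; 0, 0, 1, 0; 0, -1, 0, 0; -1, 0, 0, 0] := by
  ext i j
  fin_cases i <;> fin_cases j <;> simp [px, X, Y, skew, dual, coord, e, Pi.single_apply]

lemma px02 : px ι 0 2 = !![0, 0, -1, 0; 0, 0, 0, 1; 1, 0, 0, 0; 0, -1, 0, 0] := by
  ext i j
  fin_cases i <;> fin_cases j <;> simp [px, X, Y, skew, dual, coord, e, Pi.single_apply]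

variable (h2 : (2 : F) ≠ 0)
include h2

/-- A matrix commuting with all products of frame vectors is scalar. -/
lemma scalar_of_comm {g : M₄} (h : ∀ a b, g * px ι a b = px ι a b * g) : g = g 0 0 • 1 := by
  have hi : ι ≠ 0 := fun h0 => by simp [h0] at hι
  have z : ∀ {x : F}, x * ι = -(x * ι) → x = 0 := fun {x} hx =>
    (mul_eq_zero.1 ((mul_eq_zero.1 (show (2 : F) * (x * ι) = 0 by linear_combination hx)).resolve_left
      h2)).resolve_right hi
  have h03 := fun i j => congrFun (congrFun (h 0 3) i) j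
  have h14 := fun i j => congrFun (congrFun (h 1 4) i) j
  have h01 := fun i j => congrFun (congrFun (h 0 1) i) j
  have h02 := fun i j => congrFun (congrFun (h 0 2) i) j
  simp only [px03 hι, px14 hι, px01 hι, px02 hι, Matrix.mul_apply, Fin.sum_univ_four] at h03 h14 h01 h02
  have a := h01 0 3
  have b := h02 0 2
  have c := h02 1 3
  simp at a b c
  ext i j
  fin_cases i <;> fin_cases j <;> simp
  all_goals first
    | linear_combination a
    | linear_combination -a
    | linear_combination b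
    | linear_combination -b
    | linear_combination a + c
    | linear_combination a - c
    | linear_combination -a + c
    | linear_combination -a - c
    | skip
  all_goals refine z ?_
  all_goals first
    | (have := h03 0 2; simp at this; linear_combination this)
    | (have := h03 0 2; simp at this; linear_combination -this)
    | (have := h03 0 3; simp at this; linear_combination this)
    | (have := h03 0 3; simp at this; linear_combination -this)
    | (have := h03 1 2; simp at this; linear_combination this)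
    | (have := h03 1 2; simp at this; linear_combination -this)
    | (have := h03 1 3; simp at this; linear_combination this)
    | (have := h03 1 3; simp at this; linear_combination -this)
    | (have := h03 2 0; simp at this; linear_combination this)
    | (have := h03 2 0; simp at this; linear_combination -this)
    | (have := h03 2 1; simp at this; linear_combination this)
    | (have := h03 2 1; simp at this; linear_combination -this)
    | (have := h03 3 0; simp at this; linear_combination this)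
    | (have := h03 3 0; simp at this; linear_combination -this)
    | (have := h03 3 1; simp at this; linear_combination this)
    | (have := h03 3 1; simp at this; linear_combination -this)
    | (have := h14 0 1; simp at this; linear_combination this)
    | (have := h14 0 1; simp at this; linear_combination -this)
    | (have := h14 1 0; simp at this; linear_combination this)
    | (have := h14 1 0; simp at this; linear_combination -this)
    | (have := h14 2 3; simp at this; linear_combination this)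
    | (have := h14 2 3; simp at this; linear_combination -this)
    | (have := h14 3 2; simp at this; linear_combination this)
    | (have := h14 3 2; simp at this; linear_combination -this)

lemma lam_of_eq {g k : GL (Fin 4) F} {c : F} (h : (g : M₄) = c • (k : M₄)) (x : Fin 6 → F) :
    lam ι g x = (c * c) • lam ι k x :=
  lam_eq hι h2 (by
    rw [h, X_smul, X_lam hι h2, Matrix.transpose_smul, Matrix.smul_mul, Matrix.smul_mul,
      Matrix.mul_smul, smul_smul])

lemma lam_neg (g : GL (Fin 4) F) (x : Fin 6 → F) : lam ι g (-x) = -lam ι g x := by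
  rw [← neg_one_smul F x, lam_smul hι h2, neg_one_smul]

lemma lam_sub (g : GL (Fin 4) F) (x y : Fin 6 → F) :
    lam ι g (x - y) = lam ι g x - lam ι g y := by
  rw [sub_eq_add_neg, lam_add hι h2, lam_neg hι h2, ← sub_eq_add_neg]

lemma lam_sum (g : GL (Fin 4) F) {α : Type*} (s : Finset α) (f : α → Fin 6 → F) :
    lam ι g (∑ a ∈ s, f a) = ∑ a ∈ s, lam ι g (f a) := by
  classical
  induction s using Finset.induction with
  | empty => simpa using lam_smul hι h2 g 0 (0 : Fin 6 → F)
  | insert a s ha ih => rw [Finset.sum_insert ha, Finset.sum_insert ha, lam_add hι h2, ih]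

/-- Two linear actions agreeing on the frame agree. -/
lemma lam_ext {g : GL (Fin 4) F} {f : (Fin 6 → F) → Fin 6 → F}
    (hf : ∀ x, f x = ∑ a, x a • f (e a)) (h : ∀ a, lam ι g (e a) = f (e a)) (x : Fin 6 → F) :
    lam ι g x = f x := by
  rw [hf]
  conv_lhs => rw [eq_sum_e x]
  simp [lam_sum hι h2, lam_smul hι h2, h]

lemma lam_pxu {a b : Fin 6} (h : a ≠ b) (z : Fin 6) :
    lam ι (pxu hι a b) (e z) = (if z = a ∨ z = b then (-1 : F) else 1) • e z := by
  rw [pxu, lam_pr hι h2]
  simp only [e_dot, if_neg h, if_true]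
  by_cases hz : z = a
  · subst hz
    simp [h, h.symm, two_smul, sub_eq_add_neg]
  · by_cases hz' : z = b
    · subst hz'
      simp [h, h.symm]
      module
    · simp [hz, hz', Ne.symm hz, Ne.symm hz']

/-- An element acting as a scalar on the frame is scalar. -/
lemma scalar_of_lam {g : GL (Fin 4) F} (hg : (g : M₄).det = 1) {ε : F}
    (h : ∀ a, lam ι g (e a) = ε • e a) : ∃ c : F, (g : M₄) = c • 1 := by
  have hε : ε * ε = 1 := by
    have := dot_lam hι h2 hg (e (0 : Fin 6))
    simpa [h, dotProduct_smul, smul_dotProduct] using this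
  refine ⟨_, scalar_of_comm hι h2 fun a b => ?_⟩
  have hc := conj_XY hι h2 hg (e a) (v := e b) (by simp)
  rw [h, h, X_smul, Y_smul, Matrix.smul_mul, Matrix.mul_smul, smul_smul, hε, one_smul, ← px] at hc
  conv_rhs => rw [← hc, mul_assoc _ _ (g : M₄), Units.inv_mul, mul_one]

omit hι h2 in
lemma pow_four_of_det {g : GL (Fin 4) F} {c : F} (hg : (g : M₄).det = 1)
    (h : (g : M₄) = c • 1) : c ^ 4 = 1 := by
  rwa [h, Matrix.det_smul, Matrix.det_one, mul_one, Fintype.card_fin] at hg

lemma lam_scalar_det {g : GL (Fin 4) F} {c : F} (hg : (g : M₄).det = 1)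
    (h : (g : M₄) = c • 1) : ∃ s : F, s * s = 1 ∧ ∀ x, lam ι g x = s • x :=
  ⟨c * c, by have := pow_four_of_det hg h; linear_combination this, lam_scalar hι h2 h⟩

/-- The product of three disjoint pairs is scalar. -/
lemma px_six {a b c d f g : Fin 6} (h : [a, b, c, d, f, g].Nodup) :
    ∃ k : F, k ≠ 0 ∧ px ι a b * px ι c d = k • px ι f g := by
  have hn := h
  simp only [List.nodup_cons, List.mem_cons, not_or, List.not_mem_nil, not_false_iff, and_true,
    List.nodup_nil] at hn
  obtain ⟨⟨nab, nac, nad, naf, nag⟩, ⟨nbc, nbd, nbf, nbg⟩, ⟨ncd, ncf, ncg⟩, ⟨ndf, ndg⟩, nfg⟩ := hn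
  set t := pxu hι a b * pxu hι c d * pxu hι f g
  have hlam : ∀ z, lam ι t (e z) = (-1 : F) • e z := fun z => by
    simp only [t, lam_mul hι h2, lam_pxu hι h2 nab, lam_pxu hι h2 ncd, lam_pxu hι h2 nfg,
      lam_smul hι h2, smul_smul]
    congr 1
    rcases mem_six h z with rfl | rfl | rfl | rfl | rfl | rfl <;>
      simp [nac, nad, naf, nag, nbc, nbd, nbf, nbg, ncf, ncg, ndf, ndg, Ne.symm nac, Ne.symm nad,
        Ne.symm naf, Ne.symm nag, Ne.symm nbc, Ne.symm nbd, Ne.symm nbf, Ne.symm nbg, Ne.symm ncf,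
        Ne.symm ncg, Ne.symm ndf, Ne.symm ndg]
  obtain ⟨k, hk⟩ := scalar_of_lam hι h2 (g := t) (by simp [t, det_pxu]) hlam
  have hk0 : k ≠ 0 := fun h0 => t.ne_zero (by rw [hk, h0, zero_smul])
  refine ⟨-k, neg_ne_zero.2 hk0, ?_⟩
  have e1 : px ι a b * px ι c d * px ι f g = k • (1 : M₄) := by simpa [t, coe_pxu] using hk
  have e2 := congrArg (· * px ι g f) e1
  simp only [mul_assoc _ (px ι f g), px_mul hι, px_self hι, mul_one, Matrix.smul_mul, one_mul] at e2
  rw [e2, px_swap hι nfg, smul_neg, neg_smul]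

omit h2

variable (ι) in
omit hι in
/-- The standard Pauli group of order `64`. -/
def IsStd (g : GL (Fin 4) F) : Prop := ∃ (c : F) (a b : Fin 6), c ^ 4 = 1 ∧ (g : M₄) = c • px ι a b

include h2

lemma exists_six {a b c d : Fin 6} (h : [a, b, c, d].Nodup) :
    ∃ f g : Fin 6, [a, b, c, d, f, g].Nodup := by
  revert a b c d
  decide +kernel

lemma isStd_pxu (a b : Fin 6) : IsStd ι (pxu hι a b) :=
  ⟨1, a, b, one_pow 4, by rw [coe_pxu, one_smul]⟩

lemma det_of_isStd {g : GL (Fin 4) F} (h : IsStd ι g) : (g : M₄).det = 1 := by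
  obtain ⟨c, a, b, hc, hg⟩ := h
  rw [hg, Matrix.det_smul, ← coe_pxu hι, det_pxu, Fintype.card_fin, hc, mul_one]

lemma isStd_mul {g k : GL (Fin 4) F} (hg : IsStd ι g) (hk : IsStd ι k) : IsStd ι (g * k) := by
  have key : ∀ a b a' b' : Fin 6, ∃ (s : F) (u v : Fin 6), px ι a b * px ι a' b' = s • px ι u v := by
    intro a b a' b'
    rcases eq_or_ne a b with rfl | hab
    · exact ⟨1, a', b', by rw [px_self hι, one_mul, one_smul]⟩
    rcases eq_or_ne a' b' with rfl | hab'
    · exact ⟨1, a, b, by rw [px_self hι, mul_one, one_smul]⟩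
    by_cases h1 : b = a'
    · subst h1; exact ⟨1, a, b', by rw [px_mul hι, one_smul]⟩
    by_cases h2' : b = b'
    · subst h2'
      exact ⟨-1, a, a', by rw [px_swap hι hab'.symm, Matrix.mul_neg, px_mul hι, neg_one_smul]⟩
    by_cases h3 : a = a'
    · subst h3
      exact ⟨-1, b, b', by rw [px_swap hι hab.symm, Matrix.neg_mul, px_mul hι, neg_one_smul]⟩
    by_cases h4 : a = b'
    · subst h4
      exact ⟨1, b, a', by rw [px_swap hι hab.symm, px_swap hι hab'.symm, neg_mul_neg, px_mul hι, one_smul]⟩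
    obtain ⟨f, g, hn⟩ := exists_six hι h2 (a := a) (b := b) (c := a') (d := b')
      (by simp [hab, hab', h1, h2', h3, h4])
    obtain ⟨s, -, hs⟩ := px_six hι h2 hn
    exact ⟨s, f, g, hs⟩
  obtain ⟨c, a, b, hc, hgv⟩ := id hg
  obtain ⟨c', a', b', hc', hkv⟩ := id hk
  obtain ⟨s, u, v, hs⟩ := key a b a' b'
  refine ⟨c * c' * s, u, v, ?_, by
    rw [Units.val_mul, hgv, hkv, Matrix.smul_mul, Matrix.mul_smul, hs, smul_smul, smul_smul]⟩
  have hd : ((g * k : GL (Fin 4) F) : M₄).det = 1 := by
    rw [Units.val_mul, Matrix.det_mul, det_of_isStd hι h2 hg, det_of_isStd hι h2 hk, one_mul]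
  rwa [Units.val_mul, hgv, hkv, Matrix.smul_mul, Matrix.mul_smul, hs, smul_smul, smul_smul,
    Matrix.det_smul, ← coe_pxu hι, det_pxu, Fintype.card_fin, mul_one] at hd

/-- The standard Pauli group. -/
def Rstd : Subgroup (GL (Fin 4) F) where
  carrier := {g | IsStd ι g}
  one_mem' := ⟨1, 0, 0, one_pow 4, by rw [px_self hι, one_smul]; rfl⟩
  mul_mem' := isStd_mul hι h2
  inv_mem' := fun {g} hg => by
    obtain ⟨c, a, b, hc, hgv⟩ := hg
    have hc0 : c ≠ 0 := fun h => by simp [h] at hc
    refine ⟨c⁻¹, b, a, by rw [inv_pow, hc, inv_one], ?_⟩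
    refine Units.inv_eq_of_mul_eq_one_right ?_
    rw [hgv, Matrix.smul_mul, Matrix.mul_smul, smul_smul, mul_inv_cancel₀ hc0, one_smul, px_mul hι,
      px_self hι]

lemma mem_Rstd {g : GL (Fin 4) F} : g ∈ Rstd hι h2 ↔ IsStd ι g := Iff.rfl

omit h2

variable (ι) in
omit hι in
/-- Determinant one and a signed permutation of the frame. -/
def Mono (g : GL (Fin 4) F) : Prop :=
  (g : M₄).det = 1 ∧ ∀ a, ∃ (b : Fin 6) (s : F), s * s = 1 ∧ lam ι g (e a) = s • e b

variable {g k : GL (Fin 4) F}

omit hι in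
/-- The image of a frame vector. -/
noncomputable def Mono.img (hg : Mono ι g) (a : Fin 6) : Fin 6 := (hg.2 a).choose

omit hι in
lemma Mono.exists_sign (hg : Mono ι g) (a : Fin 6) :
    ∃ s : F, s * s = 1 ∧ lam ι g (e a) = s • e (hg.img a) := (hg.2 a).choose_spec

omit hι in
lemma sign_ne_zero {s : F} (h : s * s = 1) : s ≠ 0 := fun h0 => by simp [h0] at h

include h2

omit hι h2 in
lemma Mono.img_eq (hg : Mono ι g) {a b : Fin 6} {s : F} (hs : s ≠ 0)
    (h : lam ι g (e a) = s • e b) : hg.img a = b := by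
  obtain ⟨t, -, ht⟩ := hg.exists_sign a
  exact (smul_e_inj hs (h.symm.trans ht)).1.symm

lemma Mono.img_injective (hg : Mono ι g) : Function.Injective hg.img := fun a b hab => by
  obtain ⟨s, hs, ha⟩ := hg.exists_sign a
  obtain ⟨t, ht, hb⟩ := hg.exists_sign b
  by_contra hne
  have := dot_lam₂ hι h2 hg.1 (e a) (e b)
  rw [ha, hb, hab, smul_dotProduct, dotProduct_smul, e_dot_self, e_dot, if_neg hne] at this
  simp at this
  rcases this with h | h
  · exact sign_ne_zero hs h
  · exact sign_ne_zero ht h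

lemma mono_one : Mono ι (1 : GL (Fin 4) F) :=
  ⟨by simp, fun a => ⟨a, 1, one_mul 1, by rw [lam_one hι h2, one_smul]⟩⟩

lemma Mono.mul (hg : Mono ι g) (hk : Mono ι k) : Mono ι (g * k) :=
  ⟨by simp [Matrix.det_mul, hg.1, hk.1], fun a => by
    obtain ⟨s, hs, ha⟩ := hk.exists_sign a
    obtain ⟨t, ht, hb⟩ := hg.exists_sign (hk.img a)
    refine ⟨hg.img (hk.img a), s * t, by linear_combination t * t * hs + ht, ?_⟩
    rw [lam_mul hι h2, ha, lam_smul hι h2, hb, smul_smul]⟩

lemma Mono.inv (hg : Mono ι g) : Mono ι g⁻¹ := by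
  refine ⟨?_, fun b => ?_⟩
  · have := congrArg Matrix.det (Units.inv_mul g)
    rwa [Matrix.det_mul, hg.1, mul_one, Matrix.det_one] at this
  obtain ⟨a, ha⟩ := Finite.surjective_of_injective (hg.img_injective hι h2) b
  obtain ⟨s, hs, hs'⟩ := hg.exists_sign a
  refine ⟨a, s, hs, ?_⟩
  rw [ha] at hs'
  calc lam ι g⁻¹ (e b) = lam ι g⁻¹ (s • (s • e b)) := by rw [smul_smul, hs, one_smul]
    _ = s • lam ι g⁻¹ (lam ι g (e a)) := by rw [lam_smul hι h2, hs']
    _ = _ := by rw [← lam_mul hι h2, inv_mul_cancel, lam_one hι h2]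

/-- The monomial group. -/
def Nstd : Subgroup (GL (Fin 4) F) where
  carrier := {g | Mono ι g}
  one_mem' := mono_one hι h2
  mul_mem' := Mono.mul hι h2
  inv_mem' := Mono.inv hι h2

lemma mem_Nstd : g ∈ Nstd hι h2 ↔ Mono ι g := Iff.rfl

/-- The permutation of the frame. -/
noncomputable def piStd : Nstd hι h2 →* Equiv.Perm (Fin 6) where
  toFun g := Equiv.ofBijective _
    (Finite.injective_iff_bijective.1 (Mono.img_injective hι h2 g.2))
  map_one' := Equiv.ext fun a => by
    show Mono.img (Nstd hι h2).one_mem a = a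
    exact Mono.img_eq _ one_ne_zero (by rw [lam_one hι h2, one_smul])
  map_mul' g k := Equiv.ext fun a => by
    show Mono.img (g * k).2 a = Mono.img g.2 (Mono.img k.2 a)
    obtain ⟨s, hs, ha⟩ := Mono.exists_sign k.2 a
    obtain ⟨t, ht, hb⟩ := Mono.exists_sign g.2 (Mono.img k.2 a)
    refine Mono.img_eq _ (mul_ne_zero (sign_ne_zero hs) (sign_ne_zero ht)) ?_
    rw [Subgroup.coe_mul, lam_mul hι h2, ha, lam_smul hι h2, hb, smul_smul]

lemma piStd_spec (n : Nstd hι h2) (a : Fin 6) :
    ∃ s : F, s * s = 1 ∧ lam ι (n : GL (Fin 4) F) (e a) = s • e (piStd hι h2 n a) :=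
  Mono.exists_sign n.2 a

lemma piStd_eq (n : Nstd hι h2) {a b : Fin 6} {s : F} (hs : s ≠ 0)
    (h : lam ι (n : GL (Fin 4) F) (e a) = s • e b) : piStd hι h2 n a = b :=
  Mono.img_eq n.2 hs h

/-- Conjugation of the products by a monomial element. -/
lemma Mono.conj_px (hg : Mono ι g) (a b : Fin 6) :
    ∃ s : F, s * s = 1 ∧
      (g : M₄) * px ι a b * ((g⁻¹ : GL (Fin 4) F) : M₄) = s • px ι (hg.img a) (hg.img b) := by
  obtain ⟨s, hs, ha⟩ := hg.exists_sign a
  obtain ⟨t, ht, hb⟩ := hg.exists_sign b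
  refine ⟨t * s, by linear_combination t * t * hs + ht, ?_⟩
  rw [px, conj_XY hι h2 hg.1 (e a) (by simp), ha, hb, X_smul, Y_smul, Matrix.smul_mul,
    Matrix.mul_smul, smul_smul, ← px, mul_comm]

lemma Mono.conj_isStd (hg : Mono ι g) (hk : IsStd ι k) : IsStd ι (g * k * g⁻¹) := by
  obtain ⟨c, a, b, hc, hkv⟩ := hk
  obtain ⟨s, hs, hsv⟩ := hg.conj_px hι h2 a b
  refine ⟨c * s, hg.img a, hg.img b, ?_, ?_⟩
  · linear_combination (s ^ 4) * hc + (s * s + 1) * hs
  · rw [Units.val_mul, Units.val_mul, hkv, Matrix.mul_smul, Matrix.smul_mul, hsv, smul_smul]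

lemma mono_of_scalar {c : F} (hg : (g : M₄).det = 1) (h : (g : M₄) = c • 1) : Mono ι g := by
  obtain ⟨s, hs, hl⟩ := lam_scalar_det hι h2 hg h
  exact ⟨hg, fun a => ⟨a, s, hs, hl _⟩⟩

lemma mono_pxu (a b : Fin 6) : Mono ι (pxu hι a b) := by
  refine ⟨det_pxu hι a b, fun z => ?_⟩
  rcases eq_or_ne a b with rfl | hab
  · exact ⟨z, 1, one_mul 1, by rw [pxu_self, lam_one hι h2, one_smul]⟩
  · exact ⟨z, _, by split <;> simp, lam_pxu hι h2 hab z⟩

lemma mono_of_isStd (hk : IsStd ι k) : Mono ι k := by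
  obtain ⟨c, a, b, hc, hkv⟩ := id hk
  refine ⟨det_of_isStd hι h2 hk, fun z => ?_⟩
  obtain ⟨y, s, hs, hy⟩ := (mono_pxu hι h2 a b).2 z
  refine ⟨y, c * c * s, by linear_combination (s * s) * hc + hs, ?_⟩
  rw [lam_of_eq hι h2 (k := pxu hι a b) (c := c) (by rw [coe_pxu, hkv]), hy, smul_smul]

/-- The monomial group is the normaliser in the special linear group of the standard Pauli group. -/
lemma mem_Nstd_iff_normalizer :
    g ∈ Nstd hι h2 ↔ g ∈ Subgroup.normalizer (Rstd hι h2 : Set (GL (Fin 4) F)) ∧ (g : M₄).det = 1 := by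
  refine ⟨fun hg => ⟨?_, hg.1⟩, fun ⟨hn, hd⟩ => ⟨hd, fun a => ?_⟩⟩
  · rw [Subgroup.mem_normalizer_iff]
    refine fun x => ⟨fun hx => Mono.conj_isStd hι h2 hg hx, fun hx => ?_⟩
    have := Mono.conj_isStd hι h2 (Mono.inv hι h2 hg) hx
    simpa [mem_Rstd, mul_assoc] using this
  set v := lam ι g (e a) with hv
  have hev : ∀ p q : Fin 6, ∃ s : F, lam ι (pxu hι p q) v = s • v := fun p q => by
    have hm : g⁻¹ * pxu hι p q * g ∈ Rstd hι h2 := by
      rw [Subgroup.mem_normalizer_iff] at hn
      rw [hn, mem_Rstd]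
      simpa [mul_assoc] using isStd_pxu hι h2 p q
    obtain ⟨z, s, -, hz⟩ := (mono_of_isStd hι h2 hm).2 a
    obtain ⟨c, i, j, hc, hcv⟩ := hm
    have hz2 : ∃ s : F, lam ι (g⁻¹ * pxu hι p q * g) (e a) = s • e a := by
      rcases eq_or_ne i j with rfl | hij
      · exact ⟨c * c, lam_scalar hι h2 (by rw [hcv, px_self hι]) _⟩
      · exact ⟨_, by rw [lam_of_eq hι h2 (k := pxu hι i j) (c := c) (by rw [coe_pxu, hcv]),
          lam_pxu hι h2 hij, smul_smul]⟩
    obtain ⟨s, hs⟩ := hz2
    refine ⟨s, ?_⟩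
    rw [hv, ← lam_mul hι h2, show pxu hι p q * g = g * (g⁻¹ * pxu hι p q * g) by group,
      lam_mul hι h2, hs, lam_smul hι h2]
  have hnorm : v ⬝ᵥ v = 1 := by rw [hv, dot_lam hι h2 hd, e_dot_self]
  obtain ⟨b, hb⟩ : ∃ b, v b ≠ 0 := by
    by_contra! h
    rw [show v = 0 from funext h] at hnorm
    simp at hnorm
  have hzero : ∀ j, j ≠ b → v j = 0 := by
    intro j hj
    by_contra hvj
    obtain ⟨l, hlb, hlj⟩ := (show ∀ p q : Fin 6, ∃ l, l ≠ p ∧ l ≠ q by decide) b j
    obtain ⟨s, hs⟩ := hev b l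
    have hexp : ∀ z, lam ι (pxu hι b l) v z = (if z = b ∨ z = l then (-1 : F) else 1) * v z := by
      intro z
      have := lam_ext hι h2 (g := pxu hι b l)
        (f := fun x z => (if z = b ∨ z = l then (-1 : F) else 1) * x z)
        (fun x => by ext z; simp [e, Pi.single_apply, mul_comm])
        (fun y => by
          rw [lam_pxu hι h2 hlb.symm]
          ext z
          by_cases hzy : z = y
          · subst hzy; simp [e]
          · simp [e, hzy]) v
      exact congrFun this z
    have e1 := congrFun hs b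
    have e3 := congrFun hs j
    rw [hexp, if_pos (Or.inl rfl), Pi.smul_apply, smul_eq_mul] at e1
    rw [hexp, if_neg (by simp [hj, Ne.symm hlj]), Pi.smul_apply, smul_eq_mul] at e3
    have s1 : s = -1 := (mul_right_cancel₀ hb e1).symm
    have s2 : s = 1 := (mul_right_cancel₀ hvj e3).symm
    exact h2 (by linear_combination s1 - s2)
  have hve : v = v b • e b := by
    ext z
    rcases eq_or_ne z b with rfl | hz
    · simp [e]
    · simp [e, hz, hzero z hz]
  refine ⟨b, v b, ?_, hve⟩
  rw [hve, smul_dotProduct, dotProduct_smul, e_dot_self, smul_eq_mul, smul_eq_mul, mul_one] at hnorm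
  exact hnorm

end CfsgLib.Geometric.SLFour
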