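import Cfsg.Agent.Lib.Geometric.LinearMonomialSmall

/-!
Maximality of the monomial subgroup of the special linear group in dimension four, over at least
seven elements.
-/

namespace CfsgLib.Geometric.SLFour

open Matrix

variable {F : Type*} [Field F]

local notation "e[" j "]" => (Pi.single j (1 : _) : Fin 4 → _)

lemma perm_four_eq_one : ∀ σ : Equiv.Perm (Fin 4), σ * σ = 1 → σ 0 = 0 →
    Equiv.Perm.sign σ = 1 → σ = 1 := by decide

lemma exists_four_pow_ne_one [Fintype F] (hq : 7 ≤ Fintype.card F) : ∃ γ : Fˣ, γ ^ 4 ≠ 1 := by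
  obtain ⟨x, hx⟩ := IsCyclic.exists_generator (α := Fˣ)
  refine ⟨x, fun h => ?_⟩
  have h1 := Nat.le_of_dvd (by norm_num) (orderOf_dvd_of_pow_eq_one h)
  rw [orderOf_eq_card_of_forall_mem_zpowers hx, Nat.card_units, Nat.card_eq_fintype_card] at h1
  omega

section Steps

variable [Fintype F] (hq : 7 ≤ Fintype.card F)
variable {M : Subgroup (GL (Fin 4) F)}
variable (hH : ∀ π c, (mon π c : Matrix (Fin 4) (Fin 4) F).det = 1 → mon π c ∈ M)
variable (hN : ∀ z ∈ M, ¬ IsMon z → ∀ o (γ : F), ap z e[o] ≠ γ • e[o])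

include hH hN

omit [Fintype F] in
lemma not_single_column {z : GL (Fin 4) F} (hz : z ∈ M) (hzn : ¬ IsMon z) (o p : Fin 4) :
    ¬ ∀ m, m ≠ p → ap z e[o] m = (0 : F) := by
  intro h
  by_cases hop : p = o
  · subst hop
    exact hN z hz hzn p (ap z e[p] p) (funext fun m => by
      by_cases hm : m = p
      · subst hm; simp
      · simp [hm, h m hm])
  obtain ⟨r, -, hr⟩ := Finset.exists_mem_notMem_of_card_lt_card
    (t := (Finset.univ : Finset (Fin 4))) (s := {o, p})
    (lt_of_le_of_lt Finset.card_le_two (by simp))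
  simp only [Finset.mem_insert, Finset.mem_singleton, not_or] at hr
  set w : GL (Fin 4) F := mon (Equiv.swap o p) (oneBut r (-1)) with hw
  have hwM : w ∈ M := hH _ _ (by
    rw [det_mon, prod_oneBut, Equiv.Perm.sign_swap (Ne.symm hop)]; simp)
  refine hN (w * z) (mul_mem hwM hz) (fun hm => hzn ?_) o (ap (w * z) e[o] o) (funext fun m => ?_)
  · have := (show IsMon w⁻¹ from IsMon.inv ⟨_, _, hw⟩).mul hm
    rwa [inv_mul_cancel_left] at this
  by_cases hm : m = o
  · subst hm; simp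
  · rw [ap_mul, hw, ap_mon, Pi.smul_apply, Pi.single_eq_of_ne hm, smul_zero]
    rw [h _ (by
      intro e
      rw [Equiv.symm_swap] at e
      have := congrArg (Equiv.swap o p) e
      rw [Equiv.swap_apply_self, Equiv.swap_apply_right] at this
      exact hm this), mul_zero]

include hq

/-- No column of a non-monomial element has two zeros. -/
lemma not_two_zeros {h : GL (Fin 4) F} (hh : h ∈ M) (hhn : ¬ IsMon h) {j a b : Fin 4}
    (hab : a ≠ b) (ha : ap h e[j] a = 0) (hb : ap h e[j] b = 0) : False := by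
  classical
  obtain ⟨lam, hlam⟩ := exists_four_pow_ne_one hq
  have hin : ¬ IsMon h⁻¹ := fun hm => hhn (by simpa using hm.inv)
  have hh' := inv_mem hh
  obtain ⟨p, q, hp, hp'⟩ := exists_pair (hq := by omega) hH hh hN hab ha hb
  have hpq : p ≠ q := by
    rintro rfl
    exact not_single_column hH hN hh' hin a p fun m hm => hp m hm hm
  obtain ⟨r, -, hr⟩ := Finset.exists_mem_notMem_of_card_lt_card
    (t := (Finset.univ : Finset (Fin 4))) (s := {p, q})
    (lt_of_le_of_lt Finset.card_le_two (by simp))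
  obtain ⟨s, -, hs⟩ := Finset.exists_mem_notMem_of_card_lt_card
    (t := (Finset.univ : Finset (Fin 4))) (s := {p, q, r})
    (lt_of_le_of_lt Finset.card_le_three (by simp))
  simp only [Finset.mem_insert, Finset.mem_singleton, not_or] at hr hs
  obtain ⟨p₁, q₁, hR, hS⟩ := exists_pair (hq := by omega) hH hh' hN (Ne.symm hs.2.2)
    (hp r hr.1 hr.2) (hp s hs.1 hs.2.1)
  rw [inv_inv] at hR hS
  have hRq : ap h e[r] q₁ ≠ 0 := fun h0 => not_single_column hH hN hh hhn r p₁ fun m hm => by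
    by_cases e : m = q₁
    · subst e; exact h0
    · exact hR m hm e
  set u : Fin 4 → F := ap h (ap h e[s] q₁ • e[r] - ap h e[r] q₁ • e[s]) with hu
  have hu' : ∀ m, m ≠ p₁ → u m = 0 := fun m hm => by
    rw [hu, ap_sub, ap_smul, ap_smul, Pi.sub_apply, Pi.smul_apply, Pi.smul_apply, smul_eq_mul,
      smul_eq_mul]
    by_cases e : m = q₁
    · subst e; ring
    · rw [hR m hm e, hS m hm e]; ring
  have hu0 : u p₁ ≠ 0 := fun h0 => by
    have h1 : u = 0 := funext fun m => if e : m = p₁ then by rw [e]; exact h0 else hu' m e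
    rw [hu] at h1
    have h2 := congrFun (ap_injective h (h1.trans (ap_zero h).symm)) s
    simp [hs.2.2, hRq] at h2
  set c : Fin 4 → Fˣ := fun m => oneBut p lam m * oneBut q lam⁻¹ m with hc
  have hcp : (c p : F) = lam := by simp [hc, oneBut_self, oneBut_ne hpq]
  have hcq : (c q : F) = ((lam⁻¹ : Fˣ) : F) := by simp [hc, oneBut_self, oneBut_ne hpq.symm]
  have hco : ∀ m, m ≠ p → m ≠ q → c m = 1 := fun m h1 h2 => by
    simp [hc, oneBut_ne h1, oneBut_ne h2]
  have hcM : dg c ∈ M := hH _ _ (by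
    rw [det_mon]
    simp only [hc, Units.val_mul, Finset.prod_mul_distrib, prod_oneBut]
    simp)
  set y := h * dg c * h⁻¹ with hy
  have hyM : y ∈ M := mul_mem (mul_mem hh hcM) hh'
  have hyu : ap y u = u := by
    rw [hy, hu, ap_mul, ap_mul, ap_inv_ap, ap_sub (dg c), ap_smul (dg c), ap_smul (dg c),
      ap_dg_single, ap_dg_single, hco r hr.1 hr.2, hco s hs.1 hs.2.1]
    simp
  have hyp : ap y e[p₁] = (1 : F) • e[p₁] := by
    have hup : u = u p₁ • e[p₁] := funext fun m => by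
      by_cases e : m = p₁
      · subst e; simp
      · simp [e, hu' m e]
    rw [hup, ap_smul] at hyu
    rw [one_smul]
    exact smul_right_injective _ hu0 hyu
  obtain ⟨π, d, hπ⟩ : IsMon y := by_contra fun hn => hN y hyM hn p₁ 1 hyp
  set A := ap h⁻¹ e[a] with hA
  set B := ap h⁻¹ e[b] with hB
  have hApq : A p ≠ 0 ∧ A q ≠ 0 := by
    constructor <;> intro h0
    · exact not_single_column hH hN hh' hin a q fun m hm => by
        by_cases e : m = p
        · subst e; exact h0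
        · exact hp m e hm
    · exact not_single_column hH hN hh' hin a p fun m hm => by
        by_cases e : m = q
        · subst e; exact h0
        · exact hp m hm e
  have hD : A p * B q - A q * B p ≠ 0 := fun h0 => by
    have h1 : ap h⁻¹ (B q • e[a] - A q • e[b]) = 0 := funext fun m => by
      rw [ap_sub, ap_smul, ap_smul, ← hA, ← hB, Pi.sub_apply, Pi.smul_apply, Pi.smul_apply,
        smul_eq_mul, smul_eq_mul, Pi.zero_apply]
      by_cases e1 : m = p
      · subst e1; linear_combination h0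
      by_cases e2 : m = q
      · subst e2; ring
      · rw [hp m e1 e2, hp' m e1 e2]; ring
    have h2 := congrFun (ap_injective h⁻¹ (h1.trans (ap_zero h⁻¹).symm)) b
    simp [hab.symm, hApq.2] at h2
  -- the plane of `p` and `q` goes to the plane of `a` and `b`
  have hplane : ∀ x : Fin 4 → F, (∀ m, m ≠ p → m ≠ q → x m = 0) →
      ∀ m, m ≠ a → m ≠ b → ap h x m = 0 := by
    intro x hx m hma hmb
    set D := A p * B q - A q * B p with hDdef
    have hxD : D • x = ap h⁻¹
        ((x p * B q - x q * B p) • e[a] + (A p * x q - A q * x p) • e[b]) := funext fun k => by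
      rw [ap_add, ap_smul, ap_smul, ← hA, ← hB, Pi.add_apply, Pi.smul_apply, Pi.smul_apply,
        Pi.smul_apply, smul_eq_mul, smul_eq_mul, smul_eq_mul, hDdef]
      by_cases e1 : k = p
      · subst e1; ring
      by_cases e2 : k = q
      · subst e2; ring
      · rw [hx k e1 e2, hp k e1 e2, hp' k e1 e2]; ring
    have h1 := congrFun (congrArg (ap h) hxD) m
    rw [ap_smul, ap_ap_inv, Pi.smul_apply, smul_eq_mul] at h1
    simp [hma, hmb] at h1
    exact h1.resolve_left hD
  have hyx : ∀ k, ap y e[k] = ap h (ap (dg c) (ap h⁻¹ e[k])) := fun k => by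
    rw [hy, ap_mul, ap_mul]
  have himg : ∀ k, (∀ m, m ≠ p → m ≠ q → ap h⁻¹ e[k] m = 0) → π k = a ∨ π k = b := by
    intro k hk
    by_contra hne
    rw [not_or] at hne
    have h1 := hplane (ap (dg c) (ap h⁻¹ e[k]))
      (fun m h1 h2 => by rw [ap_dg, hk m h1 h2, mul_zero]) (π k) hne.1 hne.2
    rw [← hyx, hπ, ap_mon_single] at h1
    simp at h1
  have hπ2 : π (π a) = a := by
    rcases himg a hp with h1 | h1
    · rw [h1, h1]
    · rw [h1]
      rcases himg b hp' with h2 | h2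
      · exact h2
      · exact absurd (π.injective (h1.trans h2.symm)) hab
  obtain ⟨κ, hκ⟩ : ∃ κ : F, ap y (ap y e[a]) = κ • e[a] := by
    refine ⟨(d a : F) * (d (π a) : F), ?_⟩
    rw [hπ, ap_mon_single, ap_mon_single, hπ2, mul_one, ← Pi.single_smul', smul_eq_mul, mul_one]
  have hAA : ap (dg c) (ap (dg c) A) = κ • A := by
    have h1 := congrArg (ap h⁻¹) hκ
    rw [hyx, hy, ap_mul, ap_mul, ap_inv_ap, ap_inv_ap, ap_smul] at h1
    exact h1
  have e1 := congrFun hAA p
  have e2 := congrFun hAA q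
  rw [ap_dg, ap_dg, hcp, Pi.smul_apply, smul_eq_mul, ← mul_assoc] at e1
  rw [ap_dg, ap_dg, hcq, Pi.smul_apply, smul_eq_mul, ← mul_assoc] at e2
  have e1' := mul_right_cancel₀ hApq.1 e1
  have e2' := mul_right_cancel₀ hApq.2 e2
  refine hlam ?_
  have h1 : lam * lam = lam⁻¹ * lam⁻¹ := Units.ext (by
    rw [Units.val_mul, Units.val_mul, e1', e2'])
  calc lam ^ 4 = (lam * lam) * (lam * lam) := by simp [pow_succ, mul_assoc]
    _ = (lam⁻¹ * lam⁻¹) * (lam * lam) := by rw [← h1]
    _ = 1 := by group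

/-- A non-monomial element has no zero entry. -/
lemma no_zero {g : GL (Fin 4) F} (hg : g ∈ M) (hgn : ¬ IsMon g) (j l : Fin 4) :
    ap g e[j] l ≠ 0 := by
  intro hl
  obtain ⟨γ, hγ⟩ := exists_four_pow_ne_one hq
  have hin : ¬ IsMon g⁻¹ := fun hm => hgn (by simpa using hm.inv)
  set δ : Fˣ := (γ ^ 4)⁻¹ with hδ
  set c : Fin 4 → Fˣ := fun m => γ * oneBut l δ m with hc
  set w := dg c with hw
  have hwM : w ∈ M := hH _ _ (by
    rw [det_mon]
    simp only [hc, Units.val_mul, Finset.prod_mul_distrib, prod_oneBut, Finset.prod_const,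
      Finset.card_univ]
    simp [hδ])
  have hwv : ap w (ap g e[j]) = (γ : F) • ap g e[j] := funext fun m => by
    rw [hw, ap_dg, Pi.smul_apply, smul_eq_mul]
    by_cases hm : m = l
    · subst hm; simp [hl]
    · simp [hc, oneBut_ne hm]
  obtain ⟨π', c', hzc⟩ : IsMon (g⁻¹ * w * g) := by_contra fun hn =>
    hN _ (mul_mem (mul_mem (inv_mem hg) hwM) hg) hn j γ
      (by rw [ap_mul, ap_mul, hwv, ap_smul, ap_inv_ap])
  have hz' : g⁻¹ * dg (oneBut l δ) * g = mon π' (fun m => γ⁻¹ * c' m) := by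
    have hs : dg (oneBut l δ) = dg (fun _ : Fin 4 => γ⁻¹) * w := by
      rw [hw, dg, dg, mon_mul, mul_one]; congr 1; funext m; simp [hc]; rfl
    have hsc : g⁻¹ * dg (fun _ : Fin 4 => γ⁻¹) = dg (fun _ : Fin 4 => γ⁻¹) * g⁻¹ := by
      refine gl_ext fun x => ?_
      have : ∀ y : Fin 4 → F, ap (dg fun _ : Fin 4 => γ⁻¹) y = ((γ⁻¹ : Fˣ) : F) • y := fun y =>
        funext fun m => by rw [ap_dg, Pi.smul_apply, smul_eq_mul]
      rw [ap_mul, ap_mul, this, this, ap_smul]
    rw [hs, ← mul_assoc, hsc, mul_assoc, mul_assoc, ← mul_assoc g⁻¹, hzc, dg, mon_mul, one_mul]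
    rfl
  have hfix := card_le_fixSpace_conj_of_map (g := g) (d := dg (oneBut l δ))
    (LinearMap.pi fun _ : Fin 1 => coord l) fun x hx => funext fun m => by
      rw [ap_dg]
      by_cases hm : m = l
      · subst hm
        have : x m = 0 := by simpa using congrFun hx 0
        rw [this, mul_zero]
      · rw [oneBut_ne hm, Units.val_one, one_mul]
  rw [hz'] at hfix
  have hy : ap (g⁻¹ * dg (oneBut l δ) * g) (ap g⁻¹ e[l]) = (δ : F) • ap g⁻¹ e[l] := by
    rw [ap_mul, ap_mul, ap_ap_inv, ap_dg_single, oneBut_self, mul_one, ← ap_smul,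
      ← Pi.single_smul', smul_eq_mul, mul_one]
  rw [hz'] at hy
  obtain ⟨p, q, hpq, hp, hq'⟩ := exists_two_zeros_of_eigen hfix (by simp) hy (fun e => hγ (by
    have : δ = 1 := Units.ext e
    rwa [hδ, inv_eq_one] at this))
  exact not_two_zeros hq hH hN (inv_mem hg) hin hpq hp hq'

lemma isMon_all {g : GL (Fin 4) F} (hg : g ∈ M) : IsMon g := by
  classical
  by_contra hgn
  set v := ap g e[0] with hv
  have hfull : ∀ m, v m ≠ 0 := no_zero hq hH hN hg hgn 0
  set D : GL (Fin 4) F := dg fun m => Units.mk0 (v m) (hfull m) with hD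
  set φ : alternatingGroup (Fin 4) →* GL (Fin 4) F := twistHom (g⁻¹ * D) with hφ
  have hφe : ∀ π : alternatingGroup (Fin 4),
      φ π = g⁻¹ * (D * mon (π : Equiv.Perm (Fin 4)) 1 * D⁻¹) * g := by
    intro π
    change g⁻¹ * D * mon (π : Equiv.Perm (Fin 4)) 1 * (g⁻¹ * D)⁻¹ = _
    group
  have hfx : ∀ π, ap (φ π) e[0] = e[0] := by
    intro π
    have h1 : ap D⁻¹ v = 1 := funext fun m => by simp [hD, ap_dg_inv, hfull m]
    have h2 : ap (mon (π : Equiv.Perm (Fin 4)) (1 : Fin 4 → Fˣ)) (1 : Fin 4 → F) = 1 :=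
      funext fun m => by simp [ap_mon]
    have h3 : ap D (1 : Fin 4 → F) = v := funext fun m => by simp [hD, ap_dg]
    rw [hφe, ap_mul, ap_mul, ap_mul, ap_mul, ← hv, h1, h2, h3, hv, ap_inv_ap]
  have hdet : ∀ π, (φ π : Matrix (Fin 4) (Fin 4) F).det = 1 := fun π => by
    change ((g⁻¹ * D * mon (π : Equiv.Perm (Fin 4)) 1 * (g⁻¹ * D)⁻¹ : GL (Fin 4) F) :
      Matrix (Fin 4) (Fin 4) F).det = 1
    rw [Units.val_mul, Units.val_mul _ (mon _ _), Matrix.det_units_conj, det_mon,
      Equiv.Perm.mem_alternatingGroup.mp π.2]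
    simp
  have hmon : ∀ π, IsMon (φ π) := by
    intro π
    by_contra hn'
    refine no_zero hq hH hN ?_ hn' 0 1 (by rw [hfx]; simp)
    rw [hφe]
    refine mul_mem (mul_mem (inv_mem hg) ?_) hg
    obtain ⟨ρ, d, hρ⟩ : IsMon (D * mon (π : Equiv.Perm (Fin 4)) 1 * D⁻¹) :=
      (IsMon.mul ⟨_, _, rfl⟩ ⟨_, _, rfl⟩).mul (IsMon.inv ⟨_, _, rfl⟩)
    rw [hρ]
    refine hH _ _ ?_
    rw [← hρ, Units.val_mul, Units.val_mul, Matrix.det_units_conj, det_mon,
      Equiv.Perm.mem_alternatingGroup.mp π.2]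
    simp
  choose ρ d hρd using hmon
  let ψ : alternatingGroup (Fin 4) →* Equiv.Perm (Fin 4) := MonoidHom.mk' ρ fun a b => by
    have h := hρd (a * b)
    rw [map_mul, hρd a, hρd b, mon_mul] at h
    exact (mon_inj h).1.symm
  have hψi : ∀ a, ρ a 0 = 0 := by
    intro a
    by_contra hne
    have := congrFun ((hρd a ▸ hfx a : ap (mon (ρ a) (d a)) e[0] = e[0])) 0
    simp [ap_mon_single, Ne.symm hne] at this
  let A₁ : alternatingGroup (Fin 4) := ⟨Equiv.swap 0 1 * Equiv.swap 1 2, by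
    rw [Equiv.Perm.mem_alternatingGroup]; decide⟩
  let A₂ : alternatingGroup (Fin 4) := ⟨Equiv.swap 1 2 * Equiv.swap 2 3, by
    rw [Equiv.Perm.mem_alternatingGroup]; decide⟩
  set x := A₁ * A₂ with hx
  have hxv : (x : Equiv.Perm (Fin 4)) = Equiv.swap 0 1 * Equiv.swap 2 3 := by
    rw [hx]; decide
  have hx2 : x * x = 1 := Subtype.ext (by rw [Subgroup.coe_mul, hxv]; decide)
  have hsA : ∀ a : alternatingGroup (Fin 4), a ^ 3 = 1 → Equiv.Perm.sign (ψ a) = 1 := by
    intro a h
    have h3 : Equiv.Perm.sign (ψ a) ^ 3 = 1 := by rw [← map_pow, ← map_pow, h, map_one, map_one]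
    rwa [pow_succ, Int.units_sq, one_mul] at h3
  have hρx : ρ x = 1 := by
    refine perm_four_eq_one (ψ x) ?_ (hψi x) ?_
    · rw [← map_mul, hx2, map_one]
    · rw [hx, map_mul, map_mul, hsA A₁ (Subtype.ext (by decide)),
        hsA A₂ (Subtype.ext (by decide)), one_mul]
  set ε := d x with hε
  have hφx : φ x = dg ε := by rw [hρd x, hρx]
  have hε2 : ∀ m, (ε m : F) = 1 ∨ (ε m : F) = -1 := by
    intro m
    have h : φ x * φ x = 1 := by rw [← map_mul, hx2, map_one]
    rw [hφx, dg, mon_mul, ← mon_one] at h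
    have h1 : ε m * ε m = 1 := congrFun (mon_inj h).2 m
    exact mul_self_eq_one_iff.mp (by rw [← Units.val_mul, h1, Units.val_one])
  have hε0 : (ε 0 : F) = 1 := by
    have := congrFun (hfx x) 0
    rw [hφx, ap_dg_single] at this
    simpa using this
  have hεne : ¬ ∀ m, (ε m : F) = 1 := fun h => by
    have h1 : φ x = 1 := by
      rw [hφx, dg, ← mon_one]; congr 1; funext m; exact Units.ext (h m)
    rw [hφe] at h1
    have h2 : mon (x : Equiv.Perm (Fin 4)) (1 : Fin 4 → Fˣ) = 1 := by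
      calc mon (x : Equiv.Perm (Fin 4)) (1 : Fin 4 → Fˣ)
          = D⁻¹ * g * (g⁻¹ * (D * mon (x : Equiv.Perm (Fin 4)) 1 * D⁻¹) * g) * g⁻¹ * D := by group
        _ = 1 := by rw [h1]; group
    rw [← mon_one, hxv] at h2
    have h3 := Equiv.congr_fun (mon_inj h2).1 0
    revert h3; decide
  have hm1 : (-1 : F) ≠ 1 := fun h => hεne fun m => (hε2 m).elim id fun e => e.trans h
  have h2F : (2 : F) ≠ 0 := fun h => hm1 (by linear_combination -h)
  have hεp : ∏ m, (ε m : F) = 1 := by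
    have := hdet x
    rw [hφx, det_dg] at this
    exact this
  obtain ⟨lam, hlam⟩ := exists_four_pow_ne_one hq
  set c : Fin 4 → Fˣ := fun m => if (ε m : F) = 1 then lam else lam⁻¹ with hc
  have hcp : ∏ m, (c m : F) = 1 := by
    rw [Fin.prod_univ_four] at hεp ⊢
    rcases hε2 1 with h1 | h1 <;> rcases hε2 2 with h2 | h2 <;> rcases hε2 3 with h3 | h3 <;>
      simp only [hε0, h1, h2, h3] at hεp <;>
      first
        | (refine absurd ?_ hεne; intro m; fin_cases m <;> assumption)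
        | (exfalso; apply hm1; simpa using hεp)
        | (simp only [hc, hε0, h1, h2, h3, hm1, ↓reduceIte]; simp; done)
  set y := g * dg c * g⁻¹ with hy
  have hyM : y ∈ M := mul_mem (mul_mem hg (hH _ _ (by rw [det_dg]; exact hcp))) (inv_mem hg)
  set w := D * mon (x : Equiv.Perm (Fin 4)) 1 * D⁻¹ with hw
  have hyw : ∀ z : Fin 4 → F, (2 : F) • ap y z =
      ((lam : F) + ((lam⁻¹ : Fˣ) : F)) • z + ((lam : F) - ((lam⁻¹ : Fˣ) : F)) • ap w z := by
    intro z
    have hwz : ap w z = ap g (ap (dg ε) (ap g⁻¹ z)) := by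
      rw [← ap_mul, ← ap_mul, ← hφx, hφe, ← hw]
      congr 1
      group
    conv_rhs => arg 1; rw [← ap_ap_inv g z]
    rw [hy, ap_mul, ap_mul, hwz, ← ap_smul g, ← ap_smul g, ← ap_smul g, ← ap_add]
    congr 1
    funext m
    simp only [Pi.smul_apply, Pi.add_apply, smul_eq_mul, ap_dg, hc]
    rcases hε2 m with h | h <;> simp [h, hm1] <;> ring
  have hcol : ap w e[0] = Pi.single 1 ((v 1) * (v 0)⁻¹) := by
    rw [hw, ap_mul, ap_mul, hxv, hD, ap_dg_inv_single, ap_mon_single, ap_dg_single]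
    have he : Equiv.swap (0 : Fin 4) 1 (Equiv.swap (2 : Fin 4) 3 0) = 1 := by decide
    simp [he]
  have hlam2 : (lam : F) ^ 2 ≠ 1 ∧ (lam : F) ^ 2 ≠ -1 := by
    constructor <;> intro h <;> refine hlam (Units.ext ?_) <;>
      · rw [Units.val_pow_eq_pow_val, Units.val_one, show (lam : F) ^ 4 = ((lam : F) ^ 2) ^ 2 by ring,
          h]
        ring
  have hf : ((lam : F) + ((lam⁻¹ : Fˣ) : F)) ≠ 0 ∧ ((lam : F) - ((lam⁻¹ : Fˣ) : F)) ≠ 0 := by
    have hl : (lam : F) * ((lam⁻¹ : Fˣ) : F) = 1 := by simp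
    exact ⟨fun h => hlam2.2 (by linear_combination (lam : F) * h - hl),
      fun h => hlam2.1 (by linear_combination (lam : F) * h + hl)⟩
  have hy0 : ap y e[0] 0 ≠ 0 := fun h => hf.1 (by
    have := congrFun (hyw e[0]) 0
    simpa [hcol, h] using this.symm)
  have hy1 : ap y e[0] 1 ≠ 0 := fun h => hf.2 (by
    have := congrFun (hyw e[0]) 1
    simpa [hcol, h, hfull] using this)
  have hy2 : ap y e[0] 2 = 0 := by
    have := congrFun (hyw e[0]) 2
    simpa [hcol, h2F] using this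
  have hyn : ¬ IsMon y := by
    rintro ⟨π, c', hπ⟩
    rw [hπ, ap_mon_single] at hy0 hy1
    have e0 : (0 : Fin 4) = π 0 := by_contra fun e => hy0 (Pi.single_eq_of_ne e _)
    have e1 : (1 : Fin 4) = π 0 := by_contra fun e => hy1 (Pi.single_eq_of_ne e _)
    exact absurd (e0.trans e1.symm) (by decide)
  exact no_zero hq hH hN hyM hyn 0 2 hy2

end Steps

/-- The monomial subgroup of `SL₄` is maximal over at least seven elements. -/
theorem specialLinear_le_of_monomial_four [Fintype F] (hq : 7 ≤ Fintype.card F)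
    {M : Subgroup (GL (Fin 4) F)} (hM : M ≤ Cfsg.Geo.specialLinear (Fin 4) F)
    (hH : ∀ π c, (mon π c : Matrix (Fin 4) (Fin 4) F).det = 1 → mon π c ∈ M)
    {g : GL (Fin 4) F} (hg : g ∈ M) (hgn : ¬ IsMon g) :
    Cfsg.Geo.specialLinear (Fin 4) F ≤ M := by
  by_cases hc : ∃ z ∈ M, ¬ IsMon z ∧ ∃ o, ∃ γ : F, ap z e[o] = γ • e[o]
  · obtain ⟨z, hz, hzn, o, γ, h⟩ := hc
    exact specialLinear_le_of_fixed_line (by omega) (by simp) hM hH hz hzn h
  · exact absurd (isMon_all hq hH (fun z hz hzn o γ h => hc ⟨z, hz, hzn, o, γ, h⟩) hg) hgn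

/-- Four lines. -/
theorem decompStab_isMaximalIn_lines [Fintype F] (hq : 7 ≤ Fintype.card F)
    {D : Fin 4 → Submodule F (Fin 4 → F)} (hD : Cfsg.Geo.IsMDecomposition 1 D) :
    Cfsg.Geo.IsMaximalIn (Cfsg.Geo.specialLinear (Fin 4) F)
      (Cfsg.Geo.decompositionStabilizer D ⊓ Cfsg.Geo.specialLinear (Fin 4) F) :=
  Decomp.decompStab_isMaximalIn_of_one_of hD rfl fun _ hMS hmon _ hg hgn =>
    specialLinear_le_of_monomial_four hq hMS hmon hg hgn

end CfsgLib.Geometric.SLFour
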