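import Mathlib.GroupTheory.Perm.Cycle.Type
import Mathlib.Data.Fintype.Card

/-!
Involutions of six points and the pairs they preserve.
-/

set_option autoImplicit false

namespace CfsgLib.Geometric.SLFour.Perm

open Equiv

/-- The pair `{i, j}` is preserved by `σ`. -/
def Inv (σ : Perm (Fin 6)) (i j : Fin 6) : Prop :=
  (σ i = i ∧ σ j = j) ∨ (σ i = j ∧ σ j = i)

theorem Inv.symm {σ : Perm (Fin 6)} {i j : Fin 6} (h : Inv σ i j) : Inv σ j i :=
  h.imp And.symm And.symm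

theorem Inv.apply_apply {σ : Perm (Fin 6)} {i j : Fin 6} (h : Inv σ i j) : σ (σ i) = i := by
  rcases h with ⟨h1, -⟩ | ⟨h1, h2⟩
  · rw [h1, h1]
  · rw [h1, h2]

theorem apply_apply_of_sq {σ : Perm (Fin 6)} (h : σ * σ = 1) (i : Fin 6) : σ (σ i) = i := by
  rw [← Perm.mul_apply, h, Perm.one_apply]

theorem not_nodup_seven (l : List (Fin 6)) (h : l.length = 7) : ¬ l.Nodup := fun hn => by
  have := hn.length_le_card
  rw [h, Fintype.card_fin] at this
  omega

theorem mem_of_nodup {a b c d e f : Fin 6} (h : [a, b, c, d, e, f].Nodup) (i : Fin 6) :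
    i = a ∨ i = b ∨ i = c ∨ i = d ∨ i = e ∨ i = f := by
  by_contra hi
  exact not_nodup_seven (i :: [a, b, c, d, e, f]) rfl
    (List.nodup_cons.2 ⟨by simpa using hi, h⟩)

theorem nodup_of_forall {a b c d e f : Fin 6}
    (h : ∀ i : Fin 6, i = a ∨ i = b ∨ i = c ∨ i = d ∨ i = e ∨ i = f) :
    [a, b, c, d, e, f].Nodup := by
  have hu : [a, b, c, d, e, f].toFinset = Finset.univ :=
    Finset.eq_univ_of_forall fun i => by simpa using h i
  rw [← List.dedup_eq_self]
  refine (List.dedup_sublist _).eq_of_length ?_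
  rw [← List.card_toFinset, hu]
  rfl

theorem exists_pair_avoid : ∀ a b c : Fin 6,
    ∃ g h : Fin 6, g ≠ h ∧ g ≠ a ∧ g ≠ b ∧ g ≠ c ∧ h ≠ a ∧ h ≠ b ∧ h ≠ c := by
  decide

/-- An involution of six points has an even number of fixed points. -/
theorem exists_other_fixed {σ : Perm (Fin 6)} (h : σ * σ = 1) {i : Fin 6} (hi : σ i = i) :
    ∃ j, j ≠ i ∧ σ j = j := by
  by_contra hno
  have hno' : ∀ j, σ j = j → j = i := fun j hj => by
    by_contra hji
    exact hno ⟨j, hji, hj⟩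
  have hp : σ ^ (2 ^ 1) = 1 := by rw [pow_one, pow_two, h]
  have hmod := Equiv.Perm.card_compl_support_modEq (p := 2) hp
  have hs : σ.supportᶜ = {i} := by
    ext j
    simp only [Finset.mem_compl, Equiv.Perm.mem_support, not_not, Finset.mem_singleton]
    exact ⟨hno' j, fun hj => hj ▸ hi⟩
  rw [hs, Finset.card_singleton, Fintype.card_fin] at hmod
  exact absurd hmod (by decide)

theorem exists_inv_with {σ : Perm (Fin 6)} (h : σ * σ = 1) (i : Fin 6) :
    ∃ j, i ≠ j ∧ Inv σ i j := by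
  by_cases hi : σ i = i
  · obtain ⟨j, hji, hj⟩ := exists_other_fixed h hi
    exact ⟨j, hji.symm, Or.inl ⟨hi, hj⟩⟩
  · exact ⟨σ i, fun he => hi he.symm, Or.inr ⟨rfl, apply_apply_of_sq h i⟩⟩

theorem exists_two_inv {σ : Perm (Fin 6)} (h : σ * σ = 1) :
    ∃ a b c d : Fin 6, a ≠ b ∧ c ≠ d ∧ c ≠ a ∧ c ≠ b ∧ Inv σ a b ∧ Inv σ c d := by
  obtain ⟨b, hb, hab⟩ := exists_inv_with h 0
  obtain ⟨c, -, -, hca, hcb, -⟩ := exists_pair_avoid 0 b b
  obtain ⟨d, hd, hcd⟩ := exists_inv_with h c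
  exact ⟨0, b, c, d, hb, hd, hca, hcb, hab, hcd⟩

/-- A permutation preserving every invariant pair of an involution is an involution. -/
theorem sq_eq_one_of_inv {σ τ : Perm (Fin 6)} (h : σ * σ = 1)
    (hτ : ∀ i j, i ≠ j → Inv σ i j → Inv τ i j) : τ * τ = 1 := by
  ext i
  obtain ⟨j, hij, hj⟩ := exists_inv_with h i
  rw [Perm.mul_apply, (hτ i j hij hj).apply_apply, Perm.one_apply]

/-- The centraliser of an involution with a fixed point preserves one of its pairs. -/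
theorem exists_central_inv {σ : Perm (Fin 6)} (h : σ * σ = 1) (hne : σ ≠ 1)
    (hfix : ∃ i, σ i = i) :
    ∃ a b, a ≠ b ∧ Inv σ a b ∧ ∀ τ : Perm (Fin 6), Commute σ τ → Inv τ a b := by
  obtain ⟨i, hi⟩ := hfix
  obtain ⟨j, hji, hj⟩ := exists_other_fixed h hi
  have hcomm : ∀ {τ : Perm (Fin 6)}, Commute σ τ → ∀ k, σ (τ k) = τ (σ k) := fun {τ} hc k =>
    congrArg (fun p : Perm (Fin 6) => p k) hc.eq
  by_cases hk : ∃ k, σ k = k ∧ k ≠ i ∧ k ≠ j
  · obtain ⟨k, hk, hki, hkj⟩ := hk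
    obtain ⟨a, ha⟩ : ∃ a, σ a ≠ a := by
      by_contra hall
      exact hne (Equiv.ext fun a => by
        by_contra ha
        exact hall ⟨a, ha⟩)
    have hmoved : ∀ c, σ c ≠ c → c = a ∨ c = σ a := by
      intro c hc
      by_contra hca
      refine not_nodup_seven [a, σ a, c, σ c, i, j, k] rfl ?_
      have h1 := apply_apply_of_sq h a
      have h2 := apply_apply_of_sq h c
      have hinj := σ.injective
      simp only [List.nodup_cons, List.mem_cons, List.not_mem_nil, List.nodup_nil]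
      refine ⟨?_, ?_, ?_, ?_, ?_, ?_, ?_⟩ <;> grind
    refine ⟨a, σ a, fun he => ha he.symm, Or.inr ⟨rfl, apply_apply_of_sq h a⟩, fun τ hc => ?_⟩
    have h1 : σ (τ a) ≠ τ a := by rw [hcomm hc]; exact fun he => ha (τ.injective he)
    have h2 : σ (τ (σ a)) ≠ τ (σ a) := by
      rw [hcomm hc]
      exact fun he => ha (σ.injective (τ.injective he))
    rcases hmoved _ h1 with e1 | e1 <;> rcases hmoved _ h2 with e2 | e2
    · exact absurd (τ.injective (e1.trans e2.symm)).symm ha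
    · exact Or.inl ⟨e1, e2⟩
    · exact Or.inr ⟨e1, e2⟩
    · exact absurd (τ.injective (e1.trans e2.symm)).symm ha
  · have hfixed : ∀ k, σ k = k → k = i ∨ k = j := fun k hk' => by
      by_contra hki
      exact hk ⟨k, hk', fun e => hki (Or.inl e), fun e => hki (Or.inr e)⟩
    refine ⟨i, j, hji.symm, Or.inl ⟨hi, hj⟩, fun τ hc => ?_⟩
    have h1 : σ (τ i) = τ i := by rw [hcomm hc, hi]
    have h2 : σ (τ j) = τ j := by rw [hcomm hc, hj]
    rcases hfixed _ h1 with e1 | e1 <;> rcases hfixed _ h2 with e2 | e2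
    · exact absurd (τ.injective (e1.trans e2.symm)).symm hji
    · exact Or.inl ⟨e1, e2⟩
    · exact Or.inr ⟨e1, e2⟩
    · exact absurd (τ.injective (e1.trans e2.symm)).symm hji

/-- Two commuting fixed-point-free involutions agree somewhere. -/
theorem exists_agree {σ τ : Perm (Fin 6)} (hσ : σ * σ = 1) (hτ : τ * τ = 1) (hc : Commute σ τ)
    (hσf : ∀ i, σ i ≠ i) (hτf : ∀ i, τ i ≠ i) : ∃ i, σ i = τ i := by
  by_contra hno
  have hno' : ∀ i, σ i ≠ τ i := fun i hi => hno ⟨i, hi⟩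
  have hst : ∀ i, σ (τ i) = τ (σ i) := fun i => congrArg (fun p : Perm (Fin 6) => p i) hc.eq
  have hs := apply_apply_of_sq hσ
  have ht := apply_apply_of_sq hτ
  obtain ⟨j, hj0, hj1, hj2, hj3⟩ : ∃ j : Fin 6, j ≠ 0 ∧ j ≠ σ 0 ∧ j ≠ τ 0 ∧ j ≠ σ (τ 0) :=
    (by decide : ∀ b c d : Fin 6, ∃ j : Fin 6, j ≠ 0 ∧ j ≠ b ∧ j ≠ c ∧ j ≠ d) _ _ _
  refine not_nodup_seven [0, σ 0, τ 0, σ (τ 0), j, σ j, τ j] rfl ?_
  simp only [List.nodup_cons, List.mem_cons, List.not_mem_nil, List.nodup_nil]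
  refine ⟨?_, ?_, ?_, ?_, ?_, ?_, ?_⟩ <;> grind

theorem exists_fixed_mul {σ τ : Perm (Fin 6)} (hσ : σ * σ = 1) (hτ : τ * τ = 1)
    (hc : Commute σ τ) (hσf : ∀ i, σ i ≠ i) (hτf : ∀ i, τ i ≠ i) : ∃ i, (σ * τ) i = i := by
  obtain ⟨i, hi⟩ := exists_agree hσ hτ hc hσf hτf
  exact ⟨i, by rw [Perm.mul_apply, ← hi, apply_apply_of_sq hσ]⟩

theorem fpf_shape {σ : Perm (Fin 6)} (hσ : σ * σ = 1) (hf : ∀ i, σ i ≠ i) :
    ∃ a b c d e f : Fin 6, [a, b, c, d, e, f].Nodup ∧ σ a = b ∧ σ c = d ∧ σ e = f := by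
  obtain ⟨c, -, -, hc0, hc1, -⟩ := exists_pair_avoid 0 (σ 0) (σ 0)
  obtain ⟨e, he0, he1, he2, he3⟩ : ∃ e : Fin 6, e ≠ 0 ∧ e ≠ σ 0 ∧ e ≠ c ∧ e ≠ σ c :=
    (by decide : ∀ b c d : Fin 6, ∃ e : Fin 6, e ≠ 0 ∧ e ≠ b ∧ e ≠ c ∧ e ≠ d) _ _ _
  have hs := apply_apply_of_sq hσ
  refine ⟨0, σ 0, c, σ c, e, σ e, ?_, rfl, rfl, rfl⟩
  simp only [List.nodup_cons, List.mem_cons, List.not_mem_nil, List.nodup_nil]
  refine ⟨?_, ?_, ?_, ?_, ?_, ?_⟩ <;> grind

/-- A pair preserved by `(a c)(b d)` and by a permutation moving `a` to `b`. -/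
theorem eq_of_inv_of_inv {a b c d e f : Fin 6} (h : [a, b, c, d, e, f].Nodup)
    {σ : Perm (Fin 6)} (ha : σ a = b) (hb : σ b = a) (hc : σ c = d) (hd : σ d = c) {i j : Fin 6}
    (hij : i ≠ j) (h1 : Inv σ i j) (h2 : Inv (swap a c * swap b d) i j) :
    (i = e ∧ j = f) ∨ (i = f ∧ j = e) := by
  have hi := mem_of_nodup h i
  have hj := mem_of_nodup h j
  simp only [List.nodup_cons, List.mem_cons, List.not_mem_nil] at h
  simp only [Inv, Perm.mul_apply] at h1 h2
  rcases hi with rfl | rfl | rfl | rfl | rfl | rfl <;> grind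

/-- Two commuting involutions, with the same invariant pairs as their product, are two of the
double transpositions on three disjoint pairs. -/
theorem three_doubles {σ τ : Perm (Fin 6)} (hσ : σ * σ = 1) (hτ : τ * τ = 1) (hc : Commute σ τ)
    (hne : σ ≠ τ) (h12 : ∀ i j, i ≠ j → (Inv σ i j ↔ Inv τ i j))
    (h13 : ∀ i j, i ≠ j → (Inv σ i j ↔ Inv (σ * τ) i j)) :
    ∃ a b c d e f : Fin 6, [a, b, c, d, e, f].Nodup ∧
      σ = swap a b * swap c d ∧ τ = swap a b * swap e f ∧ σ * τ = swap c d * swap e f ∧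
      ∀ i j, i ≠ j → (Inv σ i j ↔ ((i = a ∧ j = b) ∨ (i = b ∧ j = a)) ∨
        ((i = c ∧ j = d) ∨ (i = d ∧ j = c)) ∨ ((i = e ∧ j = f) ∨ (i = f ∧ j = e))) := by
  have hs := apply_apply_of_sq hσ
  have ht := apply_apply_of_sq hτ
  have hσinj := σ.injective
  have hτinj := τ.injective
  have hst : ∀ i, σ (τ i) = τ (σ i) := fun i => congrArg (fun p : Perm (Fin 6) => p i) hc.eq
  -- on a moved point the two involutions agree or one fixes it
  have hagree : ∀ i, σ i ≠ i → τ i ≠ i → σ i = τ i := by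
    intro i h1 h2
    rcases (h12 i (σ i) (fun he => h1 he.symm)).1 (Or.inr ⟨rfl, hs i⟩) with ⟨h3, -⟩ | ⟨h3, -⟩
    · exact absurd h3 h2
    · exact h3.symm
  -- no common fixed point
  have hnofix : ∀ i, σ i = i → τ i = i → False := by
    intro i h1 h2
    refine hne (Equiv.ext fun k => ?_)
    have key : σ k = k ↔ τ k = k := by
      by_cases hk : k = i
      · subst hk; simp [h1, h2]
      constructor
      · intro h3
        rcases (h12 i k (Ne.symm hk)).1 (Or.inl ⟨h1, h3⟩) with ⟨-, h4⟩ | ⟨h4, -⟩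
        · exact h4
        · exact absurd (h2.symm.trans h4).symm hk
      · intro h3
        rcases (h12 i k (Ne.symm hk)).2 (Or.inl ⟨h2, h3⟩) with ⟨-, h4⟩ | ⟨h4, -⟩
        · exact h4
        · exact absurd (h1.symm.trans h4).symm hk
    by_cases h3 : σ k = k
    · rw [h3, key.1 h3]
    · exact hagree k h3 fun h4 => h3 (key.2 h4)
  -- each of the three sorts of points fills at most one pair
  have hT2 : ∀ i k, σ i = i → σ k = k → i = k ∨ k = τ i := by
    intro i k h1 h2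
    by_contra hno
    rcases (h12 i k fun e => hno (Or.inl e)).1 (Or.inl ⟨h1, h2⟩) with ⟨h3, -⟩ | ⟨h3, -⟩
    · exact hnofix i h1 h3
    · exact hno (Or.inr h3.symm)
  have hT1 : ∀ i k, τ i = i → τ k = k → i = k ∨ k = σ i := by
    intro i k h1 h2
    by_contra hno
    rcases (h12 i k fun e => hno (Or.inl e)).2 (Or.inl ⟨h1, h2⟩) with ⟨h3, -⟩ | ⟨h3, -⟩
    · exact hnofix i h3 h1
    · exact hno (Or.inr h3.symm)
  have hT3 : ∀ i k, σ i = τ i → σ k = τ k → i = k ∨ k = σ i := by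
    intro i k h1 h2
    by_contra hno
    rcases (h13 i k fun e => hno (Or.inl e)).2
        (Or.inl ⟨by rw [Perm.mul_apply, ← h1, hs], by rw [Perm.mul_apply, ← h2, hs]⟩) with
      ⟨h3, -⟩ | ⟨h3, -⟩
    · exact hnofix i h3 (h1 ▸ h3)
    · exact hno (Or.inr h3.symm)
  have hsort : ∀ i, σ i = i ∨ τ i = i ∨ σ i = τ i := fun i => by
    by_cases h1 : σ i = i
    · exact Or.inl h1
    by_cases h2 : τ i = i
    · exact Or.inr (Or.inl h2)
    exact Or.inr (Or.inr (hagree i h1 h2))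
  have hfive : ∀ p q r s : Fin 6, ∃ j : Fin 6, j ≠ p ∧ j ≠ q ∧ j ≠ r ∧ j ≠ s := fun p q r s => by
    by_contra hno
    refine not_nodup_seven [0, 1, 2, 3, 4, 5, p] rfl ?_
    have h0 : ([0, 1, 2, 3, 4, 5] : List (Fin 6)).toFinset ⊆ ({p, q, r, s} : Finset (Fin 6)) := by
      intro j _
      simp only [Finset.mem_insert, Finset.mem_singleton]
      by_contra hj
      exact hno ⟨j, by grind⟩
    have := (Finset.card_le_card h0).trans (Finset.card_le_four)
    exact absurd this (by decide)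
  obtain ⟨a, ha⟩ : ∃ a, σ a = τ a := by
    by_contra hno
    obtain ⟨x1, hx1⟩ : ∃ i, σ i = i := by
      by_contra hno1
      obtain ⟨j, h1, h2, -⟩ := hfive 0 (σ 0) (σ 0) (σ 0)
      have t0 : τ 0 = 0 := (hsort 0).elim (fun h => absurd ⟨0, h⟩ hno1)
        (fun h => h.elim id fun h => absurd ⟨0, h⟩ hno)
      have tj : τ j = j := (hsort j).elim (fun h => absurd ⟨j, h⟩ hno1)
        (fun h => h.elim id fun h => absurd ⟨j, h⟩ hno)
      exact (hT1 0 j t0 tj).elim (fun h => h1 h.symm) h2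
    obtain ⟨x2, hx2⟩ : ∃ i, τ i = i := by
      by_contra hno2
      obtain ⟨j, h1, h2, -⟩ := hfive 0 (τ 0) (τ 0) (τ 0)
      have t0 : σ 0 = 0 := (hsort 0).elim id
        (fun h => h.elim (fun h => absurd ⟨0, h⟩ hno2) fun h => absurd ⟨0, h⟩ hno)
      have tj : σ j = j := (hsort j).elim id
        (fun h => h.elim (fun h => absurd ⟨j, h⟩ hno2) fun h => absurd ⟨j, h⟩ hno)
      exact (hT2 0 j t0 tj).elim (fun h => h1 h.symm) h2
    obtain ⟨j, h1, h2, h3, h4⟩ := hfive x1 (τ x1) x2 (σ x2)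
    rcases hsort j with h | h | h
    · exact (hT2 x1 j hx1 h).elim (fun e => h1 e.symm) h2
    · exact (hT1 x2 j hx2 h).elim (fun e => h3 e.symm) h4
    · exact hno ⟨j, h⟩
  obtain ⟨c, hc'⟩ : ∃ c, τ c = c := by
    by_contra hno
    obtain ⟨x1, hx1⟩ : ∃ i, σ i = i := by
      by_contra hno1
      obtain ⟨j, h1, h2, -⟩ := hfive a (σ a) a a
      rcases hsort j with h | h | h
      · exact hno1 ⟨j, h⟩
      · exact hno ⟨j, h⟩
      · exact (hT3 a j ha h).elim (fun e => h1 e.symm) h2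
    obtain ⟨j, h1, h2, h3, h4⟩ := hfive a (σ a) x1 (τ x1)
    rcases hsort j with h | h | h
    · exact (hT2 x1 j hx1 h).elim (fun e => h3 e.symm) h4
    · exact hno ⟨j, h⟩
    · exact (hT3 a j ha h).elim (fun e => h1 e.symm) h2
  obtain ⟨e, he⟩ : ∃ e, σ e = e := by
    by_contra hno
    obtain ⟨j, h1, h2, h3, h4⟩ := hfive a (σ a) c (σ c)
    rcases hsort j with h | h | h
    · exact hno ⟨j, h⟩
    · exact (hT1 c j hc' h).elim (fun e => h3 e.symm) h4
    · exact (hT3 a j ha h).elim (fun e => h1 e.symm) h2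
  have hcover : ∀ i, i = a ∨ i = σ a ∨ i = c ∨ i = σ c ∨ i = e ∨ i = τ e := fun i => by
    rcases hsort i with h | h | h
    · rcases hT2 e i he h with h' | h' <;> simp [h']
    · rcases hT1 c i hc' h with h' | h' <;> simp [h']
    · rcases hT3 a i ha h with h' | h' <;> simp [h']
  have hnd := nodup_of_forall hcover
  have hσc : σ (τ c) = σ c := by rw [hc']
  have hτe : τ (σ e) = τ e := by rw [he]
  have hnd' := hnd
  simp only [List.nodup_cons, List.mem_cons, List.not_mem_nil] at hnd'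
  refine ⟨a, σ a, c, σ c, e, τ e, hnd, ?_, ?_, ?_, ?_⟩
  · refine Equiv.ext fun i => ?_
    simp only [Perm.mul_apply]
    rcases hcover i with rfl | rfl | rfl | rfl | rfl | rfl <;> grind
  · refine Equiv.ext fun i => ?_
    simp only [Perm.mul_apply]
    rcases hcover i with rfl | rfl | rfl | rfl | rfl | rfl <;> grind
  · refine Equiv.ext fun i => ?_
    simp only [Perm.mul_apply]
    rcases hcover i with rfl | rfl | rfl | rfl | rfl | rfl <;> grind
  · intro i j hij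
    have h4 := h12 i j hij
    simp only [Inv] at h4 ⊢
    rcases hcover i with rfl | rfl | rfl | rfl | rfl | rfl <;> grind

end CfsgLib.Geometric.SLFour.Perm
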