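import Cfsg.Agent.Lib.Geometric.Orth.SimilaritySmall
import Cfsg.Agent.Lib.Geometric.LinearTensorUnip

/-!
In odd characteristic the similarities of a quadratic form in four variables are maximal in the special
linear group.

An element that is not a similarity moves a singular vector to an anisotropic one; the stabiliser of
that vector then induces every transvection on the quotient, which gives a transvection, then a
transvection with singular centre and the same singular functional, and then all transvections.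
-/

set_option autoImplicit false
set_option linter.unusedSectionVars false
set_option linter.unusedSimpArgs false

namespace CfsgLib.Geometric.SLFour.Quad

open Matrix QuadraticMap Module CfsgLib.ClassicalForms CfsgLib.Geometric CfsgLib.Geometric.Orth
open CfsgLib.Geometric.Orth.Small (rf ap_rf det_rf iso_rf)

variable {ι : Type} [Fintype ι] [DecidableEq ι] {F : Type*} [Field F] [Finite F]
variable {Q : QuadraticForm F (ι → F)}

lemma map_add_smul (x y : ι → F) (t : F) : Q (x + t • y) = Q x + t * t * Q y + t * polar Q x y := by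
  rw [QuadraticMap.map_add (⇑Q), QuadraticMap.map_smul, polar_smul_right, smul_eq_mul, smul_eq_mul]

lemma map_sub' (x y : ι → F) : Q (x - y) = Q x + Q y - polar Q x y := by
  rw [sub_eq_add_neg, QuadraticMap.map_add (⇑Q), QuadraticMap.map_neg, polar_neg_right, sub_eq_add_neg]

/-- One of `x + y`, `x - y` is anisotropic when `Q x + Q y ≠ 0`. -/
lemma add_or_sub (h2 : (2 : F) ≠ 0) {x y : ι → F} (h : Q x + Q y ≠ 0) :
    Q (x + y) ≠ 0 ∨ Q (x - y) ≠ 0 := by
  by_contra hc
  push Not at hc
  obtain ⟨h1, h3⟩ := hc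
  rw [map_sub'] at h3
  rw [QuadraticMap.map_add (⇑Q)] at h1
  exact h (mul_left_cancel₀ h2 (by linear_combination h1 + h3))

section Frames

variable (hQ : Nondeg Q) (h2 : (2 : F) ≠ 0)
include hQ h2

/-- An orthogonal family of anisotropic vectors that is too short has an extension. -/
lemma exists_orth {k : ℕ} (v : Fin k → ι → F) (hv : ∀ i, Q (v i) ≠ 0)
    (ho : ∀ i j, i ≠ j → polar Q (v i) (v j) = 0) (hk : k < Fintype.card ι) :
    ∃ e, (∀ i, polar Q e (v i) = 0) ∧ Q e ≠ 0 := by
  by_contra hc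
  push Not at hc
  have h := card_le_finrank_perpOf (Q := Q) v
  obtain ⟨⟨e, he⟩, he0⟩ := Module.finrank_pos_iff_exists_ne_zero.mp
    (show 0 < finrank F (perpOf Q v) by omega)
  apply he0
  refine Subtype.ext (hQ e fun x => ?_)
  set y := x - ∑ i, (polar Q x (v i) / polar Q (v i) (v i)) • v i with hy
  have hyv : y ∈ perpOf Q v := by
    rw [mem_perpOf]
    intro j
    have hjj : polar Q (v j) (v j) ≠ 0 := by rw [polar_self']; exact mul_ne_zero h2 (hv j)
    show pf Q (v j) y = 0
    rw [hy, map_sub, map_sum, Finset.sum_eq_single j]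
    · rw [map_smul, pf_apply, pf_apply, smul_eq_mul, div_mul_cancel₀ _ hjj, sub_self]
    · intro i _ hij
      rw [map_smul, pf_apply, ho i j hij, smul_zero]
    · simp
  have h0 : polar Q e y = 0 := by
    rw [QuadraticMap.polar, hc _ (mem_perpOf.mp ((perpOf Q v).add_mem he hyv)), hc _ (mem_perpOf.mp he),
      hc _ (mem_perpOf.mp hyv)]
    ring
  have hev : ∀ i, pf Q e (v i) = 0 := fun i => by
    rw [pf_apply, polar_comm]; exact mem_perpOf.mp he i
  have hsum : pf Q e (∑ i, (polar Q x (v i) / polar Q (v i) (v i)) • v i) = 0 := by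
    rw [map_sum]
    exact Finset.sum_eq_zero fun i _ => by rw [map_smul, hev, smul_zero]
  rw [polar_comm, ← pf_apply] at h0
  rw [polar_comm, ← pf_apply, show x = y + ∑ i, (polar Q x (v i) / polar Q (v i) (v i)) • v i by
    rw [hy, sub_add_cancel], map_add, h0, hsum, add_zero]

lemma exists_orth₁ {a : ι → F} (ha : Q a ≠ 0) (hn : 2 ≤ Fintype.card ι) :
    ∃ e, polar Q e a = 0 ∧ Q e ≠ 0 := by
  obtain ⟨e, he, hQe⟩ := exists_orth hQ h2 ![a] (fun i => by fin_cases i; exact ha)
    (fun i j h => absurd (Subsingleton.elim i j) h) (by omega)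
  exact ⟨e, he 0, hQe⟩

lemma exists_orth₂ {a b : ι → F} (ha : Q a ≠ 0) (hb : Q b ≠ 0) (hab : polar Q a b = 0)
    (hn : 3 ≤ Fintype.card ι) : ∃ e, polar Q e a = 0 ∧ polar Q e b = 0 ∧ Q e ≠ 0 := by
  have hba : polar Q b a = 0 := by rw [polar_comm]; exact hab
  obtain ⟨e, he, hQe⟩ := exists_orth hQ h2 ![a, b] (fun i => by fin_cases i <;> assumption)
    (fun i j h => by fin_cases i <;> fin_cases j <;> first | exact absurd rfl h | assumption) (by omega)
  exact ⟨e, he 0, he 1, hQe⟩

lemma exists_orth₃ {a b c : ι → F} (ha : Q a ≠ 0) (hb : Q b ≠ 0) (hc : Q c ≠ 0)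
    (hab : polar Q a b = 0) (hac : polar Q a c = 0) (hbc : polar Q b c = 0) (hn : 4 ≤ Fintype.card ι) :
    ∃ e, polar Q e a = 0 ∧ polar Q e b = 0 ∧ polar Q e c = 0 ∧ Q e ≠ 0 := by
  have hba : polar Q b a = 0 := by rw [polar_comm]; exact hab
  have hca : polar Q c a = 0 := by rw [polar_comm]; exact hac
  have hcb : polar Q c b = 0 := by rw [polar_comm]; exact hbc
  obtain ⟨e, he, hQe⟩ := exists_orth hQ h2 ![a, b, c] (fun i => by fin_cases i <;> assumption)
    (fun i j h => by fin_cases i <;> fin_cases j <;> first | exact absurd rfl h | assumption) (by omega)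
  exact ⟨e, he 0, he 1, he 2, hQe⟩

/-- Four orthogonal anisotropic vectors decide a functional in dimension four. -/
lemma eq_zero_of_four {v : Fin 4 → ι → F} (hv : ∀ i, Q (v i) ≠ 0)
    (ho : ∀ i j, i ≠ j → polar Q (v i) (v j) = 0) (hn : Fintype.card ι = 4)
    {φ : (ι → F) →ₗ[F] F} (hφ : ∀ i, φ (v i) = 0) : φ = 0 := by
  have hli : LinearIndependent F v := by
    rw [Fintype.linearIndependent_iff]
    intro g hg j
    have h := congrArg (pf Q (v j)) hg
    rw [map_zero, map_sum, Finset.sum_eq_single j (fun i _ hij => by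
      rw [map_smul, pf_apply, ho i j hij, smul_zero]) (by simp), map_smul, pf_apply, polar_self',
      smul_eq_mul] at h
    exact (mul_eq_zero.mp h).resolve_right (mul_ne_zero h2 (hv j))
  have hspan : Submodule.span F (Set.range v) = ⊤ := by
    refine Submodule.eq_top_of_finrank_eq ?_
    rw [finrank_span_eq_card hli, Fintype.card_fin, Module.finrank_fintype_fun_eq_card, hn]
  refine LinearMap.ext_on hspan ?_
  rintro _ ⟨i, rfl⟩
  exact hφ i

/-- A singular vector has a singular partner. -/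
lemma exists_partner {e : ι → F} (he : Q e = 0) (he0 : e ≠ 0) : ∃ f, Q f = 0 ∧ polar Q e f = 1 := by
  obtain ⟨p, hp⟩ : ∃ p, polar Q p e ≠ 0 := by
    by_contra h
    push Not at h
    exact he0 (hQ e fun y => by rw [polar_comm]; exact h y)
  obtain ⟨p', hp'⟩ : ∃ p', p' = (polar Q p e)⁻¹ • p := ⟨_, rfl⟩
  have h1 : polar Q p' e = 1 := by rw [hp', polar_smul_left, smul_eq_mul, inv_mul_cancel₀ hp]
  refine ⟨p' + (-Q p') • e, ?_, ?_⟩
  · rw [map_add_smul, he, h1]; ring
  · rw [polar_add_right, polar_smul_right, polar_comm Q e p', h1, polar_self', he, mul_zero, smul_zero,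
      add_zero]

/-- An anisotropic vector orthogonal to a hyperbolic pair and, if given, to one of its orthogonal vectors. -/
lemma exists_orth_pair {e f : ι → F} (he : Q e = 0) (hf : Q f = 0) (hef : polar Q e f = 1)
    (hn : 4 ≤ Fintype.card ι) :
    (∃ w, polar Q w e = 0 ∧ polar Q w f = 0 ∧ Q w ≠ 0) ∧
    (∀ z, Q z ≠ 0 → polar Q z e = 0 → polar Q z f = 0 →
      ∃ w, polar Q w z = 0 ∧ polar Q w e = 0 ∧ polar Q w f = 0 ∧ Q w ≠ 0) := by
  have hfe : polar Q f e = 1 := by rw [polar_comm]; exact hef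
  have hee : polar Q e e = 0 := by rw [polar_self', he, mul_zero]
  have hff : polar Q f f = 0 := by rw [polar_self', hf, mul_zero]
  have hp : Q (e + f) ≠ 0 := by
    rw [QuadraticMap.map_add (⇑Q), he, hf, hef]; simp
  have hm : Q (e - f) ≠ 0 := by
    rw [map_sub', he, hf, hef]; simp
  have hpm : polar Q (e + f) (e - f) = 0 := by
    rw [sub_eq_add_neg, polar_add_left, polar_add_right, polar_add_right, polar_neg_right,
      polar_neg_right, hee, hef, hfe, hff]
    ring
  have split : ∀ w, polar Q w (e + f) = 0 → polar Q w (e - f) = 0 → polar Q w e = 0 ∧ polar Q w f = 0 := by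
    intro w h1 h3
    rw [sub_eq_add_neg, polar_add_right, polar_neg_right] at h3
    rw [polar_add_right] at h1
    exact ⟨mul_left_cancel₀ h2 (by linear_combination h1 + h3),
      mul_left_cancel₀ h2 (by linear_combination h1 - h3)⟩
  refine ⟨?_, fun z hz hze hzf => ?_⟩
  · obtain ⟨w, h1, h3, hw⟩ := exists_orth₂ hQ h2 hp hm hpm (by omega)
    exact ⟨w, (split w h1 h3).1, (split w h1 h3).2, hw⟩
  · obtain ⟨w, h0, h1, h3, hw⟩ := exists_orth₃ hQ h2 hz hp hm
      (by rw [polar_add_right, hze, hzf, add_zero])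
      (by rw [sub_eq_add_neg, polar_add_right, polar_neg_right, hze, hzf, neg_zero, add_zero]) hpm hn
    exact ⟨w, h0, (split w h1 h3).1, (split w h1 h3).2, hw⟩

/-- Every value is taken orthogonally to a hyperbolic pair. -/
lemma exists_value_pair {e f : ι → F} (he : Q e = 0) (hf : Q f = 0) (hef : polar Q e f = 1)
    (hn : 4 ≤ Fintype.card ι) (t : F) : ∃ w, polar Q w e = 0 ∧ polar Q w f = 0 ∧ Q w = t := by
  obtain ⟨⟨w, hwe, hwf, hw⟩, hz⟩ := exists_orth_pair hQ h2 he hf hef hn
  obtain ⟨w', hw'w, hw'e, hw'f, hw'⟩ := hz w hw hwe hwf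
  obtain ⟨a, b, hab⟩ := exists_combination hw hw' h2 t
  refine ⟨a • w + b • w', ?_, ?_, ?_⟩
  · simp [polar_add_left, polar_smul_left, hwe, hw'e]
  · simp [polar_add_left, polar_smul_left, hwf, hw'f]
  · rw [map_add_smul, QuadraticMap.map_smul, polar_smul_left, polar_comm Q w w', hw'w, smul_eq_mul,
      smul_eq_mul]
    linear_combination hab

/-- An anisotropic vector orthogonal to a given singular one. -/
lemma exists_anis_perp {u : ι → F} (hu : Q u = 0) (hu0 : u ≠ 0) (hn : 4 ≤ Fintype.card ι) :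
    ∃ b, polar Q b u = 0 ∧ Q b ≠ 0 := by
  obtain ⟨f, hf, huf⟩ := exists_partner hQ h2 hu hu0
  obtain ⟨⟨w, hwe, -, hw⟩, -⟩ := exists_orth_pair hQ h2 hu hf huf hn
  exact ⟨w, hwe, hw⟩

/-- A map keeping singular vectors singular is a similarity. -/
theorem similarity_of_singular (hn : 4 ≤ Fintype.card ι) {g : GL ι F}
    (hg : ∀ v, Q v = 0 → Q (ap g v) = 0) : ∃ c : Fˣ, ∀ v, Q (ap g v) = (c : F) * Q v := by
  obtain ⟨e, -, he0, he⟩ := exists_singular_third (Q := Q) h2 (k := 0) ![] (by omega)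
  obtain ⟨f, hf, hef⟩ := exists_partner hQ h2 he he0
  have hfe : polar Q f e = 1 := by rw [polar_comm]; exact hef
  have hee : polar Q e e = 0 := by rw [polar_self', he, mul_zero]
  have hff : polar Q f f = 0 := by rw [polar_self', hf, mul_zero]
  let R : (ι → F) → F := fun x => Q (ap g x)
  let βe : (ι → F) → F := fun w => polar Q (ap g w) (ap g e)
  let βf : (ι → F) → F := fun w => polar Q (ap g w) (ap g f)
  obtain ⟨c, hc⟩ : ∃ c, c = polar Q (ap g e) (ap g f) := ⟨_, rfl⟩
  have hval : ∀ w t s, R (w + t • e + s • f) = R w + t * βe w + s * βf w + t * s * c := by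
    intro w t s
    simp only [R, βe, βf, ap_add, ap_smul]
    rw [map_add_smul, map_add_smul, hg e he, hg f hf, polar_add_left, polar_smul_left, ← hc, smul_eq_mul]
    ring
  have hzero : ∀ w, polar Q w e = 0 → polar Q w f = 0 → ∀ t s, Q w + t * s = 0 →
      R w + t * βe w + s * βf w + t * s * c = 0 := by
    intro w hwe hwf t s hts
    rw [← hval]
    apply hg
    rw [map_add_smul, map_add_smul, he, hf, polar_add_left, polar_smul_left, hwe, hwf, hef, smul_eq_mul]
    linear_combination hts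
  have hW : ∀ w, polar Q w e = 0 → polar Q w f = 0 → R w = c * Q w ∧ βe w = Q w * βf w := by
    intro w hwe hwf
    have h1 := hzero w hwe hwf 1 (-Q w) (by ring)
    have h3 := hzero w hwe hwf (-1) (Q w) (by ring)
    constructor
    · exact mul_left_cancel₀ h2 (by linear_combination h1 + h3)
    · exact mul_left_cancel₀ h2 (by linear_combination h1 - h3)
  have haniso : ∀ w, polar Q w e = 0 → polar Q w f = 0 → Q w ≠ 0 → βf w = 0 := by
    intro w hwe hwf hQw
    obtain ⟨w', hw'w, hw'e, hw'f, hQw'⟩ := (exists_orth_pair hQ h2 he hf hef hn).2 w hQw hwe hwf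
    have hww' : polar Q w w' = 0 := by rw [polar_comm]; exact hw'w
    have e1 := (hW w hwe hwf).2
    have e2 := (hW w' hw'e hw'f).2
    have e3 := (hW (w + (1 : F) • w') (by simp [polar_add_left, hwe, hw'e])
      (by simp [polar_add_left, hwf, hw'f])).2
    have e4 := (hW (w + (-1 : F) • w') (by simp [polar_add_left, polar_smul_left, hwe, hw'e])
      (by simp [polar_add_left, polar_smul_left, hwf, hw'f])).2
    simp only [βe, βf, ap_add, ap_smul, polar_add_left, polar_smul_left, map_add_smul, hww',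
      smul_eq_mul] at e1 e2 e3 e4 ⊢
    have key : Q w' * polar Q (ap g w) (ap g f) * (2 : F) = 0 := by
      linear_combination 2 * e1 - e3 - e4
    rw [mul_eq_zero, or_iff_left h2, mul_eq_zero, or_iff_right hQw'] at key
    exact key
  have hβ : ∀ w, polar Q w e = 0 → polar Q w f = 0 → βe w = 0 ∧ βf w = 0 := by
    intro w hwe hwf
    have hf0 : βf w = 0 := by
      by_cases hQw : Q w = 0
      swap
      · exact haniso w hwe hwf hQw
      obtain ⟨⟨b, hbe, hbf, hb⟩, -⟩ := exists_orth_pair hQ h2 he hf hef hn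
      have hb0 := haniso b hbe hbf hb
      rcases add_or_sub h2 (x := w) (y := b) (by rwa [hQw, zero_add]) with h | h
      · have := haniso (w + b) (by simp [polar_add_left, hwe, hbe]) (by simp [polar_add_left, hwf, hbf]) h
        simp only [βf, ap_add, polar_add_left] at this hb0 ⊢
        rwa [hb0, add_zero] at this
      · have := haniso (w - b) (by simp [sub_eq_add_neg, polar_add_left, polar_neg_left, hwe, hbe])
          (by simp [sub_eq_add_neg, polar_add_left, polar_neg_left, hwf, hbf]) h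
        simp only [βf] at this hb0 ⊢
        rw [ap_sub, sub_eq_add_neg, polar_add_left, polar_neg_left, hb0, neg_zero, add_zero] at this
        exact this
    exact ⟨by rw [(hW w hwe hwf).2, hf0, mul_zero], hf0⟩
  have hall : ∀ x, R x = c * Q x := by
    intro x
    set w := x - polar Q x f • e - polar Q x e • f with hw
    have hwe : polar Q w e = 0 := by
      simp [hw, sub_eq_add_neg, polar_add_left, polar_neg_left, polar_smul_left, hee, hfe]
    have hwf : polar Q w f = 0 := by
      simp [hw, sub_eq_add_neg, polar_add_left, polar_neg_left, polar_smul_left, hff, hef]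
    have hx : x = w + polar Q x f • e + polar Q x e • f := by rw [hw]; abel
    conv_lhs => rw [hx]
    conv_rhs => rw [hx]
    rw [hval, (hβ w hwe hwf).1, (hβ w hwe hwf).2, (hW w hwe hwf).1, map_add_smul, map_add_smul, he, hf,
      polar_add_left, polar_smul_left, hwe, hwf, hef, smul_eq_mul]
    ring
  have hc0 : c ≠ 0 := by
    intro h
    obtain ⟨a, ha, hQa⟩ := exists_anis_perp hQ h2 he he0 hn
    apply hQa
    have := hall (ap g⁻¹ a)
    simp only [R, ap_ap_inv, h, zero_mul] at this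
    exact this
  exact ⟨Units.mk0 c hc0, fun v => hall v⟩

end Frames

section Main

variable (hQ : Nondeg Q) (h2 : (2 : F) ≠ 0) (hn : Fintype.card ι = 4)
variable {X : Subgroup (GL ι F)}
  (hX : ∀ g ∈ Cfsg.Geo.specialLinear ι F, (∃ c : Fˣ, ∀ v, Q (ap g v) = (c : F) * Q v) → g ∈ X)
include hQ h2 hn hX

lemma rf_mul_mem {a b : ι → F} (ha : Q a ≠ 0) (hb : Q b ≠ 0) : rf Q a ha * rf Q b hb ∈ X :=
  hX _ ((mem_specialLinear_iff _).mpr (by rw [Units.val_mul, Matrix.det_mul, det_rf, det_rf]; ring))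
    ⟨1, fun v => by rw [Units.val_one, one_mul, ap_mul, iso_rf, iso_rf]⟩

lemma iso_sg {u w : ι → F} (hu : Q u = 0) (hw : polar Q u w = 0) (x : ι → F) :
    Q (ap (sg Q u w hu hw) x) = Q x :=
  mem_isometryGroup_iff.mp (orthToGL_mem _) x

lemma sg_memX_of_anis {u w : ι → F} (hu : Q u = 0) (hw : polar Q u w = 0) (hQw : Q w ≠ 0) :
    sg Q u w hu hw ∈ X := by
  have hwu : polar Q w u = 0 := by rw [polar_comm]; exact hw
  have hQ' : Q (w + Q w • u) = Q w := by rw [map_add_smul, hu, hwu]; ring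
  have hne : Q (w + Q w • u) ≠ 0 := by rw [hQ']; exact hQw
  convert rf_mul_mem hQ h2 hn hX hQw hne using 1
  refine gl_ext fun x => ?_
  rw [ap_sg, ap_mul, ap_rf, ap_rf, hQ', sub_eq_add_neg x, polar_add_left, polar_neg_left, polar_smul_left,
    polar_add_left, polar_smul_left, polar_self', polar_comm Q u w, hwu, polar_add_right, polar_smul_right]
  simp only [smul_eq_mul]
  match_scalars <;> field_simp <;> ring

lemma sg_memX {u w : ι → F} (hu : Q u = 0) (hw : polar Q u w = 0) : sg Q u w hu hw ∈ X := by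
  by_cases hu0 : u = 0
  · convert one_mem X
    refine gl_ext fun x => ?_
    subst hu0
    simp [ap_sg]
  by_cases hQw : Q w = 0
  swap
  · exact sg_memX_of_anis hQ h2 hn hX hu hw hQw
  have key : ∀ b, polar Q u b = 0 → Q b ≠ 0 → Q (w - b) ≠ 0 → sg Q u w hu hw ∈ X := by
    intro b hb hQb hne
    have h1 : polar Q u (w - b) = 0 := by rw [sub_eq_add_neg, polar_add_right, polar_neg_right, hw, hb, neg_zero, add_zero]
    convert mul_mem (sg_memX_of_anis hQ h2 hn hX hu h1 hne) (sg_memX_of_anis hQ h2 hn hX hu hb hQb) using 1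
    refine gl_ext fun x => ?_
    have huu : polar Q u u = 0 := by rw [polar_self', hu, mul_zero]
    have hwb : Q (w - b) = Q b - polar Q w b := by rw [map_sub', hQw, zero_add]
    simp only [ap_mul, ap_sg]
    rw [hwb]
    simp only [sub_eq_add_neg, polar_add_left, polar_add_right, polar_neg_left,
      polar_neg_right, polar_smul_left, huu, hw, hb, polar_comm Q b u, polar_comm Q b w, hQw, polar_self',
      smul_eq_mul]
    match_scalars <;> ring
  obtain ⟨b, hbu, hQb⟩ := exists_anis_perp hQ h2 hu hu0 (by omega)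
  have hub : polar Q u b = 0 := by rw [polar_comm]; exact hbu
  rcases add_or_sub h2 (x := w) (y := b) (by rwa [hQw, zero_add]) with h | h
  · refine key (-b) (by rw [polar_neg_right, hub, neg_zero]) (by rwa [QuadraticMap.map_neg]) ?_
    rwa [sub_neg_eq_add]
  · exact key b hub hQb h

lemma sz_conj {z c : ι → F} (h : Sz Q X z c) {g : GL ι F} (hg : g ∈ X)
    (hiso : ∀ x, Q (ap g x) = Q x) : Sz Q X (ap g z) (ap g c) := by
  intro h0
  have hgi : g ∈ Cfsg.isometryGroup F (⇑Q) := mem_isometryGroup_iff.mpr hiso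
  have hc : polar Q c z = 0 := by rw [← polar_ap hgi]; exact h0
  have hc1 : pf Q z c = 0 := hc
  convert mul_mem (mul_mem hg (h hc1)) (inv_mem hg) using 1
  rw [conj_tv]
  congr 1
  refine LinearMap.ext fun x => ?_
  simp only [LinearMap.comp_apply, LinearEquiv.coe_coe, apEquiv_apply, pf_apply]
  rw [← polar_ap hgi (ap g⁻¹ x) z, ap_ap_inv]

lemma sz_add {z c c' : ι → F} (h : Sz Q X z c) (h' : Sz Q X z c') (hc : polar Q c z = 0)
    (hc' : polar Q c' z = 0) : Sz Q X z (c + c') := by
  intro h0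
  have hc1 : pf Q z c = 0 := hc
  have hc2 : pf Q z c' = 0 := hc'
  convert mul_mem (h hc1) (h' hc2) using 1
  rw [tv_add_left]

lemma sz_neg {z c : ι → F} (h : Sz Q X z c) (hc : polar Q c z = 0) : Sz Q X z (-c) := by
  intro h0
  have hc1 : pf Q z c = 0 := hc
  convert inv_mem (h hc1) using 1
  rw [tv_inv]
  exact gl_ext fun x => by simp

lemma sz_sub {z c c' : ι → F} (h : Sz Q X z c) (h' : Sz Q X z c') (hc : polar Q c z = 0)
    (hc' : polar Q c' z = 0) : Sz Q X z (c - c') := by
  rw [sub_eq_add_neg]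
  exact sz_add hQ h2 hn hX h (sz_neg hQ h2 hn hX h' hc') hc (by rw [polar_neg_left, hc', neg_zero])

lemma sz_add_right {z z' c : ι → F} (h : Sz Q X z c) (h' : Sz Q X z' c) (hc : polar Q c z = 0)
    (hc' : polar Q c z' = 0) : Sz Q X (z + z') c := by
  intro h0
  have hc1 : pf Q z c = 0 := hc
  have hc2 : pf Q z' c = 0 := hc'
  convert mul_mem (h hc1) (h' hc2) using 1
  rw [tv_add]
  refine gl_ext fun x => ?_
  simp [polar_add_right]

lemma sz_zero (z : ι → F) : Sz Q X z 0 := by
  intro h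
  rw [show tv (0 : ι → F) (pf Q z) h = 1 from gl_ext fun x => by simp]
  exact one_mem X

/-- Some element of `X` fixes `v` and is the transvection of centre `c` and functional `φ` modulo `v`. -/
def Mov (X : Subgroup (GL ι F)) (v c : ι → F) (φ : (ι → F) →ₗ[F] F) : Prop :=
  ∃ h ∈ X, ap h v = v ∧ ∃ θ : (ι → F) →ₗ[F] F, ∀ x, ap h x = x + φ x • c + θ x • v

omit hQ h2 hn hX in
lemma Mov.smul {v c : ι → F} {φ : (ι → F) →ₗ[F] F} {a : F} (h : Mov X v (a • c) φ) : Mov X v c (a • φ) := by
  obtain ⟨k, hk, hkv, θ, hθ⟩ := h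
  exact ⟨k, hk, hkv, θ, fun x => by rw [hθ, LinearMap.smul_apply, smul_eq_mul, smul_smul, mul_comm]⟩

omit hQ h2 hn hX in
/-- The functionals whose transvections all occur modulo `v` are closed under sums. -/
lemma Mov.add {v : ι → F} {φ ψ : (ι → F) →ₗ[F] F} (hφv : φ v = 0)
    (hφ : ∀ c, φ c = 0 → Mov X v c φ) (hψ : ∀ c, ψ c = 0 → Mov X v c ψ)
    {e : ι → F} (heψ : ψ e = 0) (heφ : φ e = -1) (c : ι → F) (hc : (φ + ψ) c = 0) :
    Mov X v c (φ + ψ) := by
  obtain ⟨h, hh, hhv, θ, hθ⟩ := hψ e heψ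
  obtain ⟨k, hk, hkv, η, hη⟩ := hφ (c - ψ c • e) (by
    rw [map_sub, map_smul, heφ, smul_eq_mul]
    rw [LinearMap.add_apply] at hc
    linear_combination hc)
  refine ⟨h * k * h⁻¹, mul_mem (mul_mem hh hk) (inv_mem hh), ?_, ?_⟩
  · rw [ap_mul, ap_mul, ← hhv, ap_inv_ap, hkv]
  refine ⟨η.comp (apEquiv h⁻¹).toLinearMap + θ (c - ψ c • e) • (φ + ψ), fun y => ?_⟩
  obtain ⟨x, rfl⟩ : ∃ x, ap h x = y := ⟨ap h⁻¹ y, ap_ap_inv h y⟩
  have hval : φ (ap h x) + ψ (ap h x) = φ x := by
    rw [hθ]
    simp only [map_add, map_smul, heψ, heφ, smul_eq_mul, hφv]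
    have hψv : ψ v = 0 ∨ θ x = 0 := by
      by_cases h0 : ψ v = 0
      · exact Or.inl h0
      · exfalso
        have h1 := congrArg ψ (hθ v)
        rw [hhv, map_add, map_add, map_smul, map_smul, heψ] at h1
        have h3 : θ v = 0 := by
          simp only [smul_eq_mul, mul_zero, add_zero, left_eq_add, mul_eq_zero, h0, or_false] at h1
          exact h1
        have h4 := hθ v
        rw [hhv, h3, zero_smul, add_zero, left_eq_add, smul_eq_zero, or_iff_right h0] at h4
        rw [h4, map_zero] at heφ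
        simp at heφ
    rcases hψv with h0 | h0 <;> rw [h0] <;> ring
  rw [ap_mul, ap_mul, ap_inv_ap, hη, ap_add, ap_add, ap_smul, ap_smul, hhv, hθ (c - ψ c • e)]
  simp only [LinearMap.add_apply, LinearMap.smul_apply, LinearMap.comp_apply, LinearEquiv.coe_coe,
    apEquiv_apply, ap_inv_ap, smul_eq_mul, hval, map_sub, map_smul, heψ, mul_zero, sub_zero]
  module

/-- A singular vector moved to an anisotropic one gives a transvection. -/
theorem exists_tv {g : GL ι F} (hgX : g ∈ X) {u : ι → F} (hu : Q u = 0) (hgu : Q (ap g u) ≠ 0) :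
    ∃ z c, z ≠ 0 ∧ c ≠ 0 ∧ polar Q c z = 0 ∧ Sz Q X z c := by
  obtain ⟨v, hv⟩ : ∃ v, v = ap g u := ⟨_, rfl⟩
  rw [← hv] at hgu
  have hv0 : v ≠ 0 := fun h => hgu (by rw [h, QuadraticMap.map_zero])
  by_contra hno
  push Not at hno
  have hpfsurj : ∀ φ : (ι → F) →ₗ[F] F, ∃ y, pf Q y = φ := by
    let ψ : (ι → F) →ₗ[F] Module.Dual F (ι → F) :=
      { toFun := fun w => pf Q w
        map_add' := fun a b => LinearMap.ext fun x => by simp [polar_add_right]
        map_smul' := fun c a => LinearMap.ext fun x => by simp [polar_smul_right] }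
    have hψ : Function.Injective ψ := by
      rw [injective_iff_map_eq_zero]
      intro w hw
      refine hQ _ fun y => ?_
      rw [polar_comm]
      exact LinearMap.congr_fun hw y
    exact (LinearMap.injective_iff_surjective_of_finrank_eq_finrank
      Subspace.dual_finrank_eq.symm).1 hψ
  have hnoT : ∀ (c : ι → F) (φ : (ι → F) →ₗ[F] F) (h : φ c = 0), tv c φ h ∈ X → φ ≠ 0 → c ≠ 0 → False := by
    intro c φ h hm hφ hc
    obtain ⟨y, rfl⟩ := hpfsurj φ
    refine hno y c (fun h0 => hφ ?_) hc h (fun _ => hm)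
    subst h0
    exact LinearMap.ext fun x => by simp
  -- elements fixing `v` are determined modulo `v`
  have uniq : ∀ n₁ ∈ X, ∀ n₂ ∈ X, ap n₁ v = v → ap n₂ v = v → ∀ δ : (ι → F) →ₗ[F] F,
      (∀ x, ap n₁ x = ap n₂ x + δ x • v) → δ = 0 := by
    intro n₁ h₁ n₂ h₂ hv₁ hv₂ δ hδ
    by_contra hne
    have h0 : δ v = 0 := by
      have := hδ v
      rw [hv₁, hv₂, left_eq_add, smul_eq_zero, or_iff_left hv0] at this
      exact this
    have hinv : ap n₂⁻¹ v = v := by
      conv_lhs => rw [← hv₂]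
      exact ap_inv_ap n₂ v
    refine hnoT v δ h0 ?_ hne hv0
    convert mul_mem (inv_mem h₂) h₁ using 1
    refine gl_ext fun x => ?_
    rw [ap_mul, hδ, ap_add, ap_smul, ap_inv_ap, hinv, ap_tv]
  -- the functionals giving every transvection modulo `v`
  let Ψ : Set (ι → F) := {y | polar Q v y = 0 ∧ ∀ c, polar Q c y = 0 → Mov X v c (pf Q y)}
  have hsmul : ∀ a : F, ∀ y ∈ Ψ, a • y ∈ Ψ := by
    rintro a y ⟨hy, hm⟩
    refine ⟨by rw [polar_smul_right, hy, smul_zero], fun c hc => ?_⟩
    have e : pf Q (a • y) = a • pf Q y := LinearMap.ext fun x => by simp [polar_smul_right]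
    rw [e]
    by_cases ha : a = 0
    · exact ⟨1, one_mem X, ap_one v, 0, fun x => by simp [ha]⟩
    refine Mov.smul (hm (a • c) ?_)
    rw [polar_smul_left]
    rwa [polar_smul_right] at hc
  have hadd : ∀ y₁ ∈ Ψ, ∀ y₂ ∈ Ψ, y₁ + y₂ ∈ Ψ := by
    intro y₁ h₁ y₂ h₂
    by_cases hdep : y₂ ∈ Submodule.span F {y₁}
    · obtain ⟨a, rfl⟩ := Submodule.mem_span_singleton.mp hdep
      rw [show y₁ + a • y₁ = (1 + a) • y₁ by rw [add_smul, one_smul]]
      exact hsmul _ _ h₁
    by_cases hy₁ : y₁ = 0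
    · rw [hy₁, zero_add]; exact h₂
    have hli : LinearIndependent F ![y₁, y₂] := (LinearIndependent.pair_iff' hy₁).mpr fun a ha =>
      hdep (Submodule.mem_span_singleton.mpr ⟨a, ha⟩)
    obtain ⟨e, he1, he2⟩ := exists_pairings hQ hli (-1) 0
    refine ⟨by rw [polar_add_right, h₁.1, h₂.1, add_zero], fun c hc => ?_⟩
    have e' : pf Q (y₁ + y₂) = pf Q y₁ + pf Q y₂ := LinearMap.ext fun x => by simp [polar_add_right]
    rw [e']
    exact Mov.add h₁.1 h₁.2 h₂.2 he2 he1 c (by rw [← e']; exact hc)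
  -- a first functional
  obtain ⟨y₀, hy₀0, hy₀⟩ : ∃ y₀, y₀ ≠ 0 ∧ y₀ ∈ Ψ := by
    have hu0 : u ≠ 0 := fun h => hv0 (by rw [hv, h, ap_zero])
    obtain ⟨y₀, hy₀⟩ := hpfsurj ((pf Q u).comp (apEquiv g⁻¹).toLinearMap)
    have hy₀' : ∀ x, polar Q x y₀ = polar Q (ap g⁻¹ x) u := fun x => by
      rw [← pf_apply, hy₀]; rfl
    refine ⟨y₀, fun h => hu0 (hQ u fun x => ?_), ?_, fun c hc => ?_⟩
    · have := hy₀' (ap g x)
      rw [h, polar_zero_right, ap_inv_ap] at this
      rw [polar_comm]; exact this.symm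
    · rw [hy₀', hv, ap_inv_ap, polar_self', hu, mul_zero]
    · have hw : polar Q u (ap g⁻¹ c) = 0 := by rw [polar_comm, ← hy₀']; exact hc
      have huu : polar Q u u = 0 := by rw [polar_self', hu, mul_zero]
      refine ⟨g * sg Q u (ap g⁻¹ c) hu hw * g⁻¹,
        mul_mem (mul_mem hgX (sg_memX hQ h2 hn hX hu hw)) (inv_mem hgX), ?_, ?_⟩
      · rw [hv, ap_mul, ap_mul, ap_inv_ap, ap_sg, huu, hw]
        simp
      refine ⟨-((pf Q (ap g⁻¹ c)).comp (apEquiv g⁻¹).toLinearMap + Q (ap g⁻¹ c) •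
        (pf Q u).comp (apEquiv g⁻¹).toLinearMap), fun x => ?_⟩
      rw [ap_mul, ap_mul, ap_sg, ap_sub, ap_add, ap_smul, ap_smul, ap_ap_inv, ap_ap_inv, ← hv, pf_apply,
        hy₀']
      simp [LinearMap.neg_apply, LinearMap.add_apply, LinearMap.smul_apply]
      module
  -- anisotropic vectors orthogonal to `v` met by a member
  have hrefl : ∀ y ∈ Ψ, ∀ a (ha : Q a ≠ 0), polar Q a v = 0 → polar Q y a ≠ 0 → a ∈ Ψ := by
    intro y hy a ha hav hya
    obtain ⟨m, hm⟩ : ∃ m, m = rf Q a ha * rf Q v hgu := ⟨_, rfl⟩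
    have hmX : m ∈ X := hm ▸ rf_mul_mem hQ h2 hn hX ha hgu
    have hmi : m ∈ Cfsg.isometryGroup F (⇑Q) := mem_isometryGroup_iff.mpr fun x => by
      rw [hm, ap_mul, iso_rf, iso_rf]
    have hvv : polar Q v v = 2 * Q v := polar_self' v
    have hmv : ap m v = -v := by
      rw [hm, ap_mul, ap_rf hgu, hvv, show (Q v)⁻¹ * (2 * Q v) = 2 by field_simp,
        show v - (2 : F) • v = (-1 : F) • v by module, ap_smul, ap_rf ha, polar_comm Q v a, hav, mul_zero,
        zero_smul, sub_zero, neg_one_smul]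
    have hmy : ap m y = y - ((Q a)⁻¹ * polar Q y a) • a := by
      rw [hm, ap_mul, ap_rf hgu, polar_comm Q y v, hy.1, mul_zero, zero_smul, sub_zero, ap_rf ha]
    have hmyΨ : ap m y ∈ Ψ := by
      refine ⟨?_, fun c hc => ?_⟩
      · have := polar_ap hmi v y
        rw [hmv, polar_neg_left, hy.1, neg_eq_zero] at this
        exact this
      · have hiv : ap m⁻¹ v = -v := by
          have := ap_inv_ap m v
          rw [hmv, ← neg_one_smul F v, ap_smul, neg_one_smul] at this
          exact neg_eq_iff_eq_neg.mp this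
        obtain ⟨k, hk, hkv, θ, hθ⟩ := hy.2 (ap m⁻¹ c) (by
          rw [← polar_ap hmi, ap_ap_inv]; exact hc)
        refine ⟨m * k * m⁻¹, mul_mem (mul_mem hmX hk) (inv_mem hmX), ?_,
          -(θ.comp (apEquiv m⁻¹).toLinearMap), fun x => ?_⟩
        · have hkn : ap k (-v) = -v := by rw [← neg_one_smul F v, ap_smul, hkv]
          rw [ap_mul, ap_mul, hiv, hkn, ← hiv, ap_ap_inv]
        · rw [ap_mul, ap_mul, hθ, ap_add, ap_add, ap_smul, ap_smul, ap_ap_inv, ap_ap_inv, hmv, pf_apply,
            pf_apply, ← polar_ap hmi (ap m⁻¹ x) y, ap_ap_inv]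
          simp
    have hmem := hadd _ hy _ (hsmul (-1) _ hmyΨ)
    rw [hmy, show y + (-1 : F) • (y - ((Q a)⁻¹ * polar Q y a) • a) = ((Q a)⁻¹ * polar Q y a) • a by module]
      at hmem
    have := hsmul ((Q a)⁻¹ * polar Q y a)⁻¹ _ hmem
    rwa [smul_smul, inv_mul_cancel₀ (mul_ne_zero (inv_ne_zero ha) hya), one_smul] at this
  -- two orthogonal anisotropic members
  have hvy₀ : polar Q y₀ v = 0 := by rw [polar_comm]; exact hy₀.1
  obtain ⟨a, ha, hav, hy₀a⟩ : ∃ a, Q a ≠ 0 ∧ polar Q a v = 0 ∧ polar Q y₀ a ≠ 0 := by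
    by_cases hQy : Q y₀ = 0
    swap
    · exact ⟨y₀, hQy, hvy₀, by rw [polar_self']; exact mul_ne_zero h2 hQy⟩
    obtain ⟨p, hp⟩ : ∃ p, polar Q y₀ p ≠ 0 := by
      by_contra h
      push Not at h
      exact hy₀0 (hQ y₀ h)
    set w := p - ((2 * Q v)⁻¹ * polar Q p v) • v with hwdef
    have hwv : polar Q w v = 0 := by
      rw [hwdef, sub_eq_add_neg, polar_add_left, polar_neg_left, polar_smul_left, polar_self', smul_eq_mul]
      field_simp
      ring
    have hyw : polar Q y₀ w ≠ 0 := by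
      rwa [hwdef, sub_eq_add_neg, polar_add_right, polar_neg_right, polar_smul_right, hvy₀, smul_zero,
        neg_zero, add_zero]
    by_cases hQw : Q w = 0
    swap
    · exact ⟨w, hQw, hwv, hyw⟩
    refine ⟨y₀ + w, ?_, ?_, ?_⟩
    · rw [QuadraticMap.map_add (⇑Q), hQy, hQw, zero_add, zero_add]; exact hyw
    · rw [polar_add_left, hvy₀, hwv, add_zero]
    · rw [polar_add_right, polar_self', hQy, mul_zero, zero_add]; exact hyw
  have haΨ := hrefl y₀ hy₀ a ha hav hy₀a
  have hva : polar Q v a = 0 := by rw [polar_comm]; exact hav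
  obtain ⟨b, hb, hbv, hba, hQab⟩ : ∃ b, Q b ≠ 0 ∧ polar Q b v = 0 ∧ polar Q b a = 0 ∧ Q a + Q b ≠ 0 := by
    obtain ⟨b, hbv, hba, hb⟩ := exists_orth₂ hQ h2 hgu ha hva (by omega)
    by_cases h : Q a + Q b ≠ 0
    · exact ⟨b, hb, hbv, hba, h⟩
    obtain ⟨c, hcv, hca, hcb, hc⟩ := exists_orth₃ hQ h2 hgu ha hb hva (by rw [polar_comm]; exact hbv)
      (by rw [polar_comm]; exact hba) (by omega)
    push Not at h
    by_cases h' : Q a + Q c ≠ 0
    · exact ⟨c, hc, hcv, hca, h'⟩
    push Not at h'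
    have hbc : Q (b + c) = Q b + Q c := by
      rw [QuadraticMap.map_add (⇑Q), polar_comm Q b c, hcb, add_zero]
    refine ⟨b + c, ?_, by rw [polar_add_left, hbv, hcv, add_zero],
      by rw [polar_add_left, hba, hca, add_zero], ?_⟩
    · rw [hbc]
      intro h0
      exact ha (mul_left_cancel₀ h2 (by linear_combination h + h' - h0))
    · rw [hbc]
      intro h0
      exact hc (by linear_combination h0 - h)
  have hbΨ : b ∈ Ψ := by
    have hQd : Q (a + b) ≠ 0 := by rwa [QuadraticMap.map_add (⇑Q), polar_comm Q a b, hba, add_zero]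
    have h := hrefl a haΨ (a + b) hQd (by rw [polar_add_left, hav, hbv, add_zero])
      (by rw [polar_add_right, polar_self', polar_comm Q a b, hba, add_zero]; exact mul_ne_zero h2 ha)
    have := hadd _ h _ (hsmul (-1) _ haΨ)
    rwa [show a + b + (-1 : F) • a = b by module] at this
  have hab : polar Q a b = 0 := by rw [polar_comm]; exact hba
  have hvb : polar Q v b = 0 := by rw [polar_comm]; exact hbv
  obtain ⟨c, hcv, hca, hcb, hc⟩ := exists_orth₃ hQ h2 hgu ha hb hva hvb hab (by omega)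
  have hvc : polar Q v c = 0 := by rw [polar_comm]; exact hcv
  have hac : polar Q a c = 0 := by rw [polar_comm]; exact hca
  have hbc : polar Q b c = 0 := by rw [polar_comm]; exact hcb
  -- the coordinates at `a` and `b`
  obtain ⟨α, hα⟩ : ∃ α, α = pf Q ((2 * Q a)⁻¹ • a) := ⟨_, rfl⟩
  obtain ⟨β, hβ⟩ : ∃ β, β = pf Q ((2 * Q b)⁻¹ • b) := ⟨_, rfl⟩
  have αv : α v = 0 := by simp [hα, polar_smul_right, hva]
  have αa : α a = 1 := by
    simp [hα, polar_smul_right, polar_self']
    field_simp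
  have αb : α b = 0 := by simp [hα, polar_smul_right, hba]
  have αc : α c = 0 := by simp [hα, polar_smul_right, hca]
  have βv : β v = 0 := by simp [hβ, polar_smul_right, hvb]
  have βa : β a = 0 := by simp [hβ, polar_smul_right, hab]
  have βb : β b = 1 := by
    simp [hβ, polar_smul_right, polar_self']
    field_simp
  have βc : β c = 0 := by simp [hβ, polar_smul_right, hcb]
  obtain ⟨h₁, h₁X, h₁v, θ₁, hθ₁⟩ : Mov X v b α := hα ▸ (hsmul _ _ haΨ).2 b (by simp [polar_smul_right, hba])
  obtain ⟨h₂, h₂X, h₂v, θ₂, hθ₂⟩ : Mov X v c α := hα ▸ (hsmul _ _ haΨ).2 c (by simp [polar_smul_right, hca])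
  obtain ⟨h₃, h₃X, h₃v, θ₃, hθ₃⟩ : Mov X v c β := hβ ▸ (hsmul _ _ hbΨ).2 c (by simp [polar_smul_right, hcb])
  have θ₁v : θ₁ v = 0 := by
    have := hθ₁ v
    rwa [h₁v, αv, zero_smul, add_zero, left_eq_add, smul_eq_zero, or_iff_left hv0] at this
  have θ₂v : θ₂ v = 0 := by
    have := hθ₂ v
    rwa [h₂v, αv, zero_smul, add_zero, left_eq_add, smul_eq_zero, or_iff_left hv0] at this
  -- a half turn fixing `v` and commuting with the transvection modulo `v` fixes the functional
  have hturn : ∀ (p q : ι → F) (hp : Q p ≠ 0) (hq : Q q ≠ 0) (e₁ : ι → F) (φ θ : (ι → F) →ₗ[F] F) (h : GL ι F),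
      h ∈ X → ap h v = v → (∀ x, ap h x = x + φ x • e₁ + θ x • v) →
      polar Q v p = 0 → polar Q v q = 0 →
      (∀ x, φ (ap (rf Q p hp * rf Q q hq) x) • e₁ = φ x • ap (rf Q p hp * rf Q q hq) e₁) →
      ∀ x, θ (ap (rf Q p hp * rf Q q hq) x) = θ x := by
    intro p q hp hq e₁ φ θ h hh hhv hθ hvp hvq hcomm x
    obtain ⟨m, hm⟩ : ∃ m, m = rf Q p hp * rf Q q hq := ⟨_, rfl⟩
    rw [← hm] at hcomm ⊢
    have hmX : m ∈ X := hm ▸ rf_mul_mem hQ h2 hn hX hp hq
    have hmv : ap m v = v := by
      rw [hm, ap_mul, ap_rf hq, hvq, mul_zero, zero_smul, sub_zero, ap_rf hp, hvp, mul_zero, zero_smul, sub_zero]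
    have := uniq (h * m) (mul_mem hh hmX) (m * h) (mul_mem hmX hh) (by rw [ap_mul, hmv, hhv])
      (by rw [ap_mul, hhv, hmv]) (θ.comp (apEquiv m).toLinearMap - θ) (fun y => by
        rw [ap_mul, ap_mul, hθ, hθ y, ap_add, ap_add, ap_smul, ap_smul, hmv, hcomm y]
        simp only [LinearMap.sub_apply, LinearMap.comp_apply, LinearEquiv.coe_coe, apEquiv_apply, sub_smul]
        abel)
    exact sub_eq_zero.mp (LinearMap.congr_fun this x)
  -- turns at `{p, q}` negate `p` and `q`
  have neg_turn : ∀ (p q : ι → F) (hp : Q p ≠ 0) (hq : Q q ≠ 0), polar Q p q = 0 →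
      ap (rf Q p hp * rf Q q hq) p = -p ∧ ap (rf Q p hp * rf Q q hq) q = -q := by
    intro p q hp hq hpq
    constructor
    · rw [ap_mul, ap_rf hq, hpq, mul_zero, zero_smul, sub_zero, ap_rf hp, polar_self',
        show (Q p)⁻¹ * (2 * Q p) = 2 by field_simp]
      module
    · rw [ap_mul, ap_rf hq, polar_self', show (Q q)⁻¹ * (2 * Q q) = 2 by field_simp,
        show q - (2 : F) • q = (-1 : F) • q by module, ap_smul, ap_rf hp, polar_comm Q q p, hpq, mul_zero,
        zero_smul, sub_zero, neg_one_smul]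
  have hpturn : ∀ (p q : ι → F) (hp : Q p ≠ 0) (hq : Q q ≠ 0), polar Q p q = 0 → ∀ x,
      pf Q ((2 * Q p)⁻¹ • p) (ap (rf Q p hp * rf Q q hq) x) = -pf Q ((2 * Q p)⁻¹ • p) x := by
    intro p q hp hq hpq x
    have hqp : polar Q q p = 0 := by rw [polar_comm]; exact hpq
    rw [ap_mul, ap_rf, ap_rf, pf_apply, pf_apply, sub_eq_add_neg x, polar_add_left (Q := Q) x,
      polar_neg_left, polar_smul_left, hqp]
    simp [sub_eq_add_neg, polar_add_left, polar_neg_left, polar_smul_left, polar_smul_right, polar_self', hqp]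
    field_simp
    ring
  have hαturn : ∀ (q : ι → F) (hq : Q q ≠ 0), polar Q a q = 0 → ∀ x,
      α (ap (rf Q a ha * rf Q q hq) x) = -α x := by
    intro q hq haq x
    rw [hα]; exact hpturn a q ha hq haq x
  have θ₁0 : θ₁ a = 0 ∧ θ₁ b = 0 := by
    obtain ⟨n1, n2⟩ := neg_turn a b ha hb hab
    have key := hturn a b ha hb b α θ₁ h₁ h₁X h₁v hθ₁ hva hvb (fun x => by
      rw [n2, hαturn b hb hab, smul_neg, neg_smul])
    constructor
    · have := key a
      rw [n1, map_neg] at this
      exact mul_left_cancel₀ h2 (by linear_combination -this)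
    · have := key b
      rw [n2, map_neg] at this
      exact mul_left_cancel₀ h2 (by linear_combination -this)
  have θ₂0 : θ₂ a = 0 ∧ θ₂ c = 0 := by
    obtain ⟨n1, n2⟩ := neg_turn a c ha hc hac
    have key := hturn a c ha hc c α θ₂ h₂ h₂X h₂v hθ₂ hva hvc (fun x => by
      rw [n2, hαturn c hc hac, smul_neg, neg_smul])
    constructor
    · have := key a
      rw [n1, map_neg] at this
      exact mul_left_cancel₀ h2 (by linear_combination -this)
    · have := key c
      rw [n2, map_neg] at this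
      exact mul_left_cancel₀ h2 (by linear_combination -this)
  have θ₃b : θ₃ b = 0 := by
    obtain ⟨n1, n2⟩ := neg_turn b c hb hc hbc
    have key := hturn b c hb hc c β θ₃ h₃ h₃X h₃v hθ₃ hvb hvc (fun x => by
      rw [n2, hβ, hpturn b c hb hc hbc, smul_neg, neg_smul])
    have := key b
    rw [n1, map_neg] at this
    exact mul_left_cancel₀ h2 (by linear_combination -this)
  -- the composition identity
  have hid : θ₁ c = 0 := by
    have v1 : ap h₁ c = c + θ₁ c • v := by rw [hθ₁, αc, zero_smul, add_zero]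
    have v2 : ap h₂ c = c + θ₂ c • v := by rw [hθ₂, αc, zero_smul, add_zero]
    have v3 : ap h₂ b = b + θ₂ b • v := by rw [hθ₂, αb, zero_smul, add_zero]
    have v4 : ap h₃ b = b + c + θ₃ b • v := by rw [hθ₃, βb, one_smul]
    have hδ := uniq (h₂ * (h₁ * h₃)) (mul_mem h₂X (mul_mem h₁X h₃X)) (h₃ * h₁) (mul_mem h₃X h₁X)
      (by rw [ap_mul, ap_mul, h₃v, h₁v, h₂v]) (by rw [ap_mul, h₁v, h₃v])
      (θ₂ + θ₂ b • α + (θ₁ c + θ₂ c) • β - θ₃ b • α) (fun x => by
        simp only [ap_mul]
        rw [hθ₃ x]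
        simp only [ap_add, ap_smul, h₁v]
        rw [hθ₁ x, v1]
        simp only [ap_add, ap_smul, h₂v, h₃v, v2, v3, v4]
        rw [hθ₂ x, hθ₃ x]
        simp only [LinearMap.sub_apply, LinearMap.add_apply, LinearMap.smul_apply, smul_eq_mul]
        module)
    have e1 := LinearMap.congr_fun hδ a
    have e2 := LinearMap.congr_fun hδ b
    simp only [LinearMap.sub_apply, LinearMap.add_apply, LinearMap.smul_apply, LinearMap.zero_apply,
      smul_eq_mul, αa, αb, βa, βb, θ₂0.1, θ₂0.2, θ₃b, mul_zero, mul_one, add_zero, zero_add, sub_zero,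
      zero_mul] at e1 e2
    linear_combination e2 - e1
  have hθ : θ₁ = 0 := by
    refine eq_zero_of_four hQ h2 (v := ![v, a, b, c]) (fun i => ?_) (fun i j hij => ?_) hn (fun i => ?_)
    · fin_cases i <;> assumption
    · fin_cases i <;> fin_cases j <;> first | exact absurd rfl hij | assumption
    · fin_cases i
      exacts [θ₁v, θ₁0.1, θ₁0.2, hid]
  refine hnoT b α αb ?_ (fun h => by rw [h, LinearMap.zero_apply] at αa; exact zero_ne_one αa)
    (fun h => hb (by rw [h, QuadraticMap.map_zero]))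
  convert h₁X using 1
  refine gl_ext fun x => ?_
  rw [ap_tv, hθ₁, hθ]
  simp

/-- A transvection gives one with singular centre and the same singular functional. -/
theorem exists_root {z c : ι → F} (hz0 : z ≠ 0) (hc0 : c ≠ 0) (hcz : polar Q c z = 0) (hS : Sz Q X z c) :
    ∃ (u : ι → F) (a : F), u ≠ 0 ∧ Q u = 0 ∧ a ≠ 0 ∧ Sz Q X u (a • u) := by
  have caseA : ∀ {z c : ι → F}, z ≠ 0 → c ≠ 0 → polar Q c z = 0 → Q z = 0 → Sz Q X z c →
      ∃ (u : ι → F) (a : F), u ≠ 0 ∧ Q u = 0 ∧ a ≠ 0 ∧ Sz Q X u (a • u) := by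
    intro z c hz0 hc0 hcz hQz hS
    by_cases hdep : ∃ a : F, a • z = c
    · obtain ⟨a, rfl⟩ := hdep
      exact ⟨z, a, hz0, hQz, fun h => hc0 (by rw [h, zero_smul]), hS⟩
    push Not at hdep
    obtain ⟨w, hwz, hwc⟩ := exists_pairings hQ ((LinearIndependent.pair_iff' hz0).mpr hdep) 0 1
    have hzw : polar Q z w = 0 := by rw [polar_comm]; exact hwz
    have hzz : polar Q z z = 0 := by rw [polar_self', hQz, mul_zero]
    have h := sz_conj hQ h2 hn hX hS (sg_memX hQ h2 hn hX hQz hzw) (iso_sg hQ h2 hn hX hQz hzw)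
    rw [ap_sg_fix hQz hzw hzz hzw, ap_sg, hcz, polar_comm Q c w, hwc] at h
    refine ⟨z, -1, hz0, hQz, neg_ne_zero.mpr one_ne_zero, ?_⟩
    have h' := sz_sub hQ h2 hn hX h hS (by simp [sub_eq_add_neg, polar_add_left, polar_neg_left, polar_smul_left, hcz, hzz]) hcz
    convert h' using 1
    module
  have caseB : ∀ {z c : ι → F}, c ≠ 0 → polar Q c z = 0 → Q c = 0 → Q z ≠ 0 → Sz Q X z c →
      ∃ (u : ι → F) (a : F), u ≠ 0 ∧ Q u = 0 ∧ a ≠ 0 ∧ Sz Q X u (a • u) := by
    intro z c hc0 hcz hQc hQz hS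
    have hli : LinearIndependent F ![c, z] := (LinearIndependent.pair_iff' hc0).mpr fun a ha =>
      hQz (by rw [← ha, QuadraticMap.map_smul, hQc, smul_zero])
    obtain ⟨w, hwc, hwz⟩ := exists_pairings hQ hli 0 1
    have hcw : polar Q c w = 0 := by rw [polar_comm]; exact hwc
    have hcc : polar Q c c = 0 := by rw [polar_self', hQc, mul_zero]
    have h := sz_conj hQ h2 hn hX hS (sg_memX hQ h2 hn hX hQc hcw) (iso_sg hQ h2 hn hX hQc hcw)
    rw [ap_sg_fix hQc hcw hcc hcw, ap_sg, polar_comm Q z c, hcz, polar_comm Q z w, hwz] at h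
    have hz' : Sz Q X (-z) c := by
      intro h0
      have h1 : pf Q z c = 0 := hcz
      convert inv_mem (hS h1) using 1
      rw [tv_inv]
      exact gl_ext fun x => by simp [polar_neg_right]
    have h' := sz_add_right hQ h2 hn hX h hz'
      (by simp [sub_eq_add_neg, polar_add_right, polar_neg_right, polar_smul_right, hcz, hcc])
      (by rw [polar_neg_right, hcz, neg_zero])
    refine ⟨c, -1, hc0, hQc, neg_ne_zero.mpr one_ne_zero, fun h0 => ?_⟩
    have h1 : pf Q (z + (0 : F) • w - (1 + Q w * 0) • c + -z) c = 0 := by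
      simp [sub_eq_add_neg, polar_add_right, polar_neg_right, polar_smul_right, hcc, hcz]
    convert h' h1 using 1
    refine gl_ext fun x => ?_
    simp [sub_eq_add_neg, polar_add_right, polar_neg_right, polar_smul_right, smul_smul]
  by_cases hQz : Q z = 0
  · exact caseA hz0 hc0 hcz hQz hS
  by_cases hQc : Q c = 0
  · exact caseB hc0 hcz hQc hQz hS
  obtain ⟨u, hu, hu0, hQu⟩ : ∃ u, polar Q u z = 0 ∧ u ≠ 0 ∧ Q u = 0 := by
    obtain ⟨u, hu, hu0, hQu⟩ := exists_singular_third (Q := Q) h2 ![z] (by omega)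
    exact ⟨u, hu 0, hu0, hQu⟩
  have hzu : polar Q z u = 0 := by rw [polar_comm]; exact hu
  by_cases hcu : polar Q c u = 0
  · have huc : polar Q u c = 0 := by rw [polar_comm]; exact hcu
    have h := sz_conj hQ h2 hn hX hS (sg_memX hQ h2 hn hX hQu huc) (iso_sg hQ h2 hn hX hQu huc)
    rw [ap_sg_fix hQu huc hzu (by rw [polar_comm]; exact hcz), ap_sg, hcu, polar_self'] at h
    have h' := sz_sub hQ h2 hn hX h hS (by simp [sub_eq_add_neg, polar_add_left, polar_neg_left, polar_smul_left, hcz, hu]) hcz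
    refine caseB (z := z) (c := (-(2 * Q c)) • u) (smul_ne_zero (neg_ne_zero.mpr (mul_ne_zero h2 hQc)) hu0)
      (by rw [polar_smul_left, hu, smul_zero]) (by rw [QuadraticMap.map_smul, hQu, smul_zero]) hQz ?_
    convert h' using 1
    module
  · -- a singular partner of `u` orthogonal to `z`
    obtain ⟨u', hu', huu', hu'z⟩ : ∃ u', Q u' = 0 ∧ polar Q u u' = 1 ∧ polar Q z u' = 0 := by
      obtain ⟨c', hc'⟩ : ∃ c', c' = (polar Q c u)⁻¹ • c := ⟨_, rfl⟩
      have h1 : polar Q c' u = 1 := by rw [hc', polar_smul_left, smul_eq_mul, inv_mul_cancel₀ hcu]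
      refine ⟨c' + (-Q c') • u, ?_, ?_, ?_⟩
      · rw [map_add_smul, hQu, h1]; ring
      · rw [polar_add_right, polar_smul_right, polar_comm Q u c', h1, polar_self', hQu, mul_zero, smul_zero,
          add_zero]
      · rw [polar_add_right, polar_smul_right, hzu, smul_zero, add_zero, hc', polar_smul_right,
          polar_comm Q z c, hcz, smul_zero]
    obtain ⟨w, hwz, hwu, -, hQw⟩ := (exists_orth_pair hQ h2 hQu hu' huu' (by omega)).2 z hQz hzu hu'z
    have huw : polar Q u w = 0 := by rw [polar_comm]; exact hwu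
    have hzw : polar Q z w = 0 := by rw [polar_comm]; exact hwz
    have huw' : polar Q u (-w) = 0 := by rw [polar_neg_right, huw, neg_zero]
    have e1 := sz_conj hQ h2 hn hX hS (sg_memX hQ h2 hn hX hQu huw) (iso_sg hQ h2 hn hX hQu huw)
    have e2 := sz_conj hQ h2 hn hX hS (sg_memX hQ h2 hn hX hQu huw') (iso_sg hQ h2 hn hX hQu huw')
    rw [ap_sg_fix hQu huw hzu hzw, ap_sg] at e1
    rw [ap_sg_fix hQu huw' hzu (by rw [polar_neg_right, hzw, neg_zero]), ap_sg] at e2
    have p1 : polar Q (c + polar Q c u • w - (polar Q c w + Q w * polar Q c u) • u) z = 0 := by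
      simp [sub_eq_add_neg, polar_add_left, polar_neg_left, polar_smul_left, hcz, hwz, hu]
    have p2 : polar Q (c + polar Q c u • -w - (polar Q c (-w) + Q (-w) * polar Q c u) • u) z = 0 := by
      simp [sub_eq_add_neg, polar_add_left, polar_neg_left, polar_smul_left, hcz, hwz, hu]
    have e3 := sz_sub hQ h2 hn hX (sz_add hQ h2 hn hX e1 e2 p1 p2) (sz_add hQ h2 hn hX hS hS hcz hcz)
      (by rw [polar_add_left, p1, p2, add_zero]) (by rw [polar_add_left, hcz, add_zero])
    refine caseB (z := z) (c := (-(2 * Q w * polar Q c u)) • u)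
      (smul_ne_zero (neg_ne_zero.mpr (mul_ne_zero (mul_ne_zero h2 hQw) hcu)) hu0)
      (by rw [polar_smul_left, hu, smul_zero]) (by rw [QuadraticMap.map_smul, hQu, smul_zero]) hQz ?_
    convert e3 using 1
    rw [polar_neg_right, QuadraticMap.map_neg]
    module

/-- `X` is transitive on singular vectors. -/
lemma exists_move {z z' : ι → F} (hz : Q z = 0) (hz' : Q z' = 0) (hz0 : z ≠ 0) (hz'0 : z' ≠ 0) :
    ∃ g ∈ X, (∀ x, Q (ap g x) = Q x) ∧ ap g z = z' := by
  have one : ∀ z z' : ι → F, Q z = 0 → Q z' = 0 → LinearIndependent F ![z, z'] →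
      ∃ g ∈ X, (∀ x, Q (ap g x) = Q x) ∧ ap g z = z' := by
    intro z z' hz hz' hli
    have hzz : polar Q z z = 0 := by rw [polar_self', hz, mul_zero]
    have hz'z' : polar Q z' z' = 0 := by rw [polar_self', hz', mul_zero]
    obtain ⟨y, hy, hyz, hyz'⟩ : ∃ y, Q y = 0 ∧ polar Q y z = 1 ∧ polar Q y z' = 1 := by
      by_cases hm : polar Q z z' = 0
      · obtain ⟨x, hxz, hxz'⟩ := exists_pairings hQ hli 1 1
        refine ⟨x + (-Q x) • z, ?_, ?_, ?_⟩
        · rw [map_add_smul, hz, hxz]; ring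
        · rw [polar_add_left, polar_smul_left, hxz, hzz, smul_zero, add_zero]
        · rw [polar_add_left, polar_smul_left, hxz', hm, smul_zero, add_zero]
      · obtain ⟨f, hf⟩ : ∃ f, f = (polar Q z z')⁻¹ • z' := ⟨_, rfl⟩
        have hzf : polar Q z f = 1 := by rw [hf, polar_smul_right, smul_eq_mul, inv_mul_cancel₀ hm]
        have hQf : Q f = 0 := by rw [hf, QuadraticMap.map_smul, hz', smul_zero]
        obtain ⟨x, hx⟩ : ∃ x, x = f + (polar Q z z')⁻¹ • z := ⟨_, rfl⟩
        obtain ⟨e, hez, hef, hQe⟩ := exists_value_pair hQ h2 hz hQf hzf (by omega) (-Q x)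
        have hez' : polar Q e z' = 0 := by
          rw [hf, polar_smul_right, smul_eq_mul, mul_eq_zero, or_iff_right (inv_ne_zero hm)] at hef
          exact hef
        refine ⟨x + e, ?_, ?_, ?_⟩
        · rw [QuadraticMap.map_add (⇑Q), hQe, hx, polar_add_left, polar_smul_left, polar_comm Q f e, hef,
            polar_comm Q z e, hez]
          simp
        · rw [polar_add_left, hez, hx, polar_add_left, polar_smul_left, polar_comm Q f z, hzf, hzz]
          simp
        · rw [polar_add_left, hez', hx, polar_add_left, polar_smul_left, hf, polar_smul_left, hz'z']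
          simp [hm]
    have h : polar Q y (z' - z) = 0 := by
      rw [sub_eq_add_neg, polar_add_right, polar_neg_right, hyz, hyz', add_neg_cancel]
    refine ⟨sg Q y (z' - z) hy h, sg_memX hQ h2 hn hX hy h, iso_sg hQ h2 hn hX hy h, ?_⟩
    rw [ap_sg, map_sub', hz, hz', sub_eq_add_neg z' z, polar_add_right, polar_neg_right,
      polar_comm Q z y, hyz, hzz, polar_comm Q z' z]
    match_scalars <;> ring
  by_cases hli : LinearIndependent F ![z, z']
  · exact one z z' hz hz' hli
  obtain ⟨p, hp⟩ : ∃ p, polar Q p z ≠ 0 := by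
    by_contra h
    push Not at h
    exact hz0 (hQ z fun y => by rw [polar_comm]; exact h y)
  obtain ⟨w, hw, hw0, hQw⟩ := exists_singular_third (Q := Q) h2 ![p] (by omega)
  have hwp : polar Q w p = 0 := hw 0
  have hli1 : LinearIndependent F ![z, w] := (LinearIndependent.pair_iff' hz0).mpr fun a ha => by
    rw [← ha, polar_smul_left, polar_comm, smul_eq_mul, mul_eq_zero, or_iff_left hp] at hwp
    exact hw0 (by rw [← ha, hwp, zero_smul])
  have hli2 : LinearIndependent F ![w, z'] := by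
    rw [LinearIndependent.pair_iff' hz0] at hli
    push Not at hli
    obtain ⟨a, rfl⟩ := hli
    refine (LinearIndependent.pair_iff' hw0).mpr fun b hb => ?_
    have hb0 : b ≠ 0 := fun h => hz'0 (by rw [← hb, h, zero_smul])
    refine (LinearIndependent.pair_iff' hz0).mp hli1 (b⁻¹ * a) ?_
    rw [mul_smul, ← hb, smul_smul, inv_mul_cancel₀ hb0, one_smul]
  obtain ⟨g₁, hg₁, hi₁, hm₁⟩ := one z w hz hQw hli1
  obtain ⟨g₂, hg₂, hi₂, hm₂⟩ := one w z' hQw hz' hli2
  exact ⟨g₂ * g₁, mul_mem hg₂ hg₁, fun x => by rw [ap_mul, hi₂, hi₁],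
    by rw [ap_mul, hm₁, hm₂]⟩

/-- One singular transvection gives all transvections. -/
theorem specialLinear_le_of_root {u₀ : ι → F} {s : F} (hu₀ : u₀ ≠ 0) (hQu₀ : Q u₀ = 0) (hs0 : s ≠ 0)
    (hS : Sz Q X u₀ (s • u₀)) : Cfsg.Geo.specialLinear ι F ≤ X := by
  have hzz : ∀ {y : ι → F}, Q y = 0 → ∀ a : F, polar Q (a • y) y = 0 := fun hy a => by
    rw [polar_smul_left, polar_self', hy, mul_zero, smul_zero]
  have hself : ∀ y, Q y = 0 → ∀ a : F, Sz Q X y (a • y) := by
    intro y hy a
    by_cases hy0 : y = 0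
    · rw [hy0, smul_zero]; exact sz_zero hQ h2 hn hX 0
    have sq : ∀ l : F, Sz Q X y ((s * l ^ 2) • y) := by
      intro l
      by_cases hl : l = 0
      · rw [show (s * l ^ 2) • y = 0 by simp [hl]]
        exact sz_zero hQ h2 hn hX y
      obtain ⟨g, hg, hiso, hgz⟩ := exists_move hQ h2 hn hX hQu₀
        (show Q (l • y) = 0 by rw [QuadraticMap.map_smul, hy, smul_zero]) hu₀ (smul_ne_zero hl hy0)
      have h := sz_conj hQ h2 hn hX hS hg hiso
      rw [ap_smul, hgz] at h
      intro h'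
      convert h (hzz (by rw [QuadraticMap.map_smul, hy, smul_zero]) s) using 1
      refine gl_ext fun x => ?_
      simp [polar_smul_right, smul_smul]
      congr 1
      ring
    obtain ⟨l, m, hlm⟩ := exists_combination hs0 hs0 h2 a
    rw [← hlm, add_smul]
    exact sz_add hQ h2 hn hX (sq l) (sq m) (hzz hy _) (hzz hy _)
  have hanis : ∀ z₀ c, Q z₀ = 0 → z₀ ≠ 0 → Q c ≠ 0 → polar Q c z₀ = 0 → Sz Q X z₀ c := by
    intro z₀ c hz₀ hz₀0 hc hcz
    have hli : LinearIndependent F ![z₀, c] := (LinearIndependent.pair_iff' hz₀0).mpr fun a ha =>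
      hc (by rw [← ha, QuadraticMap.map_smul, hz₀, smul_zero])
    obtain ⟨x, hxz, hxc⟩ := exists_pairings hQ hli 1 0
    obtain ⟨z₁, hz₁⟩ : ∃ z₁, z₁ = x + (-Q x) • z₀ := ⟨_, rfl⟩
    have hz00 : polar Q z₀ z₀ = 0 := by rw [polar_self', hz₀, mul_zero]
    have hz₁z : polar Q z₁ z₀ = 1 := by
      rw [hz₁, polar_add_left, polar_smul_left, hxz, hz00, smul_zero, add_zero]
    have hz₁c : polar Q z₁ c = 0 := by
      rw [hz₁, polar_add_left, polar_smul_left, hxc, polar_comm Q z₀ c, hcz, smul_zero, add_zero]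
    have hQz₁ : Q z₁ = 0 := by rw [hz₁, map_add_smul, hz₀, hxz]; ring
    obtain ⟨y, hy⟩ : ∃ y, y = (2 : F)⁻¹ • z₀ + (-(2 * Q c)) • z₁ := ⟨_, rfl⟩
    have hQy : Q y = -Q c := by
      rw [hy, map_add_smul, QuadraticMap.map_smul, hz₀, hQz₁, polar_smul_left, polar_comm Q z₀ z₁, hz₁z,
        smul_eq_mul, smul_eq_mul]
      field_simp
      ring
    have hcy : polar Q c y = 0 := by
      rw [hy, polar_add_right, polar_smul_right, polar_smul_right, hcz, polar_comm Q c z₁, hz₁c,
        smul_zero, smul_zero, add_zero]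
    have hzy : polar Q z₀ y = -(2 * Q c) := by
      rw [hy, polar_add_right, polar_smul_right, polar_smul_right, hz00, polar_comm Q z₀ z₁, hz₁z]
      simp
    obtain ⟨p, hp⟩ : ∃ p, p = (2 : F)⁻¹ • (c - y) := ⟨_, rfl⟩
    obtain ⟨p', hp'⟩ : ∃ p', p' = (2 : F)⁻¹ • (c + y) := ⟨_, rfl⟩
    have hQp : Q p = 0 := by
      rw [hp, QuadraticMap.map_smul, map_sub', hQy, hcy]
      simp
    have hQp' : Q p' = 0 := by
      rw [hp', QuadraticMap.map_smul, QuadraticMap.map_add (⇑Q), hQy, hcy]
      simp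
    have hpp' : polar Q p' p = Q c := by
      rw [hp, hp', polar_smul_left, polar_smul_right, sub_eq_add_neg c y, polar_add_left, polar_add_right,
        polar_add_right, polar_neg_right, polar_neg_right, polar_self', polar_comm Q y c, hcy, polar_self',
        hQy]
      simp only [smul_eq_mul]
      field_simp
      ring
    have hsum : p' + p = c := by
      rw [hp, hp', ← smul_add, show c + y + (c - y) = (2 : F) • c by module, smul_smul,
        inv_mul_cancel₀ h2, one_smul]
    have hdiff : p' - p = y := by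
      rw [hp, hp', ← smul_sub, show c + y - (c - y) = (2 : F) • y by module, smul_smul,
        inv_mul_cancel₀ h2, one_smul]
    have h00 : pf Q p ((Q c)⁻¹ • p) = 0 := hzz hQp _
    have hP := hself p hQp (Q c)⁻¹ h00
    have hP' := hself p' hQp' 1
    rw [one_smul] at hP'
    have hP'' := hP' (by rw [pf_apply, polar_self', hQp', mul_zero])
    have hH := mul_mem (mul_mem hP hP'') (inv_mem hP)
    rw [conj_tv] at hH
    have hgy : pf Q y c = 0 := hcy
    have hHy : tv c (pf Q y) hgy ∈ X := by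
      convert hH using 1
      refine gl_ext fun x => ?_
      have hpp : polar Q p p = 0 := by rw [polar_self', hQp, mul_zero]
      have hPinv : ∀ z, ap (tv ((Q c)⁻¹ • p) (pf Q p) h00)⁻¹ z = z - pf Q p z • ((Q c)⁻¹ • p) := by
        intro z
        have hz : ap (tv ((Q c)⁻¹ • p) (pf Q p) h00) (z - pf Q p z • ((Q c)⁻¹ • p)) = z := by
          rw [ap_tv, map_sub, map_smul, h00, smul_zero, sub_zero, sub_add_cancel]
        conv_lhs => rw [← hz]
        rw [ap_inv_ap]
      simp only [LinearMap.comp_apply, LinearEquiv.coe_coe, apEquiv_apply, ap_tv, hPinv, LinearMap.neg_apply,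
        pf_apply, sub_eq_add_neg, polar_add_left, polar_smul_left, polar_neg_left, smul_eq_mul, polar_smul_right,
        polar_comm Q p p', hpp', mul_inv_cancel₀ hc, one_smul, smul_smul, inv_mul_cancel₀ hc, hsum]
      rw [← hdiff, sub_eq_add_neg p' p, polar_add_right, polar_neg_right]
      match_scalars <;> field_simp <;> ring
    -- the commutator with the centre's own transvections
    intro h0
    have hN := hself z₀ hz₀ (-(2 * Q c))⁻¹
    have hN0 : pf Q z₀ ((-(2 * Q c))⁻¹ • z₀) = 0 := hzz hz₀ _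
    have hN' := hN hN0
    have hH2 := mul_mem (mul_mem (mul_mem hHy hN') (inv_mem hHy)) (inv_mem hN')
    convert hH2 using 1
    rw [eq_mul_inv_iff_mul_eq, eq_mul_inv_iff_mul_eq]
    refine gl_ext fun x => ?_
    have hyz : polar Q y z₀ = -(2 * Q c) := by rw [polar_comm]; exact hzy
    simp only [ap_mul, ap_tv, pf_apply, polar_add_left, polar_smul_left, hcz, hzy, hyz, hz00, hcy,
      smul_eq_mul, mul_zero, add_zero]
    match_scalars <;> field_simp <;> ring
  have hfull : ∀ z₀ c, Q z₀ = 0 → polar Q c z₀ = 0 → Sz Q X z₀ c := by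
    intro z₀ c hz₀ hcz
    by_cases hz₀0 : z₀ = 0
    · intro h
      rw [show tv c (pf Q z₀) h = 1 from gl_ext fun x => by simp [hz₀0]]
      exact one_mem X
    by_cases hc : Q c = 0
    swap
    · exact hanis z₀ c hz₀ hz₀0 hc hcz
    obtain ⟨b, hb, hQb⟩ := exists_anis_perp hQ h2 hz₀ hz₀0 (by omega)
    rcases add_or_sub h2 (x := c) (y := b) (by rwa [hc, zero_add]) with h | h
    · have hcb : polar Q (c + b) z₀ = 0 := by rw [polar_add_left, hcz, hb, add_zero]
      have := sz_sub hQ h2 hn hX (hanis z₀ _ hz₀ hz₀0 h hcb) (hanis z₀ b hz₀ hz₀0 hQb hb) hcb hb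
      rwa [add_sub_cancel_right] at this
    · have hcb : polar Q (c - b) z₀ = 0 := by
        rw [sub_eq_add_neg, polar_add_left, polar_neg_left, hcz, hb, neg_zero, add_zero]
      have := sz_add hQ h2 hn hX (hanis z₀ _ hz₀ hz₀0 h hcb) (hanis z₀ b hz₀ hz₀0 hQb hb) hcb hb
      rwa [sub_add_cancel] at this
  have hcentre : ∀ v y, Q v ≠ 0 → polar Q v y = 0 → Sz Q X y v := by
    intro v y hv hvy
    by_cases hy : Q y = 0
    · exact hfull y v hy hvy
    have hyv : polar Q y v = 0 := by rw [polar_comm]; exact hvy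
    obtain ⟨w₁, h1v, h1y, hw₁⟩ := exists_orth₂ hQ h2 hv hy hvy (by omega)
    obtain ⟨w₂, h2v, h2y, h21, hw₂⟩ := exists_orth₃ hQ h2 hv hy hw₁ hvy
      (by rw [polar_comm]; exact h1v) (by rw [polar_comm]; exact h1y) (by omega)
    obtain ⟨a, b, hab⟩ := exists_combination hw₁ hw₂ h2 (-Q y)
    obtain ⟨e, he⟩ : ∃ e, e = a • w₁ + b • w₂ := ⟨_, rfl⟩
    have hye : polar Q y e = 0 := by
      rw [he, polar_add_right, polar_smul_right, polar_smul_right, polar_comm Q y w₁, polar_comm Q y w₂, h1y, h2y]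
      simp
    have hve : polar Q v e = 0 := by
      rw [he, polar_add_right, polar_smul_right, polar_smul_right, polar_comm Q v w₁, polar_comm Q v w₂, h1v, h2v]
      simp
    have hQe : Q e = -Q y := by
      rw [he, map_add_smul, QuadraticMap.map_smul, polar_smul_left, polar_comm Q w₁ w₂, h21, smul_eq_mul,
        smul_eq_mul]
      linear_combination hab
    have hv1 : polar Q v ((2 : F)⁻¹ • (y + e)) = 0 := by
      rw [polar_smul_right, polar_add_right, hvy, hve, add_zero, smul_zero]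
    have hv2 : polar Q v ((2 : F)⁻¹ • (y - e)) = 0 := by
      rw [polar_smul_right, sub_eq_add_neg, polar_add_right, polar_neg_right, hvy, hve, neg_zero, add_zero,
        smul_zero]
    have h := sz_add_right hQ h2 hn hX
      (hfull ((2 : F)⁻¹ • (y + e)) v (by
        rw [QuadraticMap.map_smul, QuadraticMap.map_add (⇑Q), hQe, hye]; simp) hv1)
      (hfull ((2 : F)⁻¹ • (y - e)) v (by
        rw [QuadraticMap.map_smul, map_sub', hQe, hye]; simp) hv2) hv1 hv2
    rwa [← smul_add, show y + e + (y - e) = (2 : F) • y by module, smul_smul, inv_mul_cancel₀ h2,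
      one_smul] at h
  refine specialLinear_le_of_tv_mem fun v φ hφ => ?_
  obtain ⟨y, rfl⟩ : ∃ y, pf Q y = φ := by
    let ψ : (ι → F) →ₗ[F] Module.Dual F (ι → F) :=
      { toFun := fun w => pf Q w
        map_add' := fun a b => LinearMap.ext fun x => by simp [polar_add_right]
        map_smul' := fun c a => LinearMap.ext fun x => by simp [polar_smul_right] }
    have hψ : Function.Injective ψ := by
      rw [injective_iff_map_eq_zero]
      intro w hw
      refine hQ _ fun y => ?_
      rw [polar_comm]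
      exact LinearMap.congr_fun hw y
    exact (LinearMap.injective_iff_surjective_of_finrank_eq_finrank
      Subspace.dual_finrank_eq.symm).1 hψ φ
  have hvy : polar Q v y = 0 := hφ
  have hall : Sz Q X y v := by
    by_cases hQv : Q v = 0
    swap
    · exact hcentre v y hQv hvy
    by_cases hQy : Q y = 0
    · exact hfull y v hQy hvy
    obtain ⟨b, hby, hQb⟩ := exists_orth₁ hQ h2 hQy (by omega)
    rcases add_or_sub h2 (x := v) (y := b) (by rwa [hQv, zero_add]) with h | h
    · have hcb : polar Q (v + b) y = 0 := by rw [polar_add_left, hvy, hby, add_zero]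
      have := sz_sub hQ h2 hn hX (hcentre _ y h hcb) (hcentre b y hQb hby) hcb hby
      rwa [add_sub_cancel_right] at this
    · have hcb : polar Q (v - b) y = 0 := by
        rw [sub_eq_add_neg, polar_add_left, polar_neg_left, hvy, hby, neg_zero, add_zero]
      have := sz_add hQ h2 hn hX (hcentre _ y h hcb) (hcentre b y hQb hby) hcb hby
      rwa [sub_add_cancel] at this
  exact hall hφ

/-- A group containing the similarities of determinant one and one element more is everything. -/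
theorem specialLinear_le_of_not_similarity
    (hnot : ∃ g ∈ X, ¬ ∃ c : Fˣ, ∀ v, Q (ap g v) = (c : F) * Q v) : Cfsg.Geo.specialLinear ι F ≤ X := by
  obtain ⟨g, hgX, hg⟩ := hnot
  obtain ⟨u, hu, hgu⟩ : ∃ u, Q u = 0 ∧ Q (ap g u) ≠ 0 := by
    by_contra h
    push Not at h
    exact hg (similarity_of_singular hQ h2 (by omega) h)
  obtain ⟨z, c, hz0, hc0, hcz, hS⟩ := exists_tv hQ h2 hn hX hgX hu hgu
  obtain ⟨u, a, hu0, hQu, ha, hS'⟩ := exists_root hQ h2 hn hX hz0 hc0 hcz hS
  exact specialLinear_le_of_root hQ h2 hn hX hu0 hQu ha hS'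

end Main

end CfsgLib.Geometric.SLFour.Quad
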