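import Cfsg.Agent.Lib.Geometric.SLFour.Blocks

/-!
The quaternion group inside `SL₂` and matrices permuting its three lines.
-/

set_option autoImplicit false

namespace CfsgLib.Geometric.SLFour

open Matrix

variable {F : Type*} [Field F] {ι : F}

local notation "M₂" => Matrix (Fin 2) (Fin 2) F

/-- The four quaternion units up to sign. -/
def qR (ι : F) : Fin 4 → M₂ := ![1, qI ι, qW, qK ι]

/-- The quaternion group of order eight. -/
def IsQ (ι : F) (B : M₂) : Prop := ∃ j, B = qR ι j ∨ B = -qR ι j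

/-- The cyclic permutation of the lines under `qC`. -/
def cσ : Equiv.Perm (Fin 3) := Equiv.swap 0 1 * Equiv.swap 0 2

/-- The permutation of the lines under `qS`. -/
def sσ : Equiv.Perm (Fin 3) := Equiv.swap 1 2

/-- A matrix permuting the three lines. -/
def Act (ι : F) (B : M₂) (σ : Equiv.Perm (Fin 3)) : Prop :=
  ∀ k, ∃ s : F, s ≠ 0 ∧ B * qP ι k = s • (qP ι (σ k) * B)

lemma qP_eq_qR (k : Fin 3) : qP ι k = qR ι k.succ := by fin_cases k <;> rfl

lemma isQ_qR (j : Fin 4) : IsQ ι (qR ι j) := ⟨j, Or.inl rfl⟩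

lemma isQ_neg {B : M₂} (h : IsQ ι B) : IsQ ι (-B) := by
  obtain ⟨j, rfl | rfl⟩ := h
  · exact ⟨j, Or.inr rfl⟩
  · exact ⟨j, Or.inl (neg_neg _)⟩

lemma act_one : Act ι (1 : M₂) 1 := fun k => ⟨1, one_ne_zero, by simp⟩

lemma Act.smul {B : M₂} {σ : Equiv.Perm (Fin 3)} (h : Act ι B σ) (c : F) : Act ι (c • B) σ :=
  fun k => by
    obtain ⟨s, hs, e⟩ := h k
    exact ⟨s, hs, by rw [Matrix.smul_mul, e, Matrix.mul_smul, smul_comm]⟩

lemma Act.mul {B C : M₂} {σ τ : Equiv.Perm (Fin 3)} (hB : Act ι B σ) (hC : Act ι C τ) :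
    Act ι (B * C) (σ * τ) := fun k => by
  obtain ⟨t, ht, e⟩ := hC k
  obtain ⟨s, hs, e'⟩ := hB (τ k)
  refine ⟨t * s, mul_ne_zero ht hs, ?_⟩
  rw [mul_assoc, e, Matrix.mul_smul, ← mul_assoc, e', Matrix.smul_mul, smul_smul, mul_assoc,
    Equiv.Perm.mul_apply]

lemma Act.inv {B B' : M₂} {σ : Equiv.Perm (Fin 3)} (h : Act ι B σ) (h1 : B * B' = 1)
    (h2 : B' * B = 1) : Act ι B' σ⁻¹ := fun j => by
  obtain ⟨s, hs, e⟩ := h (σ⁻¹ j)
  rw [show σ (σ⁻¹ j) = j from σ.apply_symm_apply j] at e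
  refine ⟨s⁻¹, inv_ne_zero hs, ?_⟩
  have e' := congrArg (fun M => B' * M * B') e
  simp only [Matrix.mul_smul, Matrix.smul_mul] at e'
  rw [← mul_assoc B', h2, one_mul, mul_assoc B' (qP ι j * B), mul_assoc (qP ι j), h1, mul_one] at e'
  rw [e', smul_smul, inv_mul_cancel₀ hs, one_smul]

variable (hι : ι * ι = -1) (h2 : (2 : F) ≠ 0)
include hι

lemma qR_mul (i j : Fin 4) : ∃ k, qR ι i * qR ι j = qR ι k ∨ qR ι i * qR ι j = -qR ι k := by
  refine ⟨(![![0, 1, 2, 3], ![1, 0, 3, 2], ![2, 3, 0, 1], ![3, 2, 1, 0]] : Fin 4 → Fin 4 → Fin 4) i j, ?_⟩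
  fin_cases i <;> fin_cases j <;> simp [qR] <;>
    first
      | (left; ext a b; fin_cases a <;> fin_cases b <;> simp [qI, qW, qK, hι]; done)
      | (right; ext a b; fin_cases a <;> fin_cases b <;> simp [qI, qW, qK, hι]; done)

lemma isQ_mul {B C : M₂} (hB : IsQ ι B) (hC : IsQ ι C) : IsQ ι (B * C) := by
  obtain ⟨i, hi⟩ := hB
  obtain ⟨j, hj⟩ := hC
  obtain ⟨k, hk⟩ := qR_mul hι i j
  have h : IsQ ι (qR ι i * qR ι j) := ⟨k, hk⟩
  rcases hi with rfl | rfl <;> rcases hj with rfl | rfl <;>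
    (try simp only [Matrix.neg_mul, Matrix.mul_neg, neg_neg]) <;> first | exact h | exact isQ_neg h

lemma qP_sq (k : Fin 3) : qP ι k * qP ι k = -1 := by
  fin_cases k <;> ext a b <;> fin_cases a <;> fin_cases b <;> simp [qP, qI, qW, qK, hι]

lemma isQ_adjugate {B : M₂} (hB : IsQ ι B) : IsQ ι B.adjugate := by
  obtain ⟨j, rfl | rfl⟩ := hB <;>
    refine ⟨j, ?_⟩ <;> fin_cases j <;> simp [qR, Matrix.adjugate_fin_two, qI, qW, qK] <;>
      first
        | (left; ext a b; fin_cases a <;> fin_cases b <;> simp; done)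
        | (right; ext a b; fin_cases a <;> fin_cases b <;> simp; done)

lemma det_qR (j : Fin 4) : (qR ι j).det = 1 := by
  fin_cases j <;> simp [qR, qI, qW, qK, Matrix.det_fin_two, hι]

include h2

lemma qP_indep {a b : Fin 3} {s t : F} (hs : s ≠ 0) (h : s • qP ι a = t • qP ι b) : a = b := by
  have hi : ι ≠ 0 := fun h0 => by simp [h0] at hι
  have e00 := congrFun (congrFun h 0) 0
  have e01 := congrFun (congrFun h 0) 1
  have e10 := congrFun (congrFun h 1) 0
  fin_cases a <;> fin_cases b <;> simp [qP, qI, qW, qK, hs, hi] at e00 e01 e10 ⊢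
  · exact hs ((mul_eq_zero.1 (show (2 : F) * s = 0 by linear_combination e01 - e10)).resolve_left h2)
  · exact hs ((mul_eq_zero.1 ((mul_eq_zero.1
      (show (2 : F) * (s * ι) = 0 by linear_combination e01 + e10)).resolve_left h2)).resolve_right hi)

lemma qP_not_scalar (k : Fin 3) (c : F) : qP ι k ≠ c • (1 : M₂) := by
  have hi : ι ≠ 0 := fun h0 => by simp [h0] at hι
  intro h
  have e00 := congrFun (congrFun h 0) 0
  have e01 := congrFun (congrFun h 0) 1
  have e11 := congrFun (congrFun h 1) 1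
  fin_cases k <;> simp [qP, qI, qW, qK, hi] at e00 e01 e11
  exact hi ((mul_eq_zero.1 (show (2 : F) * ι = 0 by linear_combination e00 - e11)).resolve_left h2)

/-- A conjugation into the quaternion group permutes the lines. -/
lemma act_of_conj {B B' : M₂} (h1 : B * B' = 1) (h1' : B' * B = 1)
    (h : ∀ k, IsQ ι (B * qP ι k * B')) : ∃ σ, Act ι B σ := by
  have key : ∀ k, ∃ (j : Fin 3) (s : F), s ≠ 0 ∧ B * qP ι k = s • (qP ι j * B) := fun k => by
    have hcases : ∃ (j : Fin 4) (s : F), s ≠ 0 ∧ B * qP ι k * B' = s • qR ι j := by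
      obtain ⟨j, e | e⟩ := h k
      · exact ⟨j, 1, one_ne_zero, by rw [e, one_smul]⟩
      · exact ⟨j, -1, neg_ne_zero.2 one_ne_zero, by rw [e, neg_one_smul]⟩
    obtain ⟨j, s, hs, e⟩ := hcases
    have e' : B * qP ι k = s • (qR ι j * B) := by
      rw [← Matrix.smul_mul, ← e, mul_assoc, h1', mul_one]
    refine Fin.cases (fun e' => ?_) (fun j e' => ⟨j, s, hs, by rw [qP_eq_qR j]; exact e'⟩) j e'
    refine absurd ?_ (qP_not_scalar hι h2 k s)
    have := congrArg (B' * ·) e'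
    simpa [qR, ← mul_assoc, h1', Matrix.mul_smul] using this
  choose f s hs hf using key
  have hinj : Function.Injective f := fun k l hkl => by
    have hl := hf l
    rw [← hkl] at hl
    have e : s l • (B * qP ι k) = s k • (B * qP ι l) := by rw [hf k, hl, smul_comm]
    rw [← Matrix.mul_smul, ← Matrix.mul_smul] at e
    have e' := congrArg (B' * ·) e
    simp only [← mul_assoc, h1', one_mul] at e'
    exact qP_indep hι h2 (hs l) e'
  exact ⟨Equiv.ofBijective f (Finite.injective_iff_bijective.1 hinj), fun k => ⟨s k, hs k, hf k⟩⟩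

lemma Act.unique {B : M₂} (hB : IsUnit B.det) {σ τ : Equiv.Perm (Fin 3)} (h : Act ι B σ)
    (h' : Act ι B τ) : σ = τ := Equiv.ext fun k => by
  obtain ⟨s, hs, e⟩ := h k
  obtain ⟨t, -, e'⟩ := h' k
  refine qP_indep hι h2 hs (t := t) ?_
  have := congrArg (· * B⁻¹) (e.symm.trans e')
  simpa [Matrix.smul_mul, mul_assoc, Matrix.mul_nonsing_inv B hB] using this

lemma act_qR (j : Fin 4) : Act ι (qR ι j) 1 := fun k => by
  rcases eq_or_ne j 0 with rfl | hj
  · exact ⟨1, one_ne_zero, by simp [qR]⟩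
  rcases eq_or_ne j k.succ with rfl | hjk
  · exact ⟨1, one_ne_zero, by rw [one_smul, qP_eq_qR]; rfl⟩
  · refine ⟨-1, neg_ne_zero.2 one_ne_zero, ?_⟩
    fin_cases j <;> fin_cases k <;> simp at hj hjk <;>
      (ext a b; fin_cases a <;> fin_cases b <;> simp [qR, qP, qI, qW, qK, hι])

/-- A matrix fixing the three lines is a multiple of a quaternion unit. -/
lemma eq_of_act_one {B : M₂} (hB : IsUnit B.det) (h : Act ι B 1) : ∃ (t : F) (j : Fin 4), B = t • qR ι j := by
  have hi : ι ≠ 0 := fun h0 => by simp [h0] at hι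
  have hB0 : B ≠ 0 := fun h0 => by simp [h0] at hB
  have sgn : ∀ k, ∃ s : F, (s = 1 ∨ s = -1) ∧ B * qP ι k = s • (qP ι k * B) := fun k => by
    obtain ⟨s, -, e⟩ := h k
    rw [Equiv.Perm.one_apply] at e
    refine ⟨s, mul_self_eq_one_iff.1 ?_, e⟩
    have e2 : B * (qP ι k * qP ι k) = (s * s) • (qP ι k * qP ι k * B) := by
      rw [← mul_assoc, e, Matrix.smul_mul, mul_assoc, e, Matrix.mul_smul, smul_smul, mul_assoc]
    rw [qP_sq hι, Matrix.mul_neg, mul_one, Matrix.neg_mul, one_mul, smul_neg, neg_inj] at e2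
    have e3 : (s * s - 1) • B = 0 := by rw [sub_smul, one_smul, ← e2, sub_self]
    exact sub_eq_zero.1 ((smul_eq_zero.1 e3).resolve_right hB0)
  obtain ⟨s, hs, eI⟩ := sgn 0
  obtain ⟨t, ht, eW⟩ := sgn 1
  have a00 := congrFun (congrFun eI 0) 0
  have a01 := congrFun (congrFun eI 0) 1
  have a10 := congrFun (congrFun eI 1) 0
  have a11 := congrFun (congrFun eI 1) 1
  have b00 := congrFun (congrFun eW 0) 0
  have b01 := congrFun (congrFun eW 0) 1
  have zero : ∀ {x : F}, (2 : F) * (x * ι) = 0 → x = 0 := fun hx =>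
    (mul_eq_zero.1 ((mul_eq_zero.1 hx).resolve_left h2)).resolve_right hi
  rcases hs with rfl | rfl <;> rcases ht with rfl | rfl <;>
    simp [qP, qI, qW, Matrix.mul_apply, Fin.sum_univ_two, Matrix.vecMul, dotProduct] at a00 a01 a10 a11 b00 b01
  · refine ⟨B 0 0, 0, ?_⟩
    have z1 : B 0 1 = 0 := zero (by linear_combination -a01)
    have z2 : B 1 0 = 0 := zero (by linear_combination a10)
    ext a b; fin_cases a <;> fin_cases b <;> simp [qR, z1, z2]
    linear_combination -b01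
  · refine ⟨-ι * B 0 0, 1, ?_⟩
    have z1 : B 0 1 = 0 := zero (by linear_combination -a01)
    have z2 : B 1 0 = 0 := zero (by linear_combination a10)
    ext a b; fin_cases a <;> fin_cases b <;> simp [qR, qI, z1, z2]
    · linear_combination (B 0 0) * hι
    · linear_combination b01 - (B 0 0) * hι
  · refine ⟨B 0 1, 2, ?_⟩
    have z1 : B 0 0 = 0 := zero (by linear_combination a00)
    have z2 : B 1 1 = 0 := zero (by linear_combination -a11)
    ext a b; fin_cases a <;> fin_cases b <;> simp [qR, qW, z1, z2]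
    linear_combination -b00
  · refine ⟨-ι * B 0 1, 3, ?_⟩
    have z1 : B 0 0 = 0 := zero (by linear_combination a00)
    have z2 : B 1 1 = 0 := zero (by linear_combination -a11)
    ext a b; fin_cases a <;> fin_cases b <;> simp [qR, qK, z1, z2]
    all_goals first
      | linear_combination (B 0 1) * hι
      | linear_combination -b00 + (B 0 1) * hι
      | linear_combination b00 + (B 0 1) * hι
      | linear_combination b00 - (B 0 1) * hι

lemma act_qC : Act ι (qC ι) cσ := fun k => ⟨1, one_ne_zero, by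
  rw [one_smul, qC, Matrix.smul_mul, Matrix.mul_smul]
  congr 1
  fin_cases k <;> simp [cσ, Equiv.swap_apply_def, qP] <;>
    (ext a b; fin_cases a <;> fin_cases b <;> simp [qI, qW, qK] <;>
      first | ring1 | linear_combination hι | linear_combination -hι)⟩

lemma act_qS : Act ι (qS ι) sσ := fun k => by
  fin_cases k
  · refine ⟨1, one_ne_zero, ?_⟩
    simp [sσ, Equiv.swap_apply_def, qP]
    ext a b; fin_cases a <;> fin_cases b <;> simp [qI, qS] <;> ring
  · refine ⟨-1, neg_ne_zero.2 one_ne_zero, ?_⟩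
    simp [sσ, Equiv.swap_apply_def, qP]
    ext a b; fin_cases a <;> fin_cases b <;> simp [qW, qK, qS, hι]
  · refine ⟨1, one_ne_zero, ?_⟩
    simp [sσ, Equiv.swap_apply_def, qP]
    ext a b; fin_cases a <;> fin_cases b <;> simp [qW, qK, qS, hι]

lemma act_qZ : Act ι (qZ : M₂) 1 := fun k => by
  fin_cases k
  · exact ⟨1, one_ne_zero, by ext a b; fin_cases a <;> fin_cases b <;> simp [qP, qI, qZ]⟩
  all_goals exact ⟨-1, neg_ne_zero.2 one_ne_zero, by
    ext a b; fin_cases a <;> fin_cases b <;> simp [qP, qW, qK, qZ]⟩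

/-- A diagonal matrix permuting the lines has a fourth root of unity as ratio. -/
lemma act_diag {a : F} {σ : Equiv.Perm (Fin 3)} (h : Act ι !![a, 0; 0, 1] σ) : a ^ 4 = 1 := by
  obtain ⟨s, hs, e⟩ := h 1
  generalize σ 1 = j at e
  have e01 := congrFun (congrFun e 0) 1
  have e10 := congrFun (congrFun e 1) 0
  have e00 := congrFun (congrFun e 0) 0
  fin_cases j <;> simp [qP, qI, qW, qK, hs] at e00 e01 e10
  · linear_combination (a * a + 1) * (a * e01 - e10)
  · linear_combination (a * a - 1) * (a * e01 - e10)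

lemma perm_gen : ∀ σ : Equiv.Perm (Fin 3), σ = 1 ∨ σ = cσ ∨ σ = cσ * cσ ∨ σ = sσ ∨ σ = cσ * sσ ∨
    σ = cσ * cσ * sσ := by decide +kernel

lemma perm_comm : ∀ σ : Equiv.Perm (Fin 3), σ ≠ 1 → σ = cσ ∨ σ = cσ⁻¹ ∨
    cσ * σ * cσ⁻¹ * σ⁻¹ = cσ ∨ cσ * σ * cσ⁻¹ * σ⁻¹ = cσ⁻¹ := by decide +kernel

lemma perm_central : ∀ σ : Equiv.Perm (Fin 3), σ * cσ * σ⁻¹ * cσ⁻¹ = 1 →
    σ * sσ * σ⁻¹ * sσ⁻¹ = 1 → σ = 1 := by decide +kernel

end CfsgLib.Geometric.SLFour
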