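import Cfsg.Agent.Lib.Geometric.SLFour.Signs
import Mathlib.GroupTheory.QuotientGroup.Basic

/-!
An overgroup of the monomial group modulo scalars: the image of the monomial group, its action on
the six frame vectors and the classes of the products of two frame vectors.
-/

set_option autoImplicit false

namespace CfsgLib.Geometric.SLFour

open Matrix

variable {F : Type*} [Field F] {ι : F}

local notation "M₄" => Matrix (Fin 4) (Fin 4) F

instance scalars_subgroupOf_normal (M : Subgroup (GL (Fin 4) F)) :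
    ((Cfsg.Geo.scalars (Fin 4) F).subgroupOf M).Normal := ⟨fun n hn g => by
  obtain ⟨c, hc⟩ := (Cfsg.Geo.mem_scalars_iff _).1 (Subgroup.mem_subgroupOf.1 hn)
  have : g * n * g⁻¹ = n := by
    have h : g * n = n * g := Subtype.ext (Units.ext (by
      simp only [Subgroup.coe_mul, Units.val_mul, hc, Matrix.mul_smul, Matrix.smul_mul, mul_one,
        one_mul]))
    rw [h, mul_inv_cancel_right]
  rw [this]
  exact hn⟩

/-- A subgroup modulo scalars. -/
abbrev QM (M : Subgroup (GL (Fin 4) F)) := M ⧸ (Cfsg.Geo.scalars (Fin 4) F).subgroupOf M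

variable {M : Subgroup (GL (Fin 4) F)}

/-- The class of an element. -/
def cls (g : M) : QM M := QuotientGroup.mk g

lemma cls_eq_of_smul {g h : M} {k : F} (hgh : ((g : (GL (Fin 4) F)) : M₄) = k • ((h : (GL (Fin 4) F)) : M₄)) :
    cls g = cls h := by
  refine Eq.symm (QuotientGroup.eq.2 (Subgroup.mem_subgroupOf.2 ((Cfsg.Geo.mem_scalars_iff _).2 ?_)))
  have hk : k ≠ 0 := fun h0 => (g : (GL (Fin 4) F)).ne_zero (by rw [hgh, h0, zero_smul])
  refine ⟨Units.mk0 k hk, ?_⟩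
  rw [Subgroup.coe_mul, Subgroup.coe_inv, Units.val_mul, hgh, Matrix.mul_smul, Units.inv_mul,
    Units.val_mk0]

lemma smul_of_cls_eq {g h : M} (hgh : cls g = cls h) :
    ∃ k : F, k ≠ 0 ∧ ((g : (GL (Fin 4) F)) : M₄) = k • ((h : (GL (Fin 4) F)) : M₄) := by
  obtain ⟨c, hc⟩ := (Cfsg.Geo.mem_scalars_iff _).1
    (Subgroup.mem_subgroupOf.1 (QuotientGroup.eq.1 hgh.symm))
  refine ⟨c, c.ne_zero, ?_⟩
  calc ((g : (GL (Fin 4) F)) : M₄) = ((h : (GL (Fin 4) F)) : M₄) * (((h⁻¹ * g : M) : (GL (Fin 4) F)) : M₄) := by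
        rw [← Units.val_mul, ← Subgroup.coe_mul, mul_inv_cancel_left]
    _ = _ := by rw [hc, Matrix.mul_smul, mul_one]

lemma cls_mul (g h : M) : cls (g * h) = cls g * cls h := rfl

lemma cls_inv (g : M) : cls g⁻¹ = (cls g)⁻¹ := rfl

lemma cls_surjective : Function.Surjective (cls (M := M)) := QuotientGroup.mk_surjective

variable (hι : ι * ι = -1) (h2 : (2 : F) ≠ 0) (hM : M ≤ Cfsg.Geo.specialLinear (Fin 4) F)
  (hN : Nstd hι h2 ≤ M)

/-- The image of the monomial group. -/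
def NQ (M : Subgroup (GL (Fin 4) F)) : Subgroup (QM M) :=
  ((Nstd hι h2).subgroupOf M).map (QuotientGroup.mk' _)

include hM in
lemma det_of_mem_M (g : M) : ((g : (GL (Fin 4) F)) : M₄).det = 1 :=
  congrArg Units.val (MonoidHom.mem_ker.1 (hM g.2))

include hM in
lemma cls_mem_NQ {g : M} : cls g ∈ NQ hι h2 M ↔ (g : (GL (Fin 4) F)) ∈ Nstd hι h2 := by
  refine ⟨?_, fun h => ⟨g, h, rfl⟩⟩
  rintro ⟨h, hh, he⟩
  obtain ⟨k, -, hk⟩ := smul_of_cls_eq (g := g) (h := h) he.symm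
  have hs : ((g * h⁻¹ : M) : (GL (Fin 4) F)) ∈ Nstd hι h2 := by
    refine mono_of_scalar hι h2 (c := k) (det_of_mem_M hM _) ?_
    rw [Subgroup.coe_mul, Subgroup.coe_inv, Units.val_mul, hk, Matrix.smul_mul, Units.mul_inv]
  have := mul_mem hs hh
  simpa using this

/-- The monomial group inside `M`. -/
def inM (n : Nstd hι h2) : M := ⟨n, hN n.2⟩

/-- The map onto the image. -/
def toNQ : Nstd hι h2 →* NQ hι h2 M where
  toFun n := ⟨cls (inM hι h2 hN n), inM hι h2 hN n, n.2, rfl⟩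
  map_one' := rfl
  map_mul' _ _ := rfl

lemma toNQ_surjective : Function.Surjective (toNQ hι h2 hN) := by
  rintro ⟨q, g, hg, rfl⟩
  exact ⟨⟨(g : (GL (Fin 4) F)), hg⟩, rfl⟩

lemma ker_toNQ_le : (toNQ hι h2 hN).ker ≤ (piStd hι h2).ker := by
  intro n hn
  obtain ⟨k, -, hk⟩ := smul_of_cls_eq (g := inM hι h2 hN n) (h := 1)
    (congrArg Subtype.val (MonoidHom.mem_ker.1 hn))
  have hk' : ((n : (GL (Fin 4) F)) : M₄) = k • 1 := by simpa [inM] using hk
  obtain ⟨s, hs, hl⟩ := lam_scalar_det hι h2 n.2.1 hk'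
  exact MonoidHom.mem_ker.2 (Equiv.ext fun a => piStd_eq hι h2 n (sign_ne_zero hs) (hl _))

/-- The permutation action of the image. -/
noncomputable def piQ : NQ hι h2 M →* Equiv.Perm (Fin 6) :=
  (toNQ hι h2 hN).liftOfSurjective (toNQ_surjective hι h2 hN)
    ⟨piStd hι h2, ker_toNQ_le hι h2 hN⟩

lemma piQ_toNQ (n : Nstd hι h2) : piQ hι h2 hN (toNQ hι h2 hN n) = piStd hι h2 n :=
  MonoidHom.liftOfRightInverse_comp_apply _ _ _ _ n

/-- The class of a product of two frame vectors. -/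
def xQ (a b : Fin 6) : QM M := cls (inM hι h2 hN ⟨pxu hι a b, mono_pxu hι h2 a b⟩)

lemma coe_inM (n : Nstd hι h2) : ((inM hι h2 hN n : M) : (GL (Fin 4) F)) = n := rfl

lemma xQ_mem (a b : Fin 6) : xQ hι h2 hN a b ∈ NQ hι h2 M :=
  (toNQ hι h2 hN ⟨pxu hι a b, mono_pxu hι h2 a b⟩).2

lemma xQ_self (a : Fin 6) : xQ hι h2 hN a a = 1 :=
  cls_eq_of_smul (h := 1) (k := 1) (by simp [coe_inM, coe_pxu, px_self hι])

lemma xQ_adj (a b c : Fin 6) : xQ hι h2 hN a b * xQ hι h2 hN b c = xQ hι h2 hN a c :=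
  cls_eq_of_smul (k := 1) (by
    simp [coe_inM, coe_pxu, px_mul hι])

lemma xQ_symm (a b : Fin 6) : xQ hι h2 hN a b = xQ hι h2 hN b a := by
  rcases eq_or_ne b a with rfl | h
  · rfl
  exact cls_eq_of_smul (k := -1) (by simp [coe_inM, coe_pxu, px_swap hι h])

lemma xQ_sq (a b : Fin 6) : xQ hι h2 hN a b * xQ hι h2 hN a b = 1 := by
  conv_lhs => arg 2; rw [xQ_symm]
  rw [xQ_adj, xQ_self]

lemma piStd_pxu (a b : Fin 6) :
    piStd hι h2 ⟨pxu hι a b, mono_pxu hι h2 a b⟩ = 1 :=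
  Equiv.ext fun z => piStd_eq hι h2 _ (by cases (decide (a ≠ b ∧ (z = a ∨ z = b))) <;> simp [sgnB])
    (lam_pxu' hι h2 a b z)

lemma piQ_xQ (a b : Fin 6) : piQ hι h2 hN ⟨xQ hι h2 hN a b, xQ_mem hι h2 hN a b⟩ = 1 := by
  rw [show (⟨xQ hι h2 hN a b, xQ_mem hι h2 hN a b⟩ : NQ hι h2 M) =
    toNQ hι h2 hN ⟨pxu hι a b, mono_pxu hι h2 a b⟩ from rfl, piQ_toNQ, piStd_pxu]

lemma xQ_conj (n : NQ hι h2 M) (a b : Fin 6) :
    (n : QM M) * xQ hι h2 hN a b * (n : QM M)⁻¹ =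
      xQ hι h2 hN (piQ hι h2 hN n a) (piQ hι h2 hN n b) := by
  obtain ⟨m, rfl⟩ := toNQ_surjective hι h2 hN n
  rw [piQ_toNQ]
  obtain ⟨s, -, hs⟩ := Mono.conj_px hι h2 m.2 a b
  refine cls_eq_of_smul (g := inM hι h2 hN m * inM hι h2 hN _ * (inM hι h2 hN m)⁻¹) (k := s) ?_
  simp only [Subgroup.coe_mul, Subgroup.coe_inv, coe_inM, Units.val_mul, coe_pxu]
  exact hs

lemma xQ_commute (a b c d : Fin 6) : Commute (xQ hι h2 hN a b) (xQ hι h2 hN c d) := by
  have h := xQ_conj hι h2 hN ⟨xQ hι h2 hN a b, xQ_mem hι h2 hN a b⟩ c d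
  rw [piQ_xQ] at h
  exact mul_inv_eq_iff_eq_mul.1 h

include hM

lemma xQ_ne {a b : Fin 6} (h : a ≠ b) : xQ hι h2 hN a b ≠ 1 := by
  intro he
  obtain ⟨k, -, hk⟩ := smul_of_cls_eq (g := inM hι h2 hN _) (h := 1) he
  have hk' : ((pxu hι a b : (GL (Fin 4) F)) : M₄) = k • 1 := by simpa [coe_inM] using hk
  obtain ⟨z, hza, hzb⟩ := (show ∀ p q : Fin 6, ∃ l, l ≠ p ∧ l ≠ q by decide) a b
  have h1 := lam_pxu hι h2 h a
  have h3 := lam_pxu hι h2 h z
  rw [lam_scalar hι h2 hk'] at h1 h3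
  rw [if_pos (Or.inl rfl)] at h1
  rw [if_neg (by simp [hza, hzb])] at h3
  have e1 := congrFun h1 a
  have e3 := congrFun h3 z
  simp [e] at e1 e3
  exact h2 (by linear_combination e1 - e3)

lemma xQ_inj {a b c d : Fin 6} (hab : a ≠ b) (he : xQ hι h2 hN a b = xQ hι h2 hN c d) :
    (c = a ∧ d = b) ∨ (c = b ∧ d = a) := by
  classical
  obtain ⟨k, -, hk⟩ := smul_of_cls_eq (g := inM hι h2 hN _) (h := inM hι h2 hN _) he
  simp only [coe_inM] at hk
  have hl : ∀ z, sgnB F (decide (a ≠ b ∧ (z = a ∨ z = b))) =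
      (k * k) * sgnB F (decide (c ≠ d ∧ (z = c ∨ z = d))) := fun z => by
    have h1 := lam_of_eq hι h2 hk (e z)
    rw [lam_pxu' hι h2, lam_pxu' hι h2, smul_smul] at h1
    simpa [e] using congrFun h1 z
  have hm1 : (-1 : F) ≠ 1 := fun h => h2 (by linear_combination -h)
  have hinj : ∀ {s t : Bool}, sgnB F s = sgnB F t → s = t := fun {s t} h => by
    cases s <;> cases t <;> simp [sgnB] at h ⊢ <;> first | exact hm1 h | exact hm1 h.symm
  obtain ⟨u, hu⟩ : ∃ u, k * k = sgnB F u := by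
    rcases mul_self_eq_one_iff.1 (show (k * k) * (k * k) = 1 by
      have h1 := congrArg Matrix.det hk
      rw [Matrix.det_smul, det_pxu, det_pxu, Fintype.card_fin, mul_one] at h1
      linear_combination -h1) with h | h
    · exact ⟨false, h⟩
    · exact ⟨true, h⟩
  refine pair_pattern a b c d u hab fun z => hinj ?_
  rw [← sgnB_mul, ← hu, ← hl z]
  simp [hab]

lemma xQ_mul {a b c d f t : Fin 6} (h : [a, b, c, d, f, t].Nodup) :
    xQ hι h2 hN a b * xQ hι h2 hN c d = xQ hι h2 hN f t := by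
  obtain ⟨k, -, hk⟩ := px_six hι h2 h
  exact cls_eq_of_smul (k := k) (by simp [coe_inM, coe_pxu, hk])

lemma xQ_ker (n : NQ hι h2 M) (hn : piQ hι h2 hN n = 1) :
    ∃ a b, (n : QM M) = xQ hι h2 hN a b := by
  obtain ⟨m, rfl⟩ := toNQ_surjective hι h2 hN n
  rw [piQ_toNQ] at hn
  choose s hs hl using fun z => piStd_spec hι h2 m z
  simp only [hn, Equiv.Perm.one_apply] at hl
  obtain ⟨c, a, b, -, hc⟩ := isStd_of_diag hι h2 m.2.1 hs hl
  exact ⟨a, b, cls_eq_of_smul (k := c) (by simp [coe_inM, coe_pxu, hc])⟩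

lemma exists_lift_dbl {a b c d : Fin 6} (h : [a, b, c, d].Nodup) :
    ∃ n : NQ hι h2 M, piQ hι h2 hN n = Equiv.swap a b * Equiv.swap c d ∧ n * n = 1 := by
  have hn := h
  simp only [List.nodup_cons, List.mem_cons, not_or, List.not_mem_nil, not_false_iff, and_true,
    List.nodup_nil] at hn
  obtain ⟨⟨hab, -, -⟩, -, hcd⟩ := hn
  refine ⟨toNQ hι h2 hN ⟨dbl hι h2 a b c d hab hcd, mono_dbl hι h2 h hab hcd⟩, ?_, ?_⟩
  · rw [piQ_toNQ]
    exact Equiv.ext fun z => piStd_eq hι h2 _ one_ne_zero (by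
      rw [one_smul]; exact lam_dbl hι h2 h hab hcd z)
  · obtain ⟨k, hk⟩ := dbl_sq hι h2 h hab hcd
    exact Subtype.ext (cls_eq_of_smul (h := 1) (k := k) hk)

end CfsgLib.Geometric.SLFour
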