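import Cfsg.Agent.Lib.Geometric.SLFour.Mono
import Mathlib.Data.Fintype.Pi
import Mathlib.Algebra.Module.BigOperators

/-!
Signs of the monomial group on the frame: the kernel of the permutation action, the lifts of
products of two transpositions, and the impossibility of three fused products.
-/

set_option autoImplicit false

namespace CfsgLib.Geometric.SLFour

open Matrix

variable {F : Type*} [Field F] {ι : F}

local notation "M₄" => Matrix (Fin 4) (Fin 4) F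

/-- The sign of a truth value. -/
def sgnB (F : Type*) [Field F] (t : Bool) : F := if t then -1 else 1

lemma sgnB_mul (s t : Bool) : sgnB F s * sgnB F t = sgnB F (xor s t) := by
  cases s <;> cases t <;> simp [sgnB]

lemma even_pattern : ∀ t : Fin 6 → Bool,
    xor (xor (xor (t 0) (t 1)) (xor (t 2) (t 3))) (xor (t 4) (t 5)) = false →
      ∃ (a b : Fin 6) (u : Bool), ∀ z, t z = xor u (decide (a ≠ b ∧ (z = a ∨ z = b))) := by
  decide +kernel

lemma pair_pattern : ∀ (a b c d : Fin 6) (u : Bool), a ≠ b →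
    (∀ z, decide (z = a ∨ z = b) = xor u (decide (c ≠ d ∧ (z = c ∨ z = d)))) →
      (c = a ∧ d = b) ∨ (c = b ∧ d = a) := by
  decide +kernel

variable (hι : ι * ι = -1) (h2 : (2 : F) ≠ 0)
include hι h2

/-- A product of two frame vectors on the frame, the pair allowed to coincide. -/
lemma lam_pxu' (a b z : Fin 6) :
    lam ι (pxu hι a b) (e z) = sgnB F (decide (a ≠ b ∧ (z = a ∨ z = b))) • e z := by
  rcases eq_or_ne a b with rfl | h
  · rw [pxu_self, lam_one hι h2]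
    simp [sgnB]
  · rw [lam_pxu hι h2 h]
    by_cases hz : z = a ∨ z = b
    · rw [if_pos hz, decide_eq_true ⟨h, hz⟩]; rfl
    · rw [if_neg hz, decide_eq_false fun h' => hz h'.2]; rfl

lemma pxu_sq {a b : Fin 6} (h : a ≠ b) :
    ((pxu hι a b * pxu hι a b : GL (Fin 4) F) : M₄) = (-1 : F) • 1 := by
  rw [Units.val_mul, coe_pxu, px_sq hι h, neg_one_smul]

/-- Conjugating a product by an element fixing the frame up to scalars. -/
lemma conj_px_of_diag {g : GL (Fin 4) F} (hg : (g : M₄).det = 1) {s : Fin 6 → F}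
    (hl : ∀ z, lam ι g (e z) = s z • e z) (a b : Fin 6) :
    (g : M₄) * px ι a b * ((g⁻¹ : GL (Fin 4) F) : M₄) = (s a * s b) • px ι a b := by
  rw [px, conj_XY hι h2 hg (e a) (by simp), hl, hl, X_smul, Y_smul, Matrix.smul_mul,
    Matrix.mul_smul, smul_smul]

/-- The signs of an element fixing the frame have product one. -/
lemma sign_prod {g : GL (Fin 4) F} (hg : (g : M₄).det = 1) {s : Fin 6 → F}
    (hs : ∀ z, s z * s z = 1) (hl : ∀ z, lam ι g (e z) = s z • e z) {a b c d f t : Fin 6}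
    (hn : [a, b, c, d, f, t].Nodup) : s a * s b * (s c * s d) * (s f * s t) = 1 := by
  obtain ⟨k, hk, hkeq⟩ := px_six hι h2 hn
  set N := ((g⁻¹ : GL (Fin 4) F) : M₄)
  have h := congrArg (fun X => (g : M₄) * X * N) hkeq
  have e1 : (g : M₄) * (px ι a b * px ι c d) * N =
      ((g : M₄) * px ι a b * N) * ((g : M₄) * px ι c d * N) := by
    have hN : N * (g : M₄) = 1 := g.inv_mul
    calc (g : M₄) * (px ι a b * px ι c d) * N
        = (g : M₄) * px ι a b * (N * (g : M₄)) * (px ι c d * N) := by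
          rw [hN, mul_one]; simp only [mul_assoc]
      _ = _ := by simp only [mul_assoc]
  simp only [e1, Matrix.mul_smul, Matrix.smul_mul, conj_px_of_diag hι h2 hg hl, smul_smul,
    N] at h
  rw [hkeq, smul_smul] at h
  have h' := smul_left_injective F (px_ne_zero hι f t) h
  have h'' : s a * s b * (s c * s d) = s f * s t := by
    refine mul_left_cancel₀ hk ?_
    linear_combination h'
  rw [h'']
  linear_combination (s t * s t) * hs f + hs t

/-- The kernel of the action on the frame consists of the standard Pauli group. -/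
lemma isStd_of_diag {g : GL (Fin 4) F} (hg : (g : M₄).det = 1) {s : Fin 6 → F}
    (hs : ∀ z, s z * s z = 1) (hl : ∀ z, lam ι g (e z) = s z • e z) : IsStd ι g := by
  classical
  have hm1 : (-1 : F) ≠ 1 := fun h => h2 (by linear_combination -h)
  have hp := sign_prod hι h2 hg hs hl (a := 0) (b := 1) (c := 2) (d := 3) (f := 4) (t := 5)
    (by decide)
  have hst : ∀ z, s z = sgnB F (decide (s z = -1)) := fun z => by
    rcases mul_self_eq_one_iff.1 (hs z) with h | h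
    · rw [decide_eq_false (fun h' => hm1 (h'.symm.trans h))]; exact h
    · rw [decide_eq_true h]; exact h
  rw [hst 0, hst 1, hst 2, hst 3, hst 4, hst 5] at hp
  simp only [sgnB_mul] at hp
  obtain ⟨a, b, u, hu⟩ := even_pattern (fun z => decide (s z = -1)) (by
    by_contra h
    rw [Bool.not_eq_false] at h
    rw [h] at hp
    exact hm1 hp)
  set t := g * pxu hι a b
  have ht : (t : M₄).det = 1 := by simp [t, Matrix.det_mul, hg, det_pxu]
  obtain ⟨c, hc⟩ := scalar_of_lam hι h2 ht (ε := sgnB F u) fun z => by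
    rw [lam_mul hι h2, lam_pxu' hι h2, lam_smul hι h2, hl, smul_smul, hst z, hu z, sgnB_mul]
    cases u <;> cases decide (a ≠ b ∧ (z = a ∨ z = b)) <;> rfl
  refine ⟨c, b, a, pow_four_of_det ht hc, ?_⟩
  have : (g : M₄) = (t : M₄) * px ι b a := by
    simp [t, coe_pxu, mul_assoc, px_mul hι, px_self hι]
  rw [this, hc, Matrix.smul_mul, one_mul]

/-- A lift of a product of two disjoint transpositions. -/
def dbl (a b c d : Fin 6) (hab : a ≠ b) (hcd : c ≠ d) : GL (Fin 4) F :=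
  pr hι 2⁻¹ (e a - e b) (e c - e d) (by
    simp [sub_dotProduct, dotProduct_sub, e_dot, hab, hab.symm, hcd, hcd.symm]
    field_simp
    norm_num)

lemma det_dbl (a b c d : Fin 6) (hab : a ≠ b) (hcd : c ≠ d) :
    ((dbl hι h2 a b c d hab hcd : GL (Fin 4) F) : M₄).det = 1 :=
  det_pr hι _ _ _ _

lemma lam_dbl {a b c d : Fin 6} (h : [a, b, c, d].Nodup) (hab : a ≠ b) (hcd : c ≠ d) (z : Fin 6) :
    lam ι (dbl hι h2 a b c d hab hcd) (e z) = e ((Equiv.swap a b * Equiv.swap c d) z) := by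
  have hn := h
  simp only [List.nodup_cons, List.mem_cons, not_or, List.not_mem_nil, not_false_iff, and_true,
    List.nodup_nil] at hn
  obtain ⟨⟨-, nac, nad⟩, ⟨nbc, nbd⟩, -⟩ := hn
  rw [dbl, lam_pr hι h2]
  simp only [sub_dotProduct, dotProduct_sub, e_dot, if_neg hab, if_neg hab.symm, if_neg hcd,
    if_neg hcd.symm, if_neg nac, if_neg nad, if_neg nbc, if_neg nbd, if_true, Equiv.Perm.mul_apply]
  rcases eq_or_ne z a with rfl | za
  · rw [Equiv.swap_apply_of_ne_of_ne nac nad, Equiv.swap_apply_left]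
    simp [hab.symm, Ne.symm nac, Ne.symm nad]
    match_scalars <;> field_simp <;> ring
  rcases eq_or_ne z b with rfl | zb
  · rw [Equiv.swap_apply_of_ne_of_ne nbc nbd, Equiv.swap_apply_right]
    simp [hab, Ne.symm nbc, Ne.symm nbd]
    match_scalars <;> field_simp <;> ring
  rcases eq_or_ne z c with rfl | zc
  · rw [Equiv.swap_apply_left, Equiv.swap_apply_of_ne_of_ne (Ne.symm nad) (Ne.symm nbd)]
    simp [hcd.symm, nac, nbc]
    match_scalars <;> field_simp <;> ring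
  rcases eq_or_ne z d with rfl | zd
  · rw [Equiv.swap_apply_right, Equiv.swap_apply_of_ne_of_ne (Ne.symm nac) (Ne.symm nbc)]
    simp [hcd, nad, nbd]
    match_scalars <;> field_simp <;> ring
  rw [Equiv.swap_apply_of_ne_of_ne zc zd, Equiv.swap_apply_of_ne_of_ne za zb]
  simp [Ne.symm za, Ne.symm zb, Ne.symm zc, Ne.symm zd]
  match_scalars <;> field_simp <;> ring

lemma mono_dbl {a b c d : Fin 6} (h : [a, b, c, d].Nodup) (hab : a ≠ b) (hcd : c ≠ d) :
    Mono ι (dbl hι h2 a b c d hab hcd) :=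
  ⟨det_dbl hι h2 a b c d hab hcd, fun z => ⟨_, 1, one_mul 1, by
    rw [lam_dbl hι h2 h hab hcd, one_smul]⟩⟩

lemma dbl_sq {a b c d : Fin 6} (h : [a, b, c, d].Nodup) (hab : a ≠ b) (hcd : c ≠ d) :
    ∃ k : F, ((dbl hι h2 a b c d hab hcd * dbl hι h2 a b c d hab hcd : GL (Fin 4) F) : M₄) =
      k • 1 := by
  refine scalar_of_lam hι h2 (ε := 1) (by simp [Matrix.det_mul, det_dbl]) fun z => ?_
  rw [lam_mul hι h2, lam_dbl hι h2 h, lam_dbl hι h2 h, one_smul]
  congr 1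
  revert h
  exact (show ∀ a b c d z : Fin 6, [a, b, c, d].Nodup →
    (Equiv.swap a b * Equiv.swap c d) ((Equiv.swap a b * Equiv.swap c d) z) = z by decide +kernel) a b c d z

omit hι h2 in
lemma six_perm_values : ∀ a b c d f t : Fin 6, [a, b, c, d, f, t].Nodup →
    ((Equiv.swap a c * Equiv.swap b d) a = c ∧ (Equiv.swap a c * Equiv.swap b d) b = d ∧
      (Equiv.swap a c * Equiv.swap b d) c = a ∧ (Equiv.swap a c * Equiv.swap b d) d = b ∧
      (Equiv.swap a c * Equiv.swap b d) f = f ∧ (Equiv.swap a c * Equiv.swap b d) t = t) ∧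
    ((Equiv.swap a b * Equiv.swap c d) a = b ∧ (Equiv.swap a b * Equiv.swap c d) c = d ∧
      (Equiv.swap a b * Equiv.swap c d) f = f) ∧
    ((Equiv.swap a b * Equiv.swap f t) a = b ∧ (Equiv.swap a b * Equiv.swap f t) c = c ∧
      (Equiv.swap a b * Equiv.swap f t) f = t) ∧
    ((Equiv.swap c d * Equiv.swap f t) a = a ∧ (Equiv.swap c d * Equiv.swap f t) c = d ∧
      (Equiv.swap c d * Equiv.swap f t) f = t) := by
  decide +kernel

/-- Three conjugate products cannot act as three double transpositions permuted by a fourth. -/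
theorem fused_false {g m : GL (Fin 4) F} (hm : Mono ι m)
    {a b c d f t : Fin 6} (hn : [a, b, c, d, f, t].Nodup)
    {p q r s u v : Fin 6} (hn' : [p, q, r, s, u, v].Nodup)
    {N₁ N₂ N₃ : GL (Fin 4) F} (hN₁ : N₁ = g * pxu hι p q * g⁻¹)
    (hN₂ : N₂ = g * pxu hι r s * g⁻¹) (hN₃ : N₃ = g * pxu hι u v * g⁻¹)
    (h₁ : Mono ι N₁) (h₂ : Mono ι N₂) (h₃ : Mono ι N₃)
    (i₁ : ∀ z, h₁.img z = (Equiv.swap a b * Equiv.swap c d) z)
    (i₂ : ∀ z, h₂.img z = (Equiv.swap a b * Equiv.swap f t) z)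
    (i₃ : ∀ z, h₃.img z = (Equiv.swap c d * Equiv.swap f t) z)
    (im : ∀ z, hm.img z = (Equiv.swap a c * Equiv.swap b d) z)
    {k₁ k₂ : F} (c₁ : ((m * N₁ * m⁻¹ : GL (Fin 4) F) : M₄) = k₁ • (N₁ : M₄))
    (c₂ : ((m * N₂ * m⁻¹ : GL (Fin 4) F) : M₄) = k₂ • (N₃ : M₄)) : False := by
  obtain ⟨⟨ma, mb, mc, md, mf, mt⟩, ⟨a1, c1, f1⟩, ⟨a2, c2', f2⟩, ⟨a3, c3, f3⟩⟩ :=
    six_perm_values a b c d f t hn
  have hn1 := hn
  have hnp := hn'
  simp only [List.nodup_cons, List.mem_cons, not_or, List.not_mem_nil, not_false_iff, and_true,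
    List.nodup_nil] at hn1 hnp
  obtain ⟨⟨nab, nac, nad, naf, nat⟩, ⟨nbc, nbd, nbf, nbt⟩, ⟨ncd, ncf, nct⟩, ⟨ndf, ndt⟩, nft⟩ := hn1
  obtain ⟨⟨npq, npr, nps, npu, npv⟩, ⟨nqr, nqs, nqu, nqv⟩, ⟨nrs, nru, nrv⟩, ⟨nsu, nsv⟩, nuv⟩ := hnp
  -- the three actions add up to the identity
  have hsum : ∀ w, lam ι N₁ w + lam ι N₂ w + lam ι N₃ w = w := by
    intro w
    have hw : lam ι g (lam ι g⁻¹ w) = w := by
      rw [← lam_mul hι h2, mul_inv_cancel, lam_one hι h2]
    have key : ∀ y, lam ι (pxu hι p q) y + lam ι (pxu hι r s) y + lam ι (pxu hι u v) y = y := by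
      intro y
      conv_lhs => rw [eq_sum_e y]
      conv_rhs => rw [eq_sum_e y]
      simp only [lam_sum hι h2, lam_smul hι h2, ← Finset.sum_add_distrib, ← smul_add]
      refine Finset.sum_congr rfl fun z _ => ?_
      congr 1
      rw [lam_pxu hι h2 npq, lam_pxu hι h2 nrs, lam_pxu hι h2 nuv, ← add_smul, ← add_smul]
      conv_rhs => rw [← one_smul F (e z)]
      congr 1
      rcases mem_six hn' z with rfl | rfl | rfl | rfl | rfl | rfl <;>
        simp [npr, nps, npu, npv, nqr, nqs, nqu, nqv, nru, nrv, nsu, nsv, Ne.symm npr, Ne.symm nps,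
          Ne.symm npu, Ne.symm npv, Ne.symm nqr, Ne.symm nqs, Ne.symm nqu, Ne.symm nqv,
          Ne.symm nru, Ne.symm nrv, Ne.symm nsu, Ne.symm nsv]
    rw [hN₁, hN₂, hN₃]
    simp only [lam_mul hι h2]
    rw [← lam_add hι h2, ← lam_add hι h2, key, hw]
  have hcoef : ∀ {x y : Fin 6} {s₁ s₂ s₃ : F}, x ≠ y →
      s₁ • (e y : Fin 6 → F) + s₂ • e y + s₃ • e x = e x → s₁ + s₂ = 0 ∧ s₃ = 1 := by
    intro x y s₁ s₂ s₃ hxy h
    constructor
    · have := congrFun h y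
      simpa [e, hxy.symm] using this
    · have := congrFun h x
      simpa [e, hxy] using this
  obtain ⟨α₁, hα₁, eα₁⟩ := h₁.exists_sign a
  obtain ⟨α₂, hα₂, eα₂⟩ := h₂.exists_sign a
  obtain ⟨α₃, hα₃, eα₃⟩ := h₃.exists_sign a
  obtain ⟨γ₁, hγ₁, eγ₁⟩ := h₁.exists_sign c
  obtain ⟨γ₂, hγ₂, eγ₂⟩ := h₂.exists_sign c
  obtain ⟨γ₃, hγ₃, eγ₃⟩ := h₃.exists_sign c
  obtain ⟨φ₁, hφ₁, eφ₁⟩ := h₁.exists_sign f
  obtain ⟨φ₂, hφ₂, eφ₂⟩ := h₂.exists_sign f
  obtain ⟨φ₃, hφ₃, eφ₃⟩ := h₃.exists_sign f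
  rw [i₁, a1] at eα₁
  rw [i₂, a2] at eα₂
  rw [i₃, a3] at eα₃
  rw [i₁, c1] at eγ₁
  rw [i₂, c2'] at eγ₂
  rw [i₃, c3] at eγ₃
  rw [i₁, f1] at eφ₁
  rw [i₂, f2] at eφ₂
  rw [i₃, f3] at eφ₃
  obtain ⟨-, hγ2⟩ := hcoef (s₁ := γ₁) (s₂ := γ₃) (s₃ := γ₂) ncd (by
    rw [← eγ₁, ← eγ₂, ← eγ₃, add_right_comm]; exact hsum (e c))
  obtain ⟨hφ, hφ1⟩ := hcoef (s₁ := φ₂) (s₂ := φ₃) (s₃ := φ₁) nft (by
    rw [← eφ₁, ← eφ₂, ← eφ₃, add_comm, ← add_assoc]; exact hsum (e f))
  -- the two equations of the fourth element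
  have hsq : ∀ (T : GL (Fin 4) F) {x y : Fin 6}, x ≠ y → T = g * pxu hι x y * g⁻¹ →
      ((T * T : GL (Fin 4) F) : M₄) = (-1 : F) • 1 := by
    intro T x y hxy hT
    rw [hT, show g * pxu hι x y * g⁻¹ * (g * pxu hι x y * g⁻¹) =
      g * (pxu hι x y * pxu hι x y) * g⁻¹ by group, Units.val_mul, Units.val_mul,
      pxu_sq hι h2 hxy, Matrix.mul_smul, mul_one, Matrix.smul_mul, Units.mul_inv]
  have hscal : ∀ (T S : GL (Fin 4) F) {k : F}, ((T * T : GL (Fin 4) F) : M₄) = (-1 : F) • 1 →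
      ((S * S : GL (Fin 4) F) : M₄) = (-1 : F) • 1 →
      ((m * T * m⁻¹ : GL (Fin 4) F) : M₄) = k • (S : M₄) →
      ∀ w, lam ι m (lam ι T w) = lam ι S (lam ι m w) := by
    intro T S k hT hS h w
    have hkk : k * k = 1 := by
      have e1 : ((m * T * m⁻¹ * (m * T * m⁻¹) : GL (Fin 4) F) : M₄) = (-1 : F) • 1 := by
        rw [show m * T * m⁻¹ * (m * T * m⁻¹) = m * (T * T) * m⁻¹ by group, Units.val_mul,
          Units.val_mul, hT, Matrix.mul_smul, mul_one, Matrix.smul_mul, Units.mul_inv]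
      rw [Units.val_mul (m * T * m⁻¹), h, Matrix.smul_mul, Matrix.mul_smul, smul_smul,
        ← Units.val_mul, hS, smul_smul] at e1
      have := smul_left_injective F (one_ne_zero (α := M₄)) e1
      linear_combination -this
    have h1 := lam_of_eq hι h2 h (lam ι m w)
    rw [hkk, one_smul, ← lam_mul hι h2, inv_mul_cancel_right, lam_mul hι h2] at h1
    exact h1
  have hs1 := hsq N₁ npq hN₁
  have hA := hscal N₁ N₁ hs1 hs1 c₁
  have hB := hscal N₂ N₃ (hsq N₂ nrs hN₂) (hsq N₃ nuv hN₃) c₂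
  -- images of the other points of the pairs
  have hinv : ∀ {T : GL (Fin 4) F} {x y : Fin 6} {s : F}, s * s = 1 →
      ((T * T : GL (Fin 4) F) : M₄) = (-1 : F) • 1 → lam ι T (e x) = s • e y →
      lam ι T (e y) = s • e x := by
    intro T x y s hs hT h
    have h1 := lam_scalar hι h2 hT (e x)
    rw [lam_mul hι h2, h, lam_smul hι h2, neg_mul_neg, one_mul, one_smul] at h1
    rw [← h1, smul_smul, hs, one_smul]
  have eb₁ := hinv hα₁ hs1 eα₁
  have ed₁ := hinv hγ₁ hs1 eγ₁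
  obtain ⟨ν₀, hν₀, eν₀⟩ := hm.exists_sign a
  obtain ⟨ν₁, hν₁, eν₁⟩ := hm.exists_sign b
  obtain ⟨ν₂, hν₂, eν₂⟩ := hm.exists_sign c
  obtain ⟨ν₃, hν₃, eν₃⟩ := hm.exists_sign d
  obtain ⟨ν₄, hν₄, eν₄⟩ := hm.exists_sign f
  obtain ⟨ν₅, hν₅, eν₅⟩ := hm.exists_sign t
  rw [im, ma] at eν₀
  rw [im, mb] at eν₁
  rw [im, mc] at eν₂
  rw [im, md] at eν₃
  rw [im, mf] at eν₄
  rw [im, mt] at eν₅
  have single : ∀ {x : Fin 6} {s s' : F}, s • (e x : Fin 6 → F) = s' • e x → s = s' := by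
    intro x s s' h
    simpa [e] using congrFun h x
  have r1 : α₁ * ν₁ = ν₀ * γ₁ := by
    refine single (x := d) ?_
    have := hA (e a)
    rwa [eα₁, lam_smul hι h2, eν₁, eν₀, lam_smul hι h2, eγ₁, smul_smul, smul_smul] at this
  have r2 : γ₁ * ν₃ = ν₂ * α₁ := by
    refine single (x := b) ?_
    have := hA (e c)
    rwa [eγ₁, lam_smul hι h2, eν₃, eν₂, lam_smul hι h2, eα₁, smul_smul, smul_smul] at this
  have r3 : φ₂ * ν₅ = ν₄ * φ₃ := by
    refine single (x := t) ?_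
    have := hB (e f)
    rwa [eφ₂, lam_smul hι h2, eν₅, eν₄, lam_smul hι h2, eφ₃, smul_smul, smul_smul] at this
  -- the product of the signs of `m`
  have hnd : [a, c, b, d].Nodup := by
    simp [nac, nab, nad, nbd, ncd, Ne.symm nbc]
  set k := dbl hι h2 a c b d nac nbd * m
  have hk : (k : M₄).det = 1 := by simp [k, Matrix.det_mul, det_dbl, hm.1]
  set σ : Fin 6 → F := fun z => lam ι k (e z) z
  have hσ : ∀ z, ∃ ν : F, ν * ν = 1 ∧ lam ι k (e z) = ν • e z := by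
    intro z
    obtain ⟨ν, hν, eν⟩ := hm.exists_sign z
    refine ⟨ν, hν, ?_⟩
    rw [lam_mul hι h2, eν, lam_smul hι h2, lam_dbl hι h2 hnd, im]
    congr 2
    rcases mem_six hn z with rfl | rfl | rfl | rfl | rfl | rfl <;>
      simp only [ma, mb, mc, md, mf, mt]
  have hcoord : ∀ {z : Fin 6} {ν : F}, lam ι k (e z) = ν • e z → σ z = ν := by
    intro z ν h
    show lam ι k (e z) z = ν
    rw [h]
    simp [e]
  have hσs : ∀ z, lam ι k (e z) = σ z • e z := fun z => by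
    obtain ⟨ν, -, eν⟩ := hσ z
    rw [hcoord eν]
    exact eν
  have hσsq : ∀ z, σ z * σ z = 1 := fun z => by
    obtain ⟨ν, hν, eν⟩ := hσ z
    rw [hcoord eν]
    exact hν
  have hval : ∀ {z w : Fin 6} {ν : F}, lam ι m (e z) = ν • e w →
      (Equiv.swap a c * Equiv.swap b d) w = z → σ z = ν := by
    intro z w ν h hw
    refine hcoord ?_
    rw [lam_mul hι h2, h, lam_smul hι h2, lam_dbl hι h2 hnd, hw]
  have hprod := sign_prod hι h2 hk hσsq hσs hn
  rw [hval eν₀ mc, hval eν₁ md, hval eν₂ ma, hval eν₃ mb, hval eν₄ mf, hval eν₅ mt] at hprod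
  have r3' : ν₅ = -ν₄ := by linear_combination φ₂ * r3 + φ₂ * ν₄ * hφ + (-ν₅ - ν₄) * hφ₂
  have r1' : ν₁ = α₁ * ν₀ * γ₁ := by linear_combination α₁ * r1 - ν₁ * hα₁
  have r2' : ν₃ = γ₁ * ν₂ * α₁ := by linear_combination γ₁ * r2 - ν₃ * hγ₁
  rw [r1', r2', r3'] at hprod
  refine h2 ?_
  linear_combination -hprod - (α₁ * α₁ * γ₁ * γ₁ * ν₂ * ν₂ * ν₄ * ν₄) * hν₀ -
    (α₁ * α₁ * γ₁ * γ₁ * ν₄ * ν₄) * hν₂ - (α₁ * α₁ * γ₁ * γ₁) * hν₄ - (γ₁ * γ₁) * hα₁ - hγ₁

end CfsgLib.Geometric.SLFour
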