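import Mathlib.LinearAlgebra.Matrix.GeneralLinearGroup.Defs
import Mathlib.LinearAlgebra.Matrix.NonsingularInverse
import Mathlib.LinearAlgebra.Matrix.Notation
import Mathlib.Tactic.LinearCombination
import Mathlib.Tactic.FinCases

/-!
Two commuting pairs of anticommuting involutory matrices of size four are simultaneously conjugate
to the tensor factors of the standard Pauli matrices.
-/

set_option autoImplicit false

namespace CfsgLib.Geometric.SLFour

open Matrix

variable {F : Type*} [Field F]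

local notation "M₄" => Matrix (Fin 4) (Fin 4) F

/-- The standard first sign matrix. -/
def Zf : M₄ := !![1, 0, 0, 0; 0, 1, 0, 0; 0, 0, -1, 0; 0, 0, 0, -1]
/-- The standard second sign matrix. -/
def Zs : M₄ := !![1, 0, 0, 0; 0, -1, 0, 0; 0, 0, 1, 0; 0, 0, 0, -1]
/-- The standard first flip. -/
def Xf : M₄ := !![0, 0, 1, 0; 0, 0, 0, 1; 1, 0, 0, 0; 0, 1, 0, 0]
/-- The standard second flip. -/
def Xs : M₄ := !![0, 1, 0, 0; 1, 0, 0, 0; 0, 0, 0, 1; 0, 0, 1, 0]

/-- The relations of the standard four matrices. -/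
structure PauliPairs (A B C D : M₄) : Prop where
  sqA : A * A = 1
  sqB : B * B = 1
  sqC : C * C = 1
  sqD : D * D = 1
  BA : B * A = -(A * B)
  DC : D * C = -(C * D)
  CA : C * A = A * C
  CB : C * B = B * C
  DA : D * A = A * D
  DB : D * B = B * D

/-- Two commuting pairs of anticommuting involutions form a standard system. -/
theorem exists_standard_basis (h2 : (2 : F) ≠ 0) {A B C D : M₄} (h : PauliPairs A B C D) :
    ∃ P : GL (Fin 4) F, A * (P : M₄) = (P : M₄) * Zf ∧ B * (P : M₄) = (P : M₄) * Xf ∧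
      C * (P : M₄) = (P : M₄) * Zs ∧ D * (P : M₄) = (P : M₄) * Xs := by
  obtain ⟨hA, hB, hC, hD, hBA, hDC, hCA, hCB, hDA, hDB⟩ := h
  have hAB : A * B = -(B * A) := by rw [hBA, neg_neg]
  have hCD : C * D = -(D * C) := by rw [hDC, neg_neg]
  -- a common fixed vector of the two sign matrices
  have hne : (1 + A) * (1 + C) ≠ 0 := by
    intro h0
    have h1 : (1 - A) * (1 + C) = 0 := by
      have h3 : B * ((1 + A) * (1 + C)) = ((1 - A) * (1 + C)) * B := by
        have e1 : B * (1 + A) = (1 - A) * B := by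
          rw [Matrix.mul_add, Matrix.sub_mul, one_mul, mul_one, hBA, sub_eq_add_neg]
        have e2 : B * (1 + C) = (1 + C) * B := by
          rw [Matrix.mul_add, Matrix.add_mul, one_mul, mul_one, hCB]
        rw [← mul_assoc, e1, mul_assoc, e2, ← mul_assoc]
      rw [h0, Matrix.mul_zero] at h3
      have h4 := congrArg (· * B) h3.symm
      simpa [mul_assoc, hB] using h4
    have h5 : (2 : F) • (1 + C) = 0 := by
      have := congrArg₂ (· + ·) h0 h1
      simp only [← Matrix.add_mul, add_zero] at this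
      rw [show (1 + A + (1 - A) : M₄) = (2 : F) • 1 by rw [two_smul]; abel, Matrix.smul_mul,
        one_mul] at this
      exact this
    have hC1 : C = -1 := by
      have := (smul_eq_zero.mp h5).resolve_left h2
      exact eq_neg_of_add_eq_zero_right this
    rw [hC1] at hDC
    simp only [Matrix.mul_neg, Matrix.neg_mul, mul_one, one_mul, neg_neg] at hDC
    have h6 : (2 : F) • D = 0 := by
      rw [two_smul]
      nth_rewrite 1 [← hDC]
      exact add_eq_zero_iff_eq_neg.mpr (by simp [hDC])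
    rw [(smul_eq_zero.mp h6).resolve_left h2, Matrix.mul_zero] at hD
    exact zero_ne_one hD
  obtain ⟨w, hw⟩ : ∃ w : Fin 4 → F, ((1 + A) * (1 + C)) *ᵥ w ≠ 0 := by
    by_contra hc
    push Not at hc
    exact hne (Matrix.ext_of_mulVec_single fun j => by rw [hc, Matrix.zero_mulVec])
  set v := ((1 + A) * (1 + C)) *ᵥ w with hv
  have hAv : A *ᵥ v = v := by
    rw [hv, Matrix.mulVec_mulVec, ← mul_assoc,
      show A * (1 + A) = 1 + A by rw [Matrix.mul_add, mul_one, hA, add_comm]]
  have hCv : C *ᵥ v = v := by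
    rw [hv, Matrix.mulVec_mulVec]
    congr 1
    simp only [Matrix.mul_add, Matrix.add_mul, mul_one, one_mul, ← mul_assoc, hCA]
    simp only [mul_assoc, hC, mul_one]
    abel
  set P : M₄ := Matrix.of fun m j => ((![1, D, B, B * D] : Fin 4 → M₄) j *ᵥ v) m with hP
  have hcol : ∀ (T : M₄) (j : Fin 4),
      (fun m => (T * P) m j) = T *ᵥ ((![1, D, B, B * D] : Fin 4 → M₄) j *ᵥ v) := fun T j => by
    funext m; simp [Matrix.mul_apply, Matrix.mulVec, dotProduct, hP]
  have hA' : ∀ X : M₄, A * (B * X) = -(B * (A * X)) := fun X => by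
    rw [← mul_assoc, hAB, Matrix.neg_mul, mul_assoc]
  have eAB : A *ᵥ (B *ᵥ v) = -(B *ᵥ v) := by
    rw [Matrix.mulVec_mulVec, hAB, Matrix.neg_mulVec, ← Matrix.mulVec_mulVec, hAv]
  have eAD : A *ᵥ (D *ᵥ v) = D *ᵥ v := by
    rw [Matrix.mulVec_mulVec, ← hDA, ← Matrix.mulVec_mulVec, hAv]
  have eAP : A *ᵥ ((B * D) *ᵥ v) = -((B * D) *ᵥ v) := by
    rw [Matrix.mulVec_mulVec, hA', ← hDA, Matrix.neg_mulVec, ← mul_assoc,
      ← Matrix.mulVec_mulVec, hAv]
  have eCB : C *ᵥ (B *ᵥ v) = B *ᵥ v := by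
    rw [Matrix.mulVec_mulVec, hCB, ← Matrix.mulVec_mulVec, hCv]
  have eCD : C *ᵥ (D *ᵥ v) = -(D *ᵥ v) := by
    rw [Matrix.mulVec_mulVec, hCD, Matrix.neg_mulVec, ← Matrix.mulVec_mulVec, hCv]
  have eCP : C *ᵥ ((B * D) *ᵥ v) = -((B * D) *ᵥ v) := by
    rw [Matrix.mulVec_mulVec, ← mul_assoc, hCB, mul_assoc, hCD, Matrix.mul_neg, Matrix.neg_mulVec,
      ← mul_assoc, ← Matrix.mulVec_mulVec, hCv]
  have iA : A * P = P * Zf := by
    ext m j
    have h1 := congrFun (hcol A j) m
    rw [h1]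
    fin_cases j <;> simp [Zf, Matrix.mul_apply, Fin.sum_univ_four, hP, hAv, eAB, eAD, eAP]
  have iC : C * P = P * Zs := by
    ext m j
    have h1 := congrFun (hcol C j) m
    rw [h1]
    fin_cases j <;> simp [Zs, Matrix.mul_apply, Fin.sum_univ_four, hP, hCv, eCB, eCD, eCP]
  have iB : B * P = P * Xf := by
    ext m j
    have h1 := congrFun (hcol B j) m
    rw [h1]
    fin_cases j <;>
      simp [Xf, Matrix.mul_apply, Fin.sum_univ_four, hP, Matrix.mulVec_mulVec, ← mul_assoc, hB]
  have iD : D * P = P * Xs := by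
    ext m j
    have h1 := congrFun (hcol D j) m
    rw [h1]
    fin_cases j <;>
      simp [Xs, Matrix.mul_apply, Fin.sum_univ_four, hP, Matrix.mulVec_mulVec, ← mul_assoc, hD, hDB]
    · rw [mul_assoc, hD, mul_one]
  have hu : IsUnit P := by
    rw [← Matrix.mulVec_injective_iff_isUnit]
    intro x y hxy
    have h0 : P *ᵥ (x - y) = 0 := by rw [Matrix.mulVec_sub, hxy, sub_self]
    have hk : ∀ {T S : M₄}, T * P = P * S → ∀ u, P *ᵥ u = 0 → P *ᵥ (S *ᵥ u) = 0 := by
      intro T S hTS u hu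
      rw [Matrix.mulVec_mulVec, ← hTS, ← Matrix.mulVec_mulVec, hu, Matrix.mulVec_zero]
    have hkadd : ∀ (u u' : Fin 4 → F) (c : F), P *ᵥ u = 0 → P *ᵥ u' = 0 → P *ᵥ (u + c • u') = 0 := by
      intro u u' c h1 h2
      rw [Matrix.mulVec_add, Matrix.mulVec_smul, h1, h2, smul_zero, add_zero]
    set d := x - y
    have hfirst : ∀ u : Fin 4 → F, P *ᵥ u = 0 → u 0 = 0 := by
      intro u hu'
      have a1 := hkadd u _ 1 hu' (hk iA u hu')
      have a2 := hkadd _ _ 1 a1 (hk iC _ a1)
      have a3 : u + (1 : F) • Zf *ᵥ u + (1 : F) • Zs *ᵥ (u + (1 : F) • Zf *ᵥ u) =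
          Pi.single 0 ((2 * 2) * u 0) := by
        funext m
        fin_cases m <;>
          simp [Zf, Zs, Matrix.mulVec, dotProduct, Fin.sum_univ_four, Matrix.vecHead, Matrix.vecTail] <;> ring
      rw [a3] at a2
      have a4 : v = (fun m => P m 0) := funext fun m => by simp [hP]
      have a5 : ((2 * 2) * u 0) • v = 0 := by
        rw [a4, ← a2]
        funext m
        simp [Matrix.mulVec, dotProduct, Fin.sum_univ_four]
        ring
      have := (smul_eq_zero.mp a5).resolve_right hw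
      exact (mul_eq_zero.mp this).resolve_left (mul_ne_zero h2 h2)
    have e0 := hfirst d h0
    have e1 := hfirst _ (hk iD d h0)
    have e2 := hfirst _ (hk iB d h0)
    have e3 := hfirst _ (hk iD _ (hk iB d h0))
    simp [Xs, Xf, Matrix.mulVec, dotProduct, Fin.sum_univ_four] at e1 e2 e3
    refine sub_eq_zero.mp (funext fun m => ?_)
    fin_cases m <;> assumption
  obtain ⟨Q, hQ⟩ := hu
  exact ⟨Q, by rw [hQ]; exact ⟨iA, iB, iC, iD⟩⟩

end CfsgLib.Geometric.SLFour
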