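import Cfsg.Agent.Lib.Geometric.SLFour.StandardBasis
import Cfsg.Agent.Lib.PauliFour.FrameGL
import Cfsg.Agent.Lib.PauliFour.Setup4

/-!
A Pauli group of size four with centre of order four is conjugate to the standard one.
-/

set_option autoImplicit false

namespace CfsgLib.Geometric.SLFour

open scoped Matrix
open Cfsg.Geo CfsgLib.SmallDim CfsgLib.PauliFour

variable {F : Type*} [Field F]

local notation "M₄" => Matrix (Fin 4) (Fin 4) F

/-- The standard Pauli group with scalars of order four. -/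
def stdPauli (F : Type*) [Field F] : Subgroup (GL (Fin 4) F) :=
  Subgroup.closure {x | (∃ c : F, c ^ 4 = 1 ∧
    (x : Matrix (Fin 4) (Fin 4) F) = c • (1 : Matrix (Fin 4) (Fin 4) F)) ∨
    (x : Matrix (Fin 4) (Fin 4) F) = Zf ∨ (x : Matrix (Fin 4) (Fin 4) F) = Xf ∨
    (x : Matrix (Fin 4) (Fin 4) F) = Zs ∨ (x : Matrix (Fin 4) (Fin 4) F) = Xs}

lemma scalar_mem_stdPauli {x : GL (Fin 4) F} {c : F} (hc : c ^ 4 = 1)
    (hx : (x : M₄) = c • 1) : x ∈ stdPauli F :=
  Subgroup.subset_closure (Or.inl ⟨c, hc, hx⟩)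

/-- A Pauli group with centre of order four is a conjugate of the standard one. -/
theorem exists_conj_stdPauli [Finite F] {R : Subgroup (GL (Fin 4) F)} (hR : IsPauli R)
    (hZ : Nat.card (Subgroup.center R) = 4) (h2 : (2 : F) ≠ 0) :
    ∃ P : GL (Fin 4) F, R = (stdPauli F).map (MulAut.conj P).toMonoidHom := by
  classical
  obtain ⟨hsc, i, hi⟩ := scalars_of_card_center hR hZ
  obtain ⟨ie, hie⟩ := hsc i (by linear_combination (i * i - 1) * hi)
  obtain ⟨g, hΓ, hgen⟩ := exists_frame_gl hR hi hie (Fintype.card_fin 4) h2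
  have hs : ∀ {k : Fin 5}, mt (g k) * mt (g k) = 1 := fun {k} => hΓ.sq k
  have hs' : ∀ {k : Fin 5} X, mt (g k) * (mt (g k) * X) = X := fun {k} X => by
    rw [← mul_assoc, hs, one_mul]
  have ha : ∀ {k l : Fin 5}, l < k → mt (g k) * mt (g l) = -(mt (g l) * mt (g k)) :=
    fun h => hΓ.anti _ _ h.ne'
  have ha' : ∀ {k l : Fin 5} X, l < k →
      mt (g k) * (mt (g l) * X) = -(mt (g l) * (mt (g k) * X)) := fun X h => by
    rw [← mul_assoc, ha h, Matrix.neg_mul, mul_assoc]
  -- the two pairs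
  set z2 : R := ie * (g 0 * g 1 * g 2) with hz2
  set x2 : R := ie * (g 0 * g 1 * g 3) with hx2
  have e2 : mt z2 = i • (mt (g 0) * mt (g 1) * mt (g 2)) := by
    rw [hz2, mt_mul, mt_mul, mt_mul, hie, Matrix.smul_mul, one_mul]
  have e3 : mt x2 = i • (mt (g 0) * mt (g 1) * mt (g 3)) := by
    rw [hx2, mt_mul, mt_mul, mt_mul, hie, Matrix.smul_mul, one_mul]
  have hpairs : PauliPairs (mt (g 0)) (mt (g 1)) (mt z2) (mt x2) := by
    refine ⟨hs, hs, ?_, ?_, ha (by decide), ?_, ?_, ?_, ?_, ?_⟩ <;>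
      simp (discharger := decide) [e2, e3, mul_assoc, hs, hs', ha, ha', smul_smul, hi]
  obtain ⟨P, hA, hB, hC, hD⟩ := exists_standard_basis h2 hpairs
  refine ⟨P, ?_⟩
  set S := (stdPauli F).map (MulAut.conj P).toMonoidHom with hS
  have hSmem : ∀ x, x ∈ S ↔ P⁻¹ * x * P ∈ stdPauli F := by
    intro x
    rw [hS, Subgroup.mem_map_equiv]
    simp [MulAut.conj_symm_apply]
  have hconj : ∀ (r : R) (T : M₄), mt r * (P : M₄) = (P : M₄) * T →
      ((P⁻¹ * (r : GL (Fin 4) F) * P : GL (Fin 4) F) : M₄) = T := fun r T h => by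
    rw [Units.val_mul, Units.val_mul, mul_assoc, show ((r : GL (Fin 4) F) : M₄) * (P : M₄) = _
      from h, ← mul_assoc, Units.inv_mul, one_mul]
  have gA : ((g 0 : R) : GL (Fin 4) F) ∈ S :=
    (hSmem _).2 (Subgroup.subset_closure (Or.inr (Or.inl (hconj _ _ hA))))
  have gB : ((g 1 : R) : GL (Fin 4) F) ∈ S :=
    (hSmem _).2 (Subgroup.subset_closure (Or.inr (Or.inr (Or.inl (hconj _ _ hB)))))
  have gC : (z2 : GL (Fin 4) F) ∈ S :=
    (hSmem _).2 (Subgroup.subset_closure (Or.inr (Or.inr (Or.inr (Or.inl (hconj _ _ hC))))))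
  have gD : (x2 : GL (Fin 4) F) ∈ S :=
    (hSmem _).2 (Subgroup.subset_closure (Or.inr (Or.inr (Or.inr (Or.inr (hconj _ _ hD))))))
  let S0 : Subgroup R := S.subgroupOf R
  have hcen : Subgroup.center R ≤ S0 := fun z hz => by
    obtain ⟨c, hc, hc4⟩ := scalar_of_center hR hz
    refine (hSmem _).2 (scalar_mem_stdPauli hc4 (hconj z _ ?_))
    rw [hc, Matrix.smul_mul, one_mul, Matrix.mul_smul, mul_one]
  have g0 : g 0 ∈ S0 := gA
  have g1 : g 1 ∈ S0 := gB
  have hie0 : ie ∈ S0 := hcen (mem_center_of_scalar hR hie)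
  have g2 : g 2 ∈ S0 := by
    have h : z2 ∈ S0 := gC
    rw [hz2] at h
    exact (S0.mul_mem_cancel_left (S0.mul_mem g0 g1)).1 ((S0.mul_mem_cancel_left hie0).1 h)
  have g3 : g 3 ∈ S0 := by
    have h : x2 ∈ S0 := gD
    rw [hx2] at h
    exact (S0.mul_mem_cancel_left (S0.mul_mem g0 g1)).1 ((S0.mul_mem_cancel_left hie0).1 h)
  have g4 : g 4 ∈ S0 := by
    -- the product of the five is central
    set C5 : R := g 0 * g 1 * g 2 * g 3 * g 4 with hC5
    have hcomm : ∀ k, g k * C5 = C5 * g k := fun k => Subtype.ext (Units.ext (by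
      show mt (g k * C5) = mt (C5 * g k)
      simp only [hC5, mt_mul]
      fin_cases k <;> simp (discharger := decide) [mul_assoc, hs, hs', ha, ha']))
    have hC5 : C5 ∈ Subgroup.center R := by
      let K : Subgroup R := Subgroup.centralizer {C5}
      have hK : ∀ z ∈ Subgroup.center R, z ∈ K := fun z hz =>
        Subgroup.mem_centralizer_singleton_iff.2 ((Subgroup.mem_center_iff.1 hz C5).symm)
      have hmap : K.map (QuotientGroup.mk' (Subgroup.center R)) = ⊤ := by
        rw [eq_top_iff, ← hgen, Subgroup.closure_le]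
        rintro _ ⟨k, rfl⟩
        exact ⟨g k, Subgroup.mem_centralizer_singleton_iff.2 (hcomm k), rfl⟩
      have h1 := congrArg (Subgroup.comap (QuotientGroup.mk' (Subgroup.center R))) hmap
      rw [Subgroup.comap_map_eq, QuotientGroup.ker_mk', sup_eq_left.2 hK, Subgroup.comap_top] at h1
      refine Subgroup.mem_center_iff.2 fun w => ?_
      exact (Subgroup.mem_centralizer_singleton_iff.1 (h1 ▸ Subgroup.mem_top w : w ∈ K))
    exact (S0.mul_mem_cancel_left
      (S0.mul_mem (S0.mul_mem (S0.mul_mem g0 g1) g2) g3)).1 (hcen hC5)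
  refine le_antisymm (fun x hx => ?_) ?_
  · have hmap : S0.map (QuotientGroup.mk' (Subgroup.center R)) = ⊤ := by
      rw [eq_top_iff, ← hgen, Subgroup.closure_le]
      rintro _ ⟨k, rfl⟩
      refine ⟨g k, ?_, rfl⟩
      fin_cases k <;> assumption
    have h1 := congrArg (Subgroup.comap (QuotientGroup.mk' (Subgroup.center R))) hmap
    rw [Subgroup.comap_map_eq, QuotientGroup.ker_mk', sup_eq_left.2 hcen, Subgroup.comap_top] at h1
    exact (h1 ▸ Subgroup.mem_top (⟨x, hx⟩ : R) : (⟨x, hx⟩ : R) ∈ S0)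
  · rw [hS, Subgroup.map_le_iff_le_comap, stdPauli, Subgroup.closure_le]
    intro u hu
    show P * u * P⁻¹ ∈ R
    have hof : ∀ (r : R) (T : M₄), mt r * (P : M₄) = (P : M₄) * T → (u : M₄) = T →
        P * u * P⁻¹ ∈ R := fun r T h hu => by
      have : P * u * P⁻¹ = (r : GL (Fin 4) F) := by
        rw [show u = P⁻¹ * (r : GL (Fin 4) F) * P from Units.ext (hu.trans (hconj r T h).symm)]
        group
      rw [this]
      exact r.2
    rcases hu with ⟨c, hc, hu⟩ | hu | hu | hu | hu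
    · obtain ⟨r, hr⟩ := hsc c hc
      exact hof r _ (by rw [hr, Matrix.smul_mul, one_mul, Matrix.mul_smul, mul_one]) hu
    exacts [hof _ _ hA hu, hof _ _ hB hu, hof _ _ hC hu, hof _ _ hD hu]

end CfsgLib.Geometric.SLFour
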