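import Mathlib
import Cfsg.Agent.Lib.Geometric.SLFour.SL2

/-!
Subgroups of the quaternion real forms of `SL₂` over a field of `p ^ 2` elements, `p ≡ 3 (mod 4)`,
read off from Dickson's list.
-/

set_option autoImplicit false
set_option linter.unusedSectionVars false

namespace CfsgLib.Geometric.SLFour.Unitary

open Matrix CfsgLib.SL2 CfsgLib.SL2.Dickson
open scoped MatrixGroups

variable {F : Type*} [Field F] [Fintype F] {p : ℕ}

local notation "SL₂F" => Matrix.SpecialLinearGroup (Fin 2) F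
local notation "M₂" => Matrix (Fin 2) (Fin 2) F

/-- The data: `p` elements in the fixed field of the involutory automorphism `σ`. -/
structure IsConj₂ (F : Type*) [Field F] [Fintype F] (p : ℕ) (σ : F →+* F) : Prop where
  prime : p.Prime
  mod_four : p % 4 = 3
  card : Fintype.card F = p ^ 2
  frob : ∀ x, σ x = x ^ p

namespace IsConj₂

variable {σ : F →+* F} (hσ : IsConj₂ F p σ)
include hσ

lemma three_le : 3 ≤ p := by have := hσ.mod_four; omega

lemma charP : CharP F p := by
  obtain ⟨r, hr⟩ := CharP.exists F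
  obtain ⟨n, hrp, hn⟩ := FiniteField.card F r
  have : r = p := (Nat.prime_dvd_prime_iff_eq hrp hσ.prime).1
    (hrp.dvd_of_dvd_pow (show r ∣ p ^ 2 from hσ.card ▸ hn ▸ dvd_pow_self r n.pos.ne'))
  exact this ▸ hr

lemma two_ne_zero : (2 : F) ≠ 0 := fun h => by
  haveI := hσ.charP
  have h2 := (CharP.cast_eq_zero_iff F p 2).1 (by exact_mod_cast h)
  have := Nat.le_of_dvd (by norm_num) h2
  have := hσ.three_le
  omega

lemma invol (x : F) : σ (σ x) = x := by
  rw [hσ.frob, hσ.frob, ← pow_mul, ← pow_two, ← hσ.card, FiniteField.pow_card]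

lemma map_iota {ι : F} (hι : ι * ι = -1) : σ ι = -ι := by
  obtain ⟨m, hm⟩ : ∃ m, p = 2 * (2 * m + 1) + 1 := ⟨p / 4, by have := hσ.mod_four; omega⟩
  rw [hσ.frob, hm, pow_succ, pow_mul, pow_two, hι, pow_succ, pow_mul, neg_one_sq, one_pow, one_mul,
    neg_one_mul]

lemma map_natCast_eq (k : ℕ) : σ (k : F) = k := map_natCast σ k

end IsConj₂

/-- The real form attached to `n`. -/
def realForm {σ : F →+* F} (hσ : IsConj₂ F p σ) {n : F} (hn : σ n = n) : Subgroup SL₂F where
  carrier := {B | (B : M₂) 1 1 = σ ((B : M₂) 0 0) ∧ (B : M₂) 1 0 = -(n * σ ((B : M₂) 0 1))}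
  one_mem' := by simp
  mul_mem' := by
    rintro A B ⟨a1, a2⟩ ⟨b1, b2⟩
    simp only [Set.mem_ofPred_eq, Matrix.SpecialLinearGroup.coe_mul, Matrix.mul_apply,
      Fin.sum_univ_two, a1, a2, b1, b2, map_add, map_mul, map_neg, hn, hσ.invol]
    constructor <;> ring
  inv_mem' := by
    rintro A ⟨a1, a2⟩
    simp only [Set.mem_ofPred_eq, Matrix.SpecialLinearGroup.coe_inv, Matrix.adjugate_fin_two, a1, a2,
      of_apply, cons_val', cons_val_zero, cons_val_one, cons_val_fin_one, empty_val',
      hσ.invol, map_neg, mul_neg, neg_neg]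
    exact ⟨trivial, trivial⟩

variable {σ : F →+* F} (hσ : IsConj₂ F p σ) {n : F} (hn : σ n = n)

lemma card_realForm_le : Nat.card (realForm hσ hn) ≤ p ^ 2 * (p + 1) := by
  classical
  let f : realForm hσ hn → Σ y : F, {z : F // z ^ (p + 1) = 1 - n * (y * σ y)} := fun B =>
    ⟨((B : SL₂F) : M₂) 0 1, ((B : SL₂F) : M₂) 0 0, by
      have hd := det_eq (B : SL₂F)
      rw [B.2.1, B.2.2, hσ.frob (((B : SL₂F) : M₂) 0 0)] at hd
      rw [pow_succ']
      linear_combination hd⟩
  have hf : Function.Injective f := by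
    intro A B h
    have h1 : ((A : SL₂F) : M₂) 0 1 = ((B : SL₂F) : M₂) 0 1 := congrArg Sigma.fst h
    have h2 : ((A : SL₂F) : M₂) 0 0 = ((B : SL₂F) : M₂) 0 0 :=
      congrArg (fun s : Σ y : F, {z : F // z ^ (p + 1) = 1 - n * (y * σ y)} => (s.2 : F)) h
    refine Subtype.ext (Subtype.ext ?_)
    ext i j
    fin_cases i <;> fin_cases j
    · exact h2
    · exact h1
    · simpa [A.2.2, B.2.2] using congrArg (fun t => n * σ t) h1
    · simpa [A.2.1, B.2.1] using congrArg σ h2
  refine (Nat.card_le_card_of_injective f hf).trans ?_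
  rw [Nat.card_eq_fintype_card, Fintype.card_sigma]
  have hb : ∀ y : F, Fintype.card {z : F // z ^ (p + 1) = 1 - n * (y * σ y)} ≤ p + 1 := fun y => by
    rw [Fintype.card_subtype]
    refine le_trans (Finset.card_le_card (t := (Polynomial.nthRoots (p + 1)
      (1 - n * (y * σ y))).toFinset) fun z hz => ?_) ?_
    · rw [Multiset.mem_toFinset, Polynomial.mem_nthRoots (by omega)]
      exact (Finset.mem_filter.1 hz).2
    · exact (Multiset.toFinset_card_le _).trans (Polynomial.card_nthRoots _ _)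
  refine (Finset.sum_le_sum fun y _ => hb y).trans ?_
  rw [Finset.sum_const, Finset.card_univ, hσ.card, smul_eq_mul]

variable {ι : F} (hι : ι * ι = -1)

lemma mem_realForm_diag {s : F} {T : SL₂F} (hT : (T : M₂) = !![s, 0; 0, s⁻¹]) (hs : σ s = s⁻¹) :
    T ∈ realForm hσ hn :=
  ⟨by rw [hT]; simp [hs], by rw [hT]; simp⟩

include hι

lemma iota_ne : ι ≠ 0 := fun h => by
  rw [h, zero_mul] at hι
  exact one_ne_zero (neg_eq_zero.1 hι.symm)

variable {H : Subgroup (Matrix.SpecialLinearGroup (Fin 2) F)} {I : Matrix.SpecialLinearGroup (Fin 2) F}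
  (hI : (I : Matrix (Fin 2) (Fin 2) F) = !![ι, 0; 0, -ι]) (hIH : I ∈ H)
include hI hIH

lemma center_le' : Subgroup.center SL₂F ≤ H := by
  intro z hz
  rcases (mem_center_iff z).1 hz with rfl | rfl
  · exact one_mem H
  · have : (-1 : SL₂F) = I * I := Subtype.ext (by
      rw [Matrix.SpecialLinearGroup.coe_mul, hI]
      ext i j; fin_cases i <;> fin_cases j <;> simp [Matrix.mul_apply, hι])
    exact this ▸ mul_mem hIH hIH

variable (h2 : (2 : F) ≠ 0)
include h2

/-- A second element with both off-diagonal entries nonzero excludes a fixed point. -/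
lemma not_borel' {g : SL₂F} (hg : g ∈ H) (hb : (g : M₂) 0 1 ≠ 0) (hc : (g : M₂) 1 0 ≠ 0) :
    ¬ IsBorelCase H := by
  rintro ⟨u, hu⟩
  have key : ∀ h ∈ H, (u : M₂) 1 0 * ((h : M₂) 0 0 * (u : M₂) 1 1 - (h : M₂) 0 1 * (u : M₂) 1 0) +
      (u : M₂) 1 1 * ((h : M₂) 1 0 * (u : M₂) 1 1 - (h : M₂) 1 1 * (u : M₂) 1 0) = 0 := by
    intro h hh
    have h1 := mem_borel.1 (hu h hh)
    simp [Matrix.mul_apply, Fin.sum_univ_two, Matrix.adjugate_fin_two] at h1
    linear_combination h1
  have h1 := key I hIH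
  have h3 := key g hg
  rw [hI] at h1
  simp at h1
  have h1' : (2 * ι) * ((u : M₂) 1 0 * (u : M₂) 1 1) = 0 := by linear_combination h1
  rcases mul_eq_zero.1 ((mul_eq_zero.1 h1').resolve_left
    (mul_ne_zero h2 (iota_ne hι))) with h | h
  · have hd := det_eq u
    rw [h, mul_zero, sub_zero] at hd
    have h0 : (u : M₂) 1 1 ≠ 0 := fun e => by rw [e, mul_zero] at hd; exact zero_ne_one hd
    rw [h] at h3
    simp [h0] at h3
    exact hc h3
  · have hd := det_eq u
    rw [h, mul_zero, zero_sub] at hd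
    have h0 : (u : M₂) 1 0 ≠ 0 := fun e => by rw [e, mul_zero, neg_zero] at hd; exact zero_ne_one hd
    rw [h] at h3
    simp [h0] at h3
    exact hb h3

/-- The shape of a torus generator normalised by `H`. -/
lemma torus_shape' (hT : IsTorusCase H) :
    ∃ x y z w : F, ((y = 0 ∧ z = 0 ∧ x ≠ w) ∨ ((y ≠ 0 ∨ z ≠ 0) ∧ x = w)) ∧
      ∀ g ∈ H, ((g : M₂) 0 1 * z = y * (g : M₂) 1 0 ∧
          (g : M₂) 0 0 * y + (g : M₂) 0 1 * w = x * (g : M₂) 0 1 + y * (g : M₂) 1 1 ∧
          (g : M₂) 1 0 * x + (g : M₂) 1 1 * z = z * (g : M₂) 0 0 + w * (g : M₂) 1 0) ∨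
        ((g : M₂) 0 0 * x + (g : M₂) 0 1 * z = w * (g : M₂) 0 0 - y * (g : M₂) 1 0 ∧
          y * ((g : M₂) 0 0 + (g : M₂) 1 1) = 0 ∧ z * ((g : M₂) 0 0 + (g : M₂) 1 1) = 0 ∧
          (g : M₂) 1 0 * y + (g : M₂) 1 1 * w = -(z * (g : M₂) 0 1) + x * (g : M₂) 1 1) := by
  obtain ⟨g₀, hg₀, ht, hN⟩ := hT
  set A := ((g₀ : SL₂F) : M₂) with hA
  refine ⟨A 0 0, A 0 1, A 1 0, A 1 1, ?_, fun g hg => ?_⟩
  swap
  · have h := (normalizer_cG_iff ht ⟨g, hg⟩).1 (hN ▸ Subgroup.mem_top _)
    rcases h with h | h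
    · left
      have e := congrArg (fun x : SL₂F => (x : M₂)) (mul_inv_eq_iff_eq_mul.1 h)
      simp only [Matrix.SpecialLinearGroup.coe_mul, ← hA] at e
      have e00 := congrFun (congrFun e 0) 0
      have e01 := congrFun (congrFun e 0) 1
      have e10 := congrFun (congrFun e 1) 0
      simp [Matrix.mul_apply, Fin.sum_univ_two] at e00 e01 e10
      exact ⟨by linear_combination e00, by linear_combination e01, by linear_combination e10⟩
    · right
      have e := congrArg (fun x : SL₂F => (x : M₂)) (mul_inv_eq_iff_eq_mul.1 h)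
      simp only [Matrix.SpecialLinearGroup.coe_mul, coe_inv_eq, tr, ← hA] at e
      have e00 := congrFun (congrFun e 0) 0
      have e01 := congrFun (congrFun e 0) 1
      have e10 := congrFun (congrFun e 1) 0
      have e11 := congrFun (congrFun e 1) 1
      simp [Matrix.mul_apply, Fin.sum_univ_two] at e00 e01 e10 e11
      exact ⟨by linear_combination e00, by linear_combination e01, by linear_combination e10,
        by linear_combination e11⟩
  have hns : ¬ IsScalarMat A := fun h => hg₀ ((mem_center_iff_isScalarMat _).2 h)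
  have hIc := (normalizer_cG_iff ht ⟨I, hIH⟩).1 (hN ▸ Subgroup.mem_top _)
  have h2ι := mul_ne_zero h2 (iota_ne hι)
  by_cases hyz : A 0 1 = 0 ∧ A 1 0 = 0
  · exact Or.inl ⟨hyz.1, hyz.2, fun h => hns ⟨hyz.1, hyz.2, h⟩⟩
  refine Or.inr ⟨by tauto, ?_⟩
  rcases hIc with h | h
  all_goals
    have e := congrArg (fun x : SL₂F => (x : M₂)) (mul_inv_eq_iff_eq_mul.1 h)
    simp only [Matrix.SpecialLinearGroup.coe_mul, coe_inv_eq, tr, hI, ← hA] at e
    have e00 := congrFun (congrFun e 0) 0
    have e01 := congrFun (congrFun e 0) 1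
    have e10 := congrFun (congrFun e 1) 0
    simp [Matrix.mul_apply, Fin.sum_univ_two] at e00 e01 e10
  · refine absurd ⟨?_, ?_⟩ hyz
    · exact (mul_eq_zero.1 (show (2 * ι) * A 0 1 = 0 by linear_combination e01)).resolve_left h2ι
    · exact (mul_eq_zero.1 (show (2 * ι) * A 1 0 = 0 by linear_combination -e10)).resolve_left h2ι
  · exact mul_left_cancel₀ (iota_ne hι) (by linear_combination e00)

/-- Two quaternion units and the element of order three fix no point and no torus. -/
lemma not_borel_torus' {W C : SL₂F} (hW : (W : M₂) = !![0, 1; -1, 0]) (hWH : W ∈ H)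
    (hC : (C : M₂) = (2 : F)⁻¹ • !![-1 + ι, 1 + ι; -1 + ι, -1 - ι]) (hCH : C ∈ H) :
    ¬ IsBorelCase H ∧ ¬ IsTorusCase H := by
  refine ⟨not_borel' hι hI hIH h2 hWH (by rw [hW]; simp) (by rw [hW]; simp), ?_⟩
  intro hT
  obtain ⟨x, y, z, w, hshape, hrel⟩ := torus_shape' hι hI hIH h2 hT
  have hi := iota_ne hι
  have hinv : (2 : F) * 2⁻¹ = 1 := mul_inv_cancel₀ h2
  have hb : (1 + ι : F) ≠ 0 := fun h => h2 (by linear_combination (1 - ι) * h + hι)
  have hh : (2 : F)⁻¹ ≠ 0 := inv_ne_zero h2
  have e := hrel C hCH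
  rw [hC] at e
  simp at e
  rcases hshape with ⟨rfl, rfl, hxw⟩ | ⟨hyz, rfl⟩
  · have hd : x - w ≠ 0 := sub_ne_zero.2 hxw
    rcases e with ⟨-, e, -⟩ | ⟨e, -, -, e'⟩
    · exact mul_ne_zero (mul_ne_zero hh hb) hd (by linear_combination -e)
    · have h1 : (2⁻¹ * (-1 + ι)) * (x - w) = 0 := by linear_combination e
      have h3 : (2⁻¹ * (-1 - ι)) * (x - w) = 0 := by linear_combination -e'
      have h4 := (mul_eq_zero.1 ((mul_eq_zero.1 h1).resolve_right hd)).resolve_left hh
      have h5 := (mul_eq_zero.1 ((mul_eq_zero.1 h3).resolve_right hd)).resolve_left hh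
      exact h2 (by linear_combination -h4 - h5)
  · rcases e with ⟨-, e1, e2⟩ | ⟨-, e1, e2, -⟩
    · have h1 : ι * y = 0 := by linear_combination e1 - ι * y * hinv
      have h3 : ι * z = 0 := by linear_combination -e2 - ι * z * hinv
      rcases hyz with h | h
      · exact mul_ne_zero hi h h1
      · exact mul_ne_zero hi h h3
    · rcases hyz with h | h
      · exact h ((mul_eq_zero.1 (show (-1 : F) * y = 0 by
          rcases e1 with e1 | e1
          · exact absurd e1 h
          · linear_combination y * e1 + y * hinv)).resolve_left (neg_ne_zero.2 one_ne_zero))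
      · exact h ((mul_eq_zero.1 (show (-1 : F) * z = 0 by
          rcases e2 with e2 | e2
          · exact absurd e2 h
          · linear_combination z * e2 + z * hinv)).resolve_left (neg_ne_zero.2 one_ne_zero))

omit h2

/-- The three exceptional cases of Dickson's list. -/
def Small (p : ℕ) (H : Subgroup SL₂F) : Prop :=
  ((zG H).index = 12 ∧ Nonempty ((H ⧸ zG H) ≃* alternatingGroup (Fin 4))) ∨
    ((zG H).index = 24 ∧ Nonempty ((H ⧸ zG H) ≃* Equiv.Perm (Fin 4))) ∨
    ((zG H).index = 60 ∧ p ≠ 5 ∧ Nonempty ((H ⧸ zG H) ≃* alternatingGroup (Fin 5)))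

include hσ in
/-- What Dickson's list leaves inside a real form. -/
lemma top_or_small' (hle : H ≤ realForm hσ hn) (hB : ¬ IsBorelCase H) (hT : ¬ IsTorusCase H) :
    (H = realForm hσ hn ∧ Nat.card H = p * (p ^ 2 - 1)) ∨ Small p H := by
  have hZ := center_le' hι hI hIH
  have hc : Nat.card H = 2 * (zG H).index := by
    rw [← Subgroup.card_mul_index (zG H), card_zG hZ, center_card_of_odd hσ.two_ne_zero]
  rcases classification hZ with h | h | h | h | ⟨h, h'⟩ | ⟨R, k, hR3, hidx, hiso⟩
  · exact absurd h hB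
  · exact absurd h hT
  · exact Or.inr (Or.inl h)
  · exact Or.inr (Or.inr (Or.inl h))
  · exact Or.inr (Or.inr (Or.inr ⟨h, by have := hσ.mod_four; omega, h'⟩))
  · left
    have hp3 := hσ.three_le
    have hsub := Nat.card_le_card_of_injective (fun x : H => (⟨x, hle x.2⟩ : realForm hσ hn))
      fun a b e => Subtype.ext (congrArg (fun y : realForm hσ hn => (y : SL₂F)) e)
    have hbd := card_realForm_le hσ hn
    have hdvd : Nat.card H ∣ Nat.card (realForm hσ hn) := Subgroup.card_dvd_of_le hle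
    have hR : Nat.card R = p ∨ Nat.card R = p ^ 2 := by
      have h1 : Nat.card F = Nat.card R ^ Module.finrank R F := Module.natCard_eq_pow_finrank
      rw [Nat.card_eq_fintype_card, hσ.card] at h1
      obtain ⟨i, hi, hi'⟩ := (Nat.dvd_prime_pow hσ.prime).1
        (show Nat.card R ∣ p ^ 2 from h1 ▸ dvd_pow_self _ (fun h0 => by
          rw [h0, pow_zero] at h1
          nlinarith))
      interval_cases i
      · rw [pow_zero] at hi'; omega
      · exact Or.inl (by rw [hi', pow_one])
      · exact Or.inr hi'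
    have hk : 2 * k = Nat.card R - 1 ∨ k = Nat.card R - 1 := hiso.symm.imp And.left And.left
    rcases hR with hR | hR <;> rw [hR] at hidx hk
    · obtain ⟨m, rfl⟩ : ∃ m, p = m + 1 := ⟨p - 1, by omega⟩
      have hsq : (m + 1) ^ 2 - 1 = m * (m + 2) := by
        rw [show (m + 1) ^ 2 = m * (m + 2) + 1 by ring, Nat.add_sub_cancel]
      simp only [Nat.add_sub_cancel] at hk
      have hcard : Nat.card H = (m + 1) * ((m + 1) ^ 2 - 1) := by
        rw [hsq]
        rcases hk with hk | hk
        · rw [hc, hidx, ← hk]; ring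
        · exfalso
          rw [hc, hidx, hk] at hsub
          nlinarith
      obtain ⟨j, hj⟩ := hdvd
      have hj1 : j = 1 := by
        rcases Nat.lt_or_ge j 2 with h | h
        · have : j ≠ 0 := fun h0 => by
            rw [h0, mul_zero] at hj
            exact (Nat.card_pos (α := realForm hσ hn)).ne' hj
          omega
        · exfalso
          rw [hj, hcard, hsq] at hbd
          have h' : m * j ≤ m + 1 := Nat.le_of_mul_le_mul_left (c := (m + 1) * (m + 2))
            (by calc (m + 1) * (m + 2) * (m * j) = (m + 1) * (m * (m + 2)) * j := by ring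
                  _ ≤ (m + 1) ^ 2 * (m + 1 + 1) := hbd
                  _ = (m + 1) * (m + 2) * (m + 1) := by ring) (by positivity)
          have : m * 2 ≤ m * j := Nat.mul_le_mul_left m h
          omega
      exact ⟨Subgroup.eq_of_le_of_card_ge hle (by rw [hj, hj1, mul_one]), hcard⟩
    · exfalso
      have hk' : 2 ≤ k := by
        have : 9 ≤ p ^ 2 := by nlinarith
        omega
      rw [hc, hidx] at hsub
      have h1 := hsub.trans hbd
      have h3 : 2 * (k * (p ^ 2 + 1)) ≤ p + 1 := Nat.le_of_mul_le_mul_left (c := p ^ 2)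
        (by calc p ^ 2 * (2 * (k * (p ^ 2 + 1))) = 2 * (p ^ 2 * k * (p ^ 2 + 1)) := by ring
              _ ≤ p ^ 2 * (p + 1) := h1) (by positivity)
      have h4 : p + 1 ≤ p ^ 2 + 1 := by nlinarith
      nlinarith

omit hI hIH hι in
/-- Orders of elements modulo the centre in the small cases. -/
lemma Small.orders (h : Small p H) (x : H) : ∃ k, 2 ≤ k ∧ k ≤ 5 ∧ x ^ k ∈ zG H := by
  obtain ⟨k, h1, h2, -, h3⟩ := quotient_orders (p := p) (H := H) (by
    rcases h with h | h | h
    · exact Or.inl h.2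
    · exact Or.inr (Or.inl h.2)
    · exact Or.inr (Or.inr h.2)) x
  exact ⟨k, h1, h2, h3⟩

omit hI hIH hι in
/-- The centraliser of an involution in the small cases has exponent dividing four. -/
lemma Small.involution_centralizer (h : Small p H) {a x : H} (ha : a * a ∈ zG H) (ha1 : a ∉ zG H)
    (hax : a * x * a⁻¹ * x⁻¹ ∈ zG H) : x ^ 4 ∈ zG H := by
  have key : ∀ {Q : Type} [Group Q], ((H ⧸ zG H) ≃* Q) →
      (∀ a x : Q, a * a = 1 → a ≠ 1 → a * x = x * a → x ^ 4 = 1) → x ^ 4 ∈ zG H := by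
    intro Q _ e hQ
    let φ : H →* Q := e.toMonoidHom.comp (QuotientGroup.mk' (zG H))
    have hker : ∀ z : H, φ z = 1 ↔ z ∈ zG H := fun z =>
      ⟨fun hz => (QuotientGroup.eq_one_iff z).1 (e.injective (hz.trans (map_one e).symm)),
        fun hz => by
          show e (z : H ⧸ zG H) = 1
          rw [(QuotientGroup.eq_one_iff z).2 hz, map_one]⟩
    refine (hker _).1 ?_
    rw [map_pow]
    refine hQ (φ a) (φ x) ?_ (fun h1 => ha1 ((hker a).1 h1)) ?_
    · rw [← map_mul]; exact (hker _).2 ha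
    · have := (hker _).2 hax
      rwa [map_mul, map_mul, map_mul, map_inv, map_inv, mul_inv_eq_one, mul_inv_eq_iff_eq_mul] at this
  rcases h with ⟨-, ⟨e⟩⟩ | ⟨-, ⟨e⟩⟩ | ⟨-, -, ⟨e⟩⟩
  · exact key e (by decide +kernel)
  · exact key e (by decide +kernel)
  · exact key e (by decide +kernel)

include hσ in
omit hI hIH hι in
/-- A nontrivial element of order `p ≥ 7` does not fit into a small case. -/
lemma Small.not_pow_eq_one (h : Small p H) (hp7 : 7 ≤ p) {u : SL₂F} (hu : u ∈ H) (hu1 : u ≠ 1)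
    (hup : u ^ p = 1) (hZ : Subgroup.center SL₂F ≤ H) : False := by
  have := Fact.mk hσ.prime
  have hd : p ∣ 2 * (zG H).index := by
    have e := Subgroup.card_mul_index (zG H)
    rw [card_zG hZ, center_card_of_odd hσ.two_ne_zero] at e
    rw [e, ← orderOf_eq_prime hup hu1, ← Nat.card_zpowers]
    exact Subgroup.card_dvd_of_le (Subgroup.zpowers_le.2 hu)
  have hmod := hσ.mod_four
  have hpr := hσ.prime
  rcases h with ⟨h, -⟩ | ⟨h, -⟩ | ⟨h, -⟩ <;> rw [h] at hd <;>
    have hle := Nat.le_of_dvd (by norm_num) hd <;> norm_num at hle <;>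
    interval_cases p <;> first | omega | (norm_num at hpr)

variable {W C : Matrix.SpecialLinearGroup (Fin 2) F}
  (hW : (W : Matrix (Fin 2) (Fin 2) F) = !![0, 1; -1, 0]) (hWH : W ∈ H)
  (hC : (C : Matrix (Fin 2) (Fin 2) F) = (2 : F)⁻¹ • !![-1 + ι, 1 + ι; -1 + ι, -1 - ι])
include hW hWH hC

include hσ in
lemma C_mem_realForm : C ∈ realForm hσ (map_one σ) := by
  refine ⟨?_, ?_⟩ <;> rw [hC] <;>
    simp [hσ.map_iota hι, map_inv₀, map_ofNat, hσ.two_ne_zero] <;> ring

omit hI hIH hW hWH in
include hσ in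
lemma C_cube : C ^ 3 = 1 := by
  have ht : tr C = -1 := by
    have := hσ.two_ne_zero
    rw [tr, hC]; simp; field_simp; ring
  apply Subtype.ext
  have h := mul_self_eq C
  rw [ht, neg_smul, one_smul] at h
  rw [pow_succ, pow_two]
  simp only [Matrix.SpecialLinearGroup.coe_mul, Matrix.SpecialLinearGroup.coe_one]
  rw [h, sub_mul, neg_mul, h, one_mul]
  abel

omit hI hIH hW hWH hC hι in
include hσ in
/-- Two fixed elements with `a² + b² + (a + b)² = 1`. -/
lemma exists_unit_triple (hp : p ≠ 3) :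
    ∃ a b : F, σ a = a ∧ σ b = b ∧ a * a + b * b + (a + b) * (a + b) = 1 := by
  haveI := Fact.mk hσ.prime
  haveI := hσ.charP
  have h3 : (3 : ZMod p) ≠ 0 := fun h => hp
    ((Nat.prime_dvd_prime_iff_eq hσ.prime Nat.prime_three).1
      ((CharP.cast_eq_zero_iff (ZMod p) p 3).1 (by exact_mod_cast h)))
  have h2 : (2 : ZMod p) ≠ 0 := fun h => by
    have := (Nat.prime_dvd_prime_iff_eq hσ.prime Nat.prime_two).1
      ((CharP.cast_eq_zero_iff (ZMod p) p 2).1 (by exact_mod_cast h))
    have := hσ.three_le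
    omega
  obtain ⟨u, t, hut⟩ := FiniteField.exists_root_sum_quadratic
    (f := Polynomial.C (1 : ZMod p) * Polynomial.X ^ 2 + Polynomial.C 0 * Polynomial.X + Polynomial.C (-2))
    (g := Polynomial.C (3 : ZMod p) * Polynomial.X ^ 2 + Polynomial.C 0 * Polynomial.X + Polynomial.C 0)
    (Polynomial.degree_quadratic one_ne_zero) (Polynomial.degree_quadratic h3)
    (by rw [ZMod.card]; have := hσ.mod_four; omega)
  simp at hut
  have hfix : ∀ x : ZMod p, σ (ZMod.castHom dvd_rfl F x) = ZMod.castHom dvd_rfl F x := fun x => by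
    rw [← ZMod.natCast_zmod_val x, map_natCast, map_natCast]
  refine ⟨ZMod.castHom dvd_rfl F ((u - t) / 2), ZMod.castHom dvd_rfl F t, hfix _, hfix _, ?_⟩
  rw [← map_add, ← map_mul, ← map_mul, ← map_mul, ← map_add, ← map_add, ← map_one (ZMod.castHom dvd_rfl F)]
  congr 1
  field_simp
  linear_combination 2 * hut

include hσ in
/-- The element of order three lies in a group it normalises which leaves the quaternion group. -/
theorem C_mem (hle : H ≤ realForm hσ (map_one σ)) (hCn : ∀ h ∈ H, C * h * C⁻¹ ∈ H) {h : SL₂F}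
    (hh : h ∈ H) (hnn : h ∉ Subgroup.closure ({I, W} : Set SL₂F)) : C ∈ H := by
  have h2 := hσ.two_ne_zero
  by_contra hCH
  have hC3 : C ^ 3 = 1 := C_cube hσ hι hC
  have hCN : C ∈ Subgroup.normalizer (H : Set SL₂F) := by
    rw [Subgroup.mem_normalizer_iff]
    intro y
    refine ⟨hCn y, fun hy => ?_⟩
    have := hCn _ (hCn _ hy)
    rwa [show C * (C * (C * y * C⁻¹) * C⁻¹) * C⁻¹ = C ^ 3 * y * (C ^ 3)⁻¹ by simp [pow_succ, mul_assoc],
      hC3, one_mul, inv_one, mul_one] at this
  obtain ⟨hn', hidx⟩ := sup_zpowers_index H Nat.prime_three hC3 hCN hCH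
  set K := H ⊔ Subgroup.zpowers C with hK
  have hHK : H ≤ K := le_sup_left
  have hCK : C ∈ K := le_sup_right (a := H) (Subgroup.mem_zpowers C)
  have hKle : K ≤ realForm hσ (map_one σ) :=
    sup_le hle (Subgroup.zpowers_le.2 (C_mem_realForm hσ hι hI hIH hW hWH hC))
  obtain ⟨hB, hT⟩ := not_borel_torus' hι hI (hHK hIH) h2 hW (hHK hWH) hC hCK
  have hZH := center_le' hι hI hIH
  have hzle : zG K ≤ H.subgroupOf K := fun z hz => Subgroup.mem_subgroupOf.2 (hZH hz)
  have hnot : ∀ {Q : Type} [Group Q], ((K ⧸ zG K) ≃* Q) →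
      (∀ y : Q, ∃ a, a * a = 1 ∧ a * y * (a * y) = 1) → False := by
    intro Q _ e hQ
    let φ : K →* Q := e.toMonoidHom.comp (QuotientGroup.mk' (zG K))
    have hs : Function.Surjective φ := e.surjective.comp (QuotientGroup.mk'_surjective _)
    haveI := hn'
    haveI : ((H.subgroupOf K).map φ).Normal := Subgroup.Normal.map hn' φ hs
    refine false_of_index_three hQ ((H.subgroupOf K).map φ) ?_
    rw [Subgroup.index_map_eq _ hs, hidx]
    intro z hz
    apply hzle
    exact (QuotientGroup.eq_one_iff z).1 (e.injective (hz.trans (map_one e).symm))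
  have h24 : Nat.card K = 24 → False := by
    intro hcK
    have hcH : Nat.card H = 8 := by
      have h' := Subgroup.card_mul_index (H.subgroupOf K)
      rw [Nat.card_congr (Subgroup.subgroupOfEquivOfLe hHK).toEquiv, hidx, hcK] at h'
      omega
    apply hnn
    have hQH : Subgroup.closure {I, W} ≤ H := (Subgroup.closure_le H).2 (by
      rintro a (rfl | rfl)
      · exact hIH
      · exact hWH)
    set Q8 := Subgroup.closure {I, W} with hQ8
    have hIQ : I ∈ Q8 := Subgroup.subset_closure (Or.inl rfl)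
    have hWQ : W ∈ Q8 := Subgroup.subset_closure (Or.inr rfl)
    have h5 : 5 ≤ Nat.card Q8 := by
      let f : Fin 5 → Q8 := ![1, ⟨I * I, mul_mem hIQ hIQ⟩, ⟨I, hIQ⟩, ⟨W, hWQ⟩, ⟨I * W, mul_mem hIQ hWQ⟩]
      have hf : Function.Injective f := by
        intro a b hab
        have e0 := congrArg (fun y : Q8 => ((y : SL₂F) : M₂) 0 0) hab
        have e1 := congrArg (fun y : Q8 => ((y : SL₂F) : M₂) 0 1) hab
        have hi := iota_ne hι
        have n1 : ι ≠ 1 := fun e => h2 (by rw [e] at hι; linear_combination hι)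
        have n2 : ι ≠ -1 := fun e => h2 (by rw [e] at hι; linear_combination hι)
        have n3 : (1 : F) ≠ -1 := fun e => h2 (by linear_combination e)
        fin_cases a <;> fin_cases b <;>
          simp [f, hI, hW, hι, hi, n1, n2, n3, hi.symm, n1.symm, n2.symm, n3.symm,
            Matrix.mul_apply, Fin.sum_univ_two] at e0 e1 <;> rfl
      simpa using Nat.card_le_card_of_injective f hf
    have hdvd := Subgroup.card_dvd_of_le hQH
    rw [hcH] at hdvd
    have h8 : Nat.card H ≤ Nat.card Q8 := by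
      have := Nat.le_of_dvd (by norm_num) hdvd
      rw [hcH]
      interval_cases h' : Nat.card Q8 <;> omega
    rwa [← Subgroup.eq_of_le_of_card_ge hQH h8] at hh
  rcases top_or_small' hσ (map_one σ) hι hI (hHK hIH) hKle hB hT with
    ⟨hKeq, hcard⟩ | ⟨h12, -⟩ | ⟨-, ⟨e⟩⟩ | ⟨-, -, ⟨e⟩⟩
  · by_cases hp : p = 3
    · exact h24 (by rw [hcard, hp]; norm_num)
    obtain ⟨a, b, ha, hb, hab⟩ := exists_unit_triple hσ hp
    -- the element of order three is a product of two elements of trace zero
    have hX0 : (a * ι) * (-(a * ι)) - (b + -(a + b) * ι) * (-b + -(a + b) * ι) = 1 := by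
      linear_combination hab + (-(a * a) - (a + b) * (a + b)) * hι
    let X : SL₂F := ⟨!![a * ι, b + -(a + b) * ι; -b + -(a + b) * ι, -(a * ι)], by
      rw [Matrix.det_fin_two_of]; exact hX0⟩
    have hmem : ∀ {Z : SL₂F}, Z ∈ K → tr Z = 0 → Z ∈ H := by
      intro Z hZ hZt
      haveI := hn'
      have h1 : (⟨Z, hZ⟩ : K) ^ 3 ∈ H.subgroupOf K := by
        rw [← hidx]; exact Subgroup.pow_index_mem _ _
      have h4 : Z ^ 4 = 1 := by
        have := mul_self_eq Z
        rw [hZt, zero_smul, zero_sub] at this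
        apply Subtype.ext
        simp only [pow_succ, pow_zero, one_mul, Matrix.SpecialLinearGroup.coe_mul,
          Matrix.SpecialLinearGroup.coe_one]
        rw [mul_assoc (_ * _), this, neg_mul_neg, one_mul]
      have h5 : (Z ^ 3)⁻¹ ∈ H := inv_mem (Subgroup.mem_subgroupOf.1 h1)
      rwa [inv_eq_of_mul_eq_one_left (show Z * Z ^ 3 = 1 by rw [← pow_succ']; exact h4)] at h5
    have hXK : X ∈ K := by
      rw [hKeq]
      constructor <;> simp [X, hσ.map_iota hι, ha, hb] <;> ring
    have hX : X ∈ H := hmem hXK (by simp [tr, X])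
    have hY : X⁻¹ * C ∈ H := by
      refine hmem (mul_mem (inv_mem hXK) hCK) ?_
      have hh : (2⁻¹ : F) * 2 = 1 := inv_mul_cancel₀ h2
      rw [tr, Matrix.SpecialLinearGroup.coe_mul, Matrix.SpecialLinearGroup.coe_inv, hC,
        show (X : M₂) = !![a * ι, b + -(a + b) * ι; -b + -(a + b) * ι, -(a * ι)] from rfl,
        Matrix.adjugate_fin_two_of]
      simp [Matrix.mul_apply, Fin.sum_univ_two]
      linear_combination (2⁻¹ * 2 * b) * hι
    exact hCH (by simpa using mul_mem hX hY)
  · refine h24 ?_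
    rw [← Subgroup.card_mul_index (zG K), card_zG (hZH.trans hHK), center_card_of_odd h2, h12]
  · exact hnot e perm_four_two_involutions
  · exact hnot e alternating_five_two_involutions

omit hW hWH hC

include hσ in
/-- An element with a trace away from the exceptional ones. -/
theorem eq_realForm_of_trace {hn : σ n = n} (hle : H ≤ realForm hσ hn) (hp7 : 7 ≤ p) {g : SL₂F}
    (hg : g ∈ H) {a b c d : F}
    (hgm : (g : M₂) = !![a, b; c, d]) (hb : b ≠ 0) (hc : c ≠ 0) (had : a ≠ d)
    (hcase : (a + d ≠ 0 ∧ (a + d) ^ 2 ≠ 1 ∧ (a + d) ^ 2 ≠ 2 ∧ (a + d) ^ 4 - 3 * (a + d) ^ 2 + 1 ≠ 0) ∨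
      (a + d) ^ 2 = 4) : H = realForm hσ hn := by
  haveI := hσ.charP
  have h2 := hσ.two_ne_zero
  have hB : ¬ IsBorelCase H := not_borel' hι hI hIH h2 hg (by rw [hgm]; simpa) (by rw [hgm]; simpa)
  have hT : ¬ IsTorusCase H := by
    intro hT
    obtain ⟨x, y, z, w, hshape, hrel⟩ := torus_shape' hι hI hIH h2 hT
    have e := hrel g hg
    rw [hgm] at e
    simp at e
    rcases hshape with ⟨rfl, rfl, hxw⟩ | ⟨hyz, rfl⟩
    · have hd : x - w ≠ 0 := sub_ne_zero.2 hxw
      rcases e with ⟨-, e, -⟩ | ⟨e, -, -, e'⟩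
      · exact mul_ne_zero hb hd (by linear_combination -e)
      · have h1 := (mul_eq_zero.1 (show a * (x - w) = 0 by linear_combination e)).resolve_right hd
        have h3 := (mul_eq_zero.1 (show d * (x - w) = 0 by linear_combination -e')).resolve_right hd
        exact had (by rw [h1, h3])
    · rcases e with ⟨-, e1, e2⟩ | ⟨-, e1, e2, -⟩
      · have h1 : (a - d) * y = 0 := by linear_combination e1
        have h3 : (a - d) * z = 0 := by linear_combination -e2
        rcases hyz with h | h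
        · exact mul_ne_zero (sub_ne_zero.2 had) h h1
        · exact mul_ne_zero (sub_ne_zero.2 had) h h3
      · have ht : a + d = 0 := by tauto
        rcases hcase with ⟨h, -⟩ | h
        · exact h ht
        · rw [ht] at h
          exact h2 (pow_eq_zero_iff (n := 2) two_ne_zero |>.1 (by linear_combination -h))
  rcases top_or_small' hσ hn hι hI hIH hle hB hT with h | h
  · exact h.1
  exfalso
  obtain ⟨k, hk2, hk5, hk⟩ := h.orders ⟨g, hg⟩
  have hk' := ((mem_center_iff_isScalarMat _).1 (mem_zG.1 hk)).1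
  rw [Subgroup.coe_pow] at hk'
  have hd := det_eq g
  rw [hgm] at hd
  simp at hd
  have hnat : ∀ m : ℕ, 0 < m → m < p → (m : F) ≠ 0 := fun m hm hm' e => by
    have := Nat.le_of_dvd hm ((CharP.cast_eq_zero_iff F p m).1 e)
    omega
  rcases hcase with ⟨t0, t1, t2, t4⟩ | hcase
  · interval_cases k <;> simp [pow_succ, hgm, Matrix.mul_apply, Fin.sum_univ_two] at hk'
    · exact mul_ne_zero hb t0 (by linear_combination hk')
    · exact mul_ne_zero hb (sub_ne_zero.2 t1) (by linear_combination hk' + b * hd)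
    · exact mul_ne_zero (mul_ne_zero hb t0) (sub_ne_zero.2 t2)
        (by linear_combination hk' + 2 * b * (a + d) * hd)
    · exact mul_ne_zero hb t4 (by linear_combination hk' +
        b * (3 * (a + d) ^ 2 - (a * d - b * c) - 1) * hd)
  · have t0 : a + d ≠ 0 := fun e => h2 (pow_eq_zero_iff (n := 2) two_ne_zero |>.1 (by
      rw [e] at hcase; linear_combination -hcase))
    have h3 : (3 : F) ≠ 0 := by exact_mod_cast hnat 3 (by norm_num) (by omega)
    have h5 : (5 : F) ≠ 0 := by exact_mod_cast hnat 5 (by norm_num) (by omega)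
    interval_cases k <;> simp [pow_succ, hgm, Matrix.mul_apply, Fin.sum_univ_two] at hk'
    · exact mul_ne_zero hb t0 (by linear_combination hk')
    · exact mul_ne_zero hb h3 (by linear_combination hk' + b * hd - b * hcase)
    · exact mul_ne_zero (mul_ne_zero hb t0) h2
        (by linear_combination hk' + 2 * b * (a + d) * hd - b * (a + d) * hcase)
    · exact mul_ne_zero hb h5 (by linear_combination hk' +
        b * (3 * (a + d) ^ 2 - (a * d - b * c) - 1) * hd - b * ((a + d) ^ 2 + 1) * hcase)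

end CfsgLib.Geometric.SLFour.Unitary
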