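import Cfsg.Prelude.Def_LieClassical
import Cfsg.Agent.Lib.Geometric.SLFour.Signs
import Cfsg.Agent.Lib.Geometric.SLFour.LocalBase
import Cfsg.Agent.Lib.Geometric.SLFour.UnitarySL2

/-!
The standard monomial group inside the unitary group of dimension four over a field of `p ^ 2`
elements, `p ≡ 3 (mod 4)`, with its distinguished elements.
-/

set_option autoImplicit false
set_option linter.unusedSectionVars false

namespace CfsgLib.Geometric.SLFour.Unitary

open Matrix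

variable {F : Type*} [Field F] [Fintype F] {p : ℕ}

local notation "M₄" => Matrix (Fin 4) (Fin 4) F
local notation "M₂" => Matrix (Fin 2) (Fin 2) F
local notation "SL₂" => Matrix.SpecialLinearGroup (Fin 2) F

/-- The Frobenius conjugation of a field of `p ^ 2` elements. -/
lemma exists_isConj₂ (hp : p.Prime) (h4 : p % 4 = 3) (hF : Fintype.card F = p ^ 2) :
    ∃ σ : F →+* F, IsConj₂ F p σ := by
  obtain ⟨r, hr⟩ := CharP.exists F
  obtain ⟨n, hrp, hn⟩ := FiniteField.card F r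
  have : r = p := (Nat.prime_dvd_prime_iff_eq hrp hp).1
    (hrp.dvd_of_dvd_pow (show r ∣ p ^ 2 from hF ▸ hn ▸ dvd_pow_self r n.pos.ne'))
  subst this
  haveI := Fact.mk hp
  exact ⟨frobenius F r, hp, h4, hF, fun x => frobenius_def r x⟩

variable {σ : F →+* F}

lemma IsConj₂.map_inv_two (_hσ : IsConj₂ F p σ) : σ (2 : F)⁻¹ = 2⁻¹ := by
  rw [map_inv₀, map_ofNat]

lemma transpose_map_mul {g : M₄} {u v : Fin 4 → F} :
    (g *ᵥ u) ⬝ᵥ (σ ∘ (g *ᵥ v)) = u ⬝ᵥ ((gᵀ * g.map σ) *ᵥ (σ ∘ v)) := by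
  rw [← Matrix.mulVec_mulVec, Matrix.dotProduct_mulVec u gᵀ, Matrix.vecMul_transpose]
  congr 1
  ext i
  simp [Matrix.mulVec, dotProduct, map_sum, map_mul]

/-- Membership in the unitary group, as a matrix identity. -/
lemma mem_GU_iff (hσ : IsConj₂ F p σ) {g : GL (Fin 4) F} :
    g ∈ Cfsg.GU 4 F p ↔ (g : M₄)ᵀ * (g : M₄).map σ = 1 := by
  have hh : ∀ u v : Fin 4 → F, Cfsg.hermForm 4 F p u v = u ⬝ᵥ (σ ∘ v) := fun u v => by
    simp [Cfsg.hermForm, dotProduct, hσ.frob]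
  constructor
  · intro h
    ext i j
    have h1 := h (Pi.single i 1) (Pi.single j 1)
    simp only [hh] at h1
    rw [show Units.coeHom M₄ g = (g : M₄) from rfl, transpose_map_mul,
      show σ ∘ Pi.single j (1 : F) = Pi.single j 1 by
        ext k; by_cases hk : k = j
        · subst hk; simp
        · simp [hk]] at h1
    rw [Matrix.mulVec_single_one, single_one_dotProduct, single_one_dotProduct] at h1
    rw [Matrix.one_apply, ← Pi.single_apply]
    exact h1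
  · intro h u v
    rw [hh, hh, show Units.coeHom M₄ g = (g : M₄) from rfl, transpose_map_mul, h, Matrix.one_mulVec]

variable (hσ : IsConj₂ F p σ) {ι : F} (hι : ι * ι = -1)
include hσ hι

lemma map_coord (x : Fin 6 → F) :
    σ ∘ coord ι x = ![coord ι (σ ∘ x) 5, -coord ι (σ ∘ x) 4, coord ι (σ ∘ x) 3, coord ι (σ ∘ x) 2,
      -coord ι (σ ∘ x) 1, coord ι (σ ∘ x) 0] := by
  have hσι := hσ.map_iota hι
  ext k
  fin_cases k <;> simp [coord, map_add, map_mul, map_sub, map_neg, hσι] <;> ring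

lemma map_X (x : Fin 6 → F) : (X ι x).map σ = -Y ι (σ ∘ x) := by
  have h := fun k => congrFun (map_coord hσ hι x) k
  simp only [Function.comp_apply] at h
  ext i j
  fin_cases i <;> fin_cases j <;> simp [X, Y, skew, dual, map_neg, h]

lemma map_Y (x : Fin 6 → F) : (Y ι x).map σ = -X ι (σ ∘ x) := by
  have h := fun k => congrFun (map_coord hσ hι x) k
  simp only [Function.comp_apply] at h
  ext i j
  fin_cases i <;> fin_cases j <;> simp [X, Y, skew, dual, map_neg, h]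

/-- A product of two fixed vectors, scaled to norm one, is unitary. -/
lemma pr_mem_GU {c : F} {u v : Fin 6 → F} {h : c * c * ((u ⬝ᵥ u) * (v ⬝ᵥ v)) = 1}
    (hu : σ ∘ u = u) (hv : σ ∘ v = v) (hc : σ c = c) : pr hι c u v h ∈ Cfsg.GU 4 F p := by
  rw [mem_GU_iff hσ, coe_pr]
  have hm : (c • (X ι u * Y ι v)).map σ = c • ((X ι u).map σ * (Y ι v).map σ) := by
    rw [← Matrix.map_mul]
    ext i j
    rw [Matrix.map_apply, Matrix.smul_apply, Matrix.smul_apply, Matrix.map_apply, smul_eq_mul,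
      map_mul, hc, smul_eq_mul]
  rw [hm, map_X hσ hι, map_Y hσ hι, hu, hv, Matrix.transpose_smul, Matrix.transpose_mul, X, Y,
    skew_transpose, dual_transpose, neg_mul_neg, neg_mul_neg, Matrix.smul_mul, Matrix.mul_smul,
    smul_smul]
  change (c * c) • (Y ι v * X ι u * (Y ι u * X ι v)) = 1
  rw [mul_assoc (Y ι v), ← mul_assoc (X ι u), X_mul_Y hι, Matrix.smul_mul, one_mul, Matrix.mul_smul,
    Y_mul_X hι, smul_smul, smul_smul, mul_assoc, h, one_smul]

omit hι in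
lemma map_e (a : Fin 6) : σ ∘ (e a : Fin 6 → F) = e a := by
  ext k
  rw [Function.comp_apply, e]
  by_cases hk : k = a
  · subst hk; simp
  · simp [hk]

lemma pxu_mem_GU (a b : Fin 6) : pxu hι a b ∈ Cfsg.GU 4 F p :=
  pr_mem_GU hσ hι (map_e hσ a) (map_e hσ b) (map_one σ)

lemma dbl_mem_GU (h2 : (2 : F) ≠ 0) {a b c d : Fin 6} (hab : a ≠ b) (hcd : c ≠ d) :
    dbl hι h2 a b c d hab hcd ∈ Cfsg.GU 4 F p := by
  have hsub : ∀ i j : Fin 6, σ ∘ (e i - e j : Fin 6 → F) = e i - e j := fun i j => by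
    funext k
    rw [Function.comp_apply, Pi.sub_apply, map_sub]
    exact congrArg₂ (· - ·) (congrFun (map_e hσ i) k) (congrFun (map_e hσ j) k)
  exact pr_mem_GU hσ hι (hsub _ _) (hsub _ _) hσ.map_inv_two

omit hι in
/-- Block elements are unitary when both blocks are. -/
lemma blk_mem_GU_iff {g : GL (Fin 4) F} {A B : M₂} (hg : (g : M₄) = blk A B) :
    g ∈ Cfsg.GU 4 F p ↔ Aᵀ * A.map σ = 1 ∧ Bᵀ * B.map σ = 1 := by
  rw [mem_GU_iff hσ, hg]
  have e : (blk A B)ᵀ * (blk A B).map σ = blk (Aᵀ * A.map σ) (Bᵀ * B.map σ) := by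
    rw [show (blk A B)ᵀ = blk Aᵀ Bᵀ by ext i j; fin_cases i <;> fin_cases j <;> simp [blk],
      show (blk A B).map σ = blk (A.map σ) (B.map σ) by
        ext i j; fin_cases i <;> fin_cases j <;> simp [blk], blk_mul]
  rw [e, ← blk_one]
  exact ⟨blk_inj, fun h => by rw [h.1, h.2]⟩

omit hι in
/-- Unitary elements of `SL₂` form the real form with `n = 1`. -/
lemma mem_realForm_iff {B : SL₂} :
    B ∈ realForm hσ (map_one σ) ↔ (B : M₂)ᵀ * (B : M₂).map σ = 1 := by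
  have hd : (B : M₂) 0 0 * (B : M₂) 1 1 - (B : M₂) 0 1 * (B : M₂) 1 0 = 1 := by
    rw [← Matrix.det_fin_two]; exact B.det_coe
  constructor
  · rintro ⟨h1, h3⟩
    rw [one_mul] at h3
    ext i j
    fin_cases i <;> fin_cases j <;>
      simp [Matrix.mul_apply, Fin.sum_univ_two, h1, h3, hσ.invol, map_neg]
    · rw [h1, h3] at hd; linear_combination hd
    · ring
    · ring
    · rw [h1, h3] at hd; linear_combination hd
  · intro h
    have e : (B : M₂).map σ = ((B : M₂)ᵀ).adjugate := by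
      have h' := congrArg (((B : M₂)ᵀ).adjugate * ·) h
      simp only [← mul_assoc, Matrix.adjugate_mul, Matrix.det_transpose, B.det_coe, one_smul, one_mul,
        mul_one] at h'
      exact h'
    have e00 := congrFun (congrFun e 0) 0
    have e01 := congrFun (congrFun e 0) 1
    simp [Matrix.adjugate_fin_two] at e00 e01
    exact ⟨e00.symm, by rw [one_mul, e01, neg_neg]⟩

omit hι in
lemma lowHom_mem_GU_iff {B : SL₂} :
    lowHom B ∈ Cfsg.GU 4 F p ↔ B ∈ realForm hσ (map_one σ) := by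
  rw [blk_mem_GU_iff hσ (coe_lowHom B), mem_realForm_iff hσ]
  simp [Matrix.map_one]

variable (h2 : (2 : F) ≠ 0)

/-- The unitary monomial group. -/
def NU (_hσ : IsConj₂ F p σ) : Subgroup (GL (Fin 4) F) := Nstd hι h2 ⊓ Cfsg.GU 4 F p

include h2

lemma mem_NU {g : GL (Fin 4) F} : g ∈ NU hι h2 hσ ↔ Mono ι g ∧ g ∈ Cfsg.GU 4 F p := Iff.rfl

lemma pxu_mem (a b : Fin 6) : pxu hι a b ∈ NU hι h2 hσ :=
  ⟨mono_pxu hι h2 a b, pxu_mem_GU hσ hι a b⟩

lemma dbl_mem {a b c d : Fin 6} (h : [a, b, c, d].Nodup) (hab : a ≠ b) (hcd : c ≠ d) :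
    dbl hι h2 a b c d hab hcd ∈ NU hι h2 hσ :=
  ⟨mono_dbl hι h2 h hab hcd, dbl_mem_GU hσ hι h2 hab hcd⟩

lemma sI_mem_realForm : sI hι ∈ realForm hσ (map_one σ) := by
  constructor <;> simp [sI, qI, hσ.map_iota hι]

lemma sW_mem_realForm : (sW : SL₂) ∈ realForm hσ (map_one σ) := by
  constructor <;> simp [sW, qW]

lemma sC_mem_realForm : sC hι h2 ∈ realForm hσ (map_one σ) := by
  constructor <;> simp [sC, qC, hσ.map_iota hι, map_ofNat, h2] <;> ring

lemma qI_mem : lowHom (sI hι) ∈ NU hι h2 hσ :=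
  ⟨qI_mono hι h2 rfl, (lowHom_mem_GU_iff hσ).2 (sI_mem_realForm hσ hι h2)⟩

lemma qW_mem : lowHom (sW : SL₂) ∈ NU hι h2 hσ :=
  ⟨qW_mono hι h2 rfl, (lowHom_mem_GU_iff hσ).2 (sW_mem_realForm hσ hι h2)⟩

lemma qCC_mem {g : GL (Fin 4) F} (hg : (g : M₄) = blk (qC ι) (qC ι)) : g ∈ NU hι h2 hσ := by
  refine ⟨qCC_mono hι h2 hg, ?_⟩
  have h := (mem_realForm_iff hσ).1 (sC_mem_realForm hσ hι h2)
  exact (blk_mem_GU_iff hσ hg).2 ⟨h, h⟩

lemma qSS_mem {g : GL (Fin 4) F} (hg : (g : M₄) = blk (qS ι) (ι • qS ι)) : g ∈ NU hι h2 hσ := by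
  refine ⟨qSS_mono hι h2 hg, (blk_mem_GU_iff hσ hg).2 ⟨?_, ?_⟩⟩ <;>
    ext i j <;> fin_cases i <;> fin_cases j <;>
    simp [qS, Matrix.mul_apply, Fin.sum_univ_two, hσ.map_iota hι, hι]

omit h2 in
lemma mem_SU_iff {g : GL (Fin 4) F} :
    g ∈ Cfsg.GU 4 F p ⊓ Cfsg.Geo.specialLinear (Fin 4) F ↔
      g ∈ Cfsg.GU 4 F p ∧ (g : M₄).det = 1 := by
  rw [Subgroup.mem_inf, Cfsg.Geo.specialLinear, MonoidHom.mem_ker, Units.ext_iff]
  simp [Matrix.GeneralLinearGroup.val_det_apply]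

lemma NU_le_SU : NU hι h2 hσ ≤ Cfsg.GU 4 F p ⊓ Cfsg.Geo.specialLinear (Fin 4) F :=
  fun _ hg => (mem_SU_iff hσ hι).2 ⟨hg.2, hg.1.1⟩

/-- The unitary monomial group is a proper subgroup. -/
lemma NU_lt_SU : NU hι h2 hσ < Cfsg.GU 4 F p ⊓ Cfsg.Geo.specialLinear (Fin 4) F := by
  refine lt_of_le_of_ne (NU_le_SU hσ hι h2) fun he => ?_
  have hm : lowHom (sC hι h2) ∈ NU hι h2 hσ := he ▸ (mem_SU_iff hσ hι).2
    ⟨(lowHom_mem_GU_iff hσ).2 (sC_mem_realForm hσ hι h2),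
      by rw [coe_lowHom, det_blk, Matrix.det_one, one_mul, (sC hι h2).2]⟩
  obtain ⟨b, s, -, hb⟩ := hm.1.2 1
  rw [(lam_low_qC hι h2 (g := lowHom (sC hι h2)) rfl).2.2] at hb
  have h1 := congrFun hb 1
  have h3 := congrFun hb 2
  rcases eq_or_ne b 1 with rfl | hb1
  · simp [e] at h3
    exact h2 (by simpa using h3)
  · simp [e, Ne.symm hb1] at h1
    exact h2 (by simpa using h1)

end CfsgLib.Geometric.SLFour.Unitary
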