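import Cfsg.Agent.Lib.Geometric.SLFour.UnitaryClose
import Cfsg.Agent.Lib.Geometric.SLFour.Standard
import Cfsg.Agent.Lib.Forms.FiniteField

/-!
The normaliser of a symplectic-type group is maximal in `SU₄(p)`, `p ≡ 3 (mod 4)`.
-/

set_option autoImplicit false
set_option linter.unusedSectionVars false

namespace CfsgLib.Geometric.SLFour.Unitary

open Matrix Cfsg.Geo

variable {F : Type*} [Field F] [Fintype F]

local notation "M₄" => Matrix (Fin 4) (Fin 4) F

/-- The normaliser of a symplectic-type group of isometries is maximal in `SU₄(p)`. -/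
theorem symplecticType_isMaximalIn {q : ℕ} (hF : Fintype.card F = q ^ 2) (p : ℕ)
    (R : Subgroup (Matrix.GeneralLinearGroup (Fin 4) F)) (hp : p.Prime) (hq : q = p) (h4 : p % 4 = 3)
    (hR : Cfsg.Geo.IsSymplecticTypeGroup 2 R)
    (hirr : Cfsg.Geo.ActsAbsolutelyIrreducibly (Cfsg.Geo.matrixSet R)) (hRU : R ≤ Cfsg.GU 4 F q)
    (_hcard : Nat.card R = 64) (hZ : Nat.card (Subgroup.center R) = 4) :
    Cfsg.Geo.IsMaximalIn (Cfsg.GU 4 F q ⊓ Cfsg.Geo.specialLinear (Fin 4) F)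
      (Cfsg.Geo.subgroupNormalizer R ⊓ (Cfsg.GU 4 F q ⊓ Cfsg.Geo.specialLinear (Fin 4) F)) := by
  subst hq
  obtain ⟨σ, hσ⟩ := exists_isConj₂ hp h4 hF
  have h2 := hσ.two_ne_zero
  have hP : CfsgLib.SmallDim.IsPauli R := CfsgLib.PauliFour.isPauli_of_sympType (by simp) hR hirr
  obtain ⟨-, ι, hι⟩ := CfsgLib.PauliFour.scalars_of_card_center hP hZ
  obtain ⟨P, hRP⟩ := exists_conj_stdPauli hP hZ h2
  rw [stdPauli_eq_Rstd hι h2] at hRP
  obtain ⟨Q, hQ⟩ : ∃ Q : M₄, Q = (P : M₄)ᵀ * (P : M₄).map σ := ⟨_, rfl⟩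
  -- the pulled back form commutes with the Pauli group
  have hcomm : ∀ a b : Fin 6, Qᵀ * px ι a b = px ι a b * Qᵀ := by
    intro a b
    obtain ⟨x, hx⟩ : ∃ x, x = pxu hι a b := ⟨_, rfl⟩
    have hxR : x ∈ Rstd hι h2 :=
      ⟨1, a, b, one_pow 4, by rw [hx, coe_pxu, one_smul]⟩
    have hxU : x ∈ Cfsg.GU 4 F q := hx ▸ pxu_mem_GU hσ hι a b
    have hy : P * x * P⁻¹ ∈ Cfsg.GU 4 F q := hRU (hRP ▸ ⟨x, hxR, rfl⟩)
    have hyP : P * x * P⁻¹ * P = P * x := by group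
    have e1 : (((P * x * P⁻¹ * P : GL (Fin 4) F)) : M₄)ᵀ *
        ((P * x * P⁻¹ * P : GL (Fin 4) F) : M₄).map σ = Q := by
      rw [Units.val_mul (P * x * P⁻¹), Matrix.transpose_mul, Matrix.map_mul, mul_assoc,
        ← mul_assoc (((P * x * P⁻¹ : GL (Fin 4) F) : M₄)ᵀ), (mem_GU_iff hσ).1 hy, one_mul, hQ]
    rw [hyP, Units.val_mul, Matrix.transpose_mul, Matrix.map_mul, mul_assoc,
      ← mul_assoc ((P : M₄)ᵀ), ← hQ] at e1
    have e2 : (x : M₄).map σ * (x : M₄)ᵀ = 1 := mul_eq_one_comm.1 ((mem_GU_iff hσ).1 hxU)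
    have e3 : (x : M₄)ᵀ * Q = Q * (x : M₄)ᵀ := by
      calc (x : M₄)ᵀ * Q = (x : M₄)ᵀ * Q * ((x : M₄).map σ * (x : M₄)ᵀ) := by rw [e2, mul_one]
        _ = (x : M₄)ᵀ * (Q * (x : M₄).map σ) * (x : M₄)ᵀ := by simp only [mul_assoc]
        _ = _ := by rw [e1]
    have := congrArg Matrix.transpose e3
    rw [Matrix.transpose_mul, Matrix.transpose_mul, Matrix.transpose_transpose, hx, coe_pxu] at this
    exact this
  obtain ⟨c, hc⟩ : ∃ c, c = Qᵀ 0 0 := ⟨_, rfl⟩
  have hQc : Q = c • 1 := by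
    have := congrArg Matrix.transpose (scalar_of_comm hι h2 hcomm)
    rwa [Matrix.transpose_transpose, Matrix.transpose_smul, Matrix.transpose_one, ← hc] at this
  have hinv : ∀ A : M₄, (A.map σ).map σ = A := fun A => by ext i j; simp [hσ.invol]
  have hσc : σ c = c := by
    have h : Q.map σ = Qᵀ := by
      rw [hQ, Matrix.map_mul, hinv, Matrix.transpose_mul, Matrix.transpose_transpose,
        Matrix.transpose_map]
    rw [hQc] at h
    have := congrFun (congrFun h 0) 0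
    simpa using this
  have hc0 : c ≠ 0 := fun h0 => by
    rw [h0, zero_smul] at hQc
    have hu : IsUnit Q.det := by
      rw [hQ, Matrix.det_mul, Matrix.det_transpose, ← RingHom.mapMatrix_apply σ, ← RingHom.map_det]
      exact (Matrix.isUnits_det_units P).mul ((Matrix.isUnits_det_units P).map σ)
    rw [hQc, Matrix.det_zero] at hu
    exact not_isUnit_zero hu
  obtain ⟨ν, hν⟩ := CfsgLib.Forms.exists_norm_eq σ (fun h => by
    have h' : σ ι = ι := by rw [h]; rfl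
    rw [hσ.map_iota hι] at h'
    exact mul_ne_zero h2 (iota_ne hι) (by linear_combination -h')) hσ.invol c⁻¹ (by rw [map_inv₀, hσc])
  have hν0 : ν ≠ 0 := fun h0 => by simp [h0] at hν; exact hc0 hν.symm
  -- an isometry with the same conjugation
  obtain ⟨P', hP'⟩ : ∃ P' : GL (Fin 4) F, (P' : M₄) = ν • (P : M₄) :=
    ⟨Units.mk0 ν hν0 • P, rfl⟩
  have hP'U : P' ∈ Cfsg.GU 4 F q := by
    rw [mem_GU_iff hσ, hP', Matrix.transpose_smul, Matrix.map_smul' _ _ _ (map_mul σ), Matrix.smul_mul,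
      Matrix.mul_smul, smul_smul, ← hQ, hQc, smul_smul,
      show ν * σ ν * c = 1 by rw [mul_comm ν, hν, inv_mul_cancel₀ hc0], one_smul]
  have hconj : ∀ x : GL (Fin 4) F, MulAut.conj P' x = MulAut.conj P x := fun x => by
    rw [MulAut.conj_apply, MulAut.conj_apply, mul_inv_eq_iff_eq_mul]
    refine Units.ext ?_
    simp only [Units.val_mul, hP', Matrix.smul_mul, Matrix.mul_smul, mul_assoc, Units.inv_mul, mul_one]
  have hRP' : R = (Rstd hι h2).map (MulAut.conj P').toMonoidHom := by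
    rw [hRP]
    exact congrArg (Subgroup.map · _) (MonoidHom.ext fun x => (hconj x).symm)
  have hK : (Cfsg.GU 4 F q ⊓ Cfsg.Geo.specialLinear (Fin 4) F).map (MulAut.conj P').toMonoidHom =
      Cfsg.GU 4 F q ⊓ Cfsg.Geo.specialLinear (Fin 4) F := by
    ext x
    rw [Subgroup.mem_map_equiv, MulAut.conj_symm_apply, mem_SU_iff hσ hι, mem_SU_iff hσ hι,
      Units.val_mul, Units.val_mul, Matrix.det_units_conj']
    refine and_congr_left fun _ => ⟨fun h => ?_, fun h => mul_mem (mul_mem (inv_mem hP'U) h) hP'U⟩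
    simpa [mul_assoc] using mul_mem (mul_mem hP'U h) (inv_mem hP'U)
  have hN : subgroupNormalizer R =
      (subgroupNormalizer (Rstd hι h2)).map (MulAut.conj P').toMonoidHom := by
    rw [hRP']
    exact (Subgroup.map_equiv_normalizer_eq (Rstd hι h2) (MulAut.conj P')).symm
  have e : subgroupNormalizer (Rstd hι h2) ⊓ (Cfsg.GU 4 F q ⊓ Cfsg.Geo.specialLinear (Fin 4) F) =
      NU hι h2 hσ := by
    ext g
    rw [Subgroup.mem_inf, mem_SU_iff hσ hι, mem_NU hσ hι h2]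
    constructor
    · rintro ⟨h1, h3, h4⟩
      exact ⟨(mem_Nstd_iff_normalizer hι h2).2 ⟨h1, h4⟩, h3⟩
    · rintro ⟨h1, h3⟩
      obtain ⟨h1', h4⟩ := (mem_Nstd_iff_normalizer hι h2).1 h1
      exact ⟨h1', h3, h4⟩
  have hmax : IsMaximalIn (Cfsg.GU 4 F q ⊓ Cfsg.Geo.specialLinear (Fin 4) F) (NU hι h2 hσ) :=
    ⟨NU_lt_SU hσ hι h2, fun M hNM hMK => eq_NU_or_eq_SU hσ hι h2 hMK hNM⟩
  have h' := isMaximalIn_map (MulAut.conj P') hmax
  rwa [hK, ← e, Subgroup.map_inf_eq _ _ _ (MulAut.conj P').injective, hK, ← hN] at h'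

end CfsgLib.Geometric.SLFour.Unitary
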