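import Cfsg.Agent.Lib.Geometric.SLFour.Close
import Cfsg.Agent.Lib.Geometric.SLFour.UnitaryLocal

/-!
An overgroup of the unitary monomial group containing the controlled element of order three contains
every special unitary element of the second block.
-/

set_option autoImplicit false
set_option linter.unusedSectionVars false

namespace CfsgLib.Geometric.SLFour.Unitary

open Matrix CfsgLib.SL2 CfsgLib.SL2.Dickson

variable {F : Type*} [Field F] [Fintype F] {p : ℕ} {ι : F}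

local notation "M₄" => Matrix (Fin 4) (Fin 4) F
local notation "M₂" => Matrix (Fin 2) (Fin 2) F
local notation "SL₂" => Matrix.SpecialLinearGroup (Fin 2) F

variable {σ : F →+* F} (hσ : IsConj₂ F p σ) (hι : ι * ι = -1) (h2 : (2 : F) ≠ 0)
include hσ hι h2

/-- Three orthogonal vectors and the real form they span. -/
theorem triadU {p1 p2 w : Fin 6 → F} {n : F} (h11 : p1 ⬝ᵥ p1 = 1) (h22 : p2 ⬝ᵥ p2 = 1)
    (hww : w ⬝ᵥ w = n) (h12 : p1 ⬝ᵥ p2 = 0) (h1w : p1 ⬝ᵥ w = 0) (h2w : p2 ⬝ᵥ w = 0) (hn : n ≠ 0)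
    (hσn : σ n = n) (hp7 : 7 ≤ p)
    {M : Subgroup (GL (Fin 4) F)} (hI : ∃ g ∈ M, (g : M₄) = X ι p1 * Y ι p2)
    {α β : F} (hσα : σ α = α) (hσβ : σ β = β) (hab : β * β + α * α + n = 1) (ha : α ≠ 0)
    (hg : ∃ g ∈ M, (g : M₄) = X ι (α • p1 + β • p2 + w) * Y ι p2)
    (hcase : (2 * β ≠ 0 ∧ (2 * β) ^ 2 ≠ 1 ∧ (2 * β) ^ 2 ≠ 2 ∧ (2 * β) ^ 4 - 3 * (2 * β) ^ 2 + 1 ≠ 0) ∨
      (2 * β) ^ 2 = 4) :
    ∀ a b c : F, σ a = a → σ b = b → σ c = c → b * b + a * a + c * c * n = 1 →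
        ∃ g ∈ M, (g : M₄) = X ι (a • p1 + b • p2 + c • w) * Y ι p2 := by
  have z : ∀ {x y : Fin 6 → F}, x ⬝ᵥ y = 0 → (2 * (x ⬝ᵥ y)) • (1 : M₄) = 0 := fun h => by simp [h]
  have cX : ∀ {x y : Fin 6 → F}, x ⬝ᵥ y = 0 → X ι y * Y ι x = -(X ι x * Y ι y) := fun h =>
    eq_neg_of_add_eq_zero_right ((X_mul_Y_add hι _ _).trans (z h))
  have cY : ∀ {x y : Fin 6 → F}, x ⬝ᵥ y = 0 → Y ι y * X ι x = -(Y ι x * X ι y) := fun h =>
    eq_neg_of_add_eq_zero_right ((Y_mul_X_add hι _ _).trans (z h))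
  obtain ⟨I, hIdef⟩ : ∃ I, I = X ι p1 * Y ι p2 := ⟨_, rfl⟩
  obtain ⟨J, hJdef⟩ : ∃ J, J = X ι p2 * Y ι w := ⟨_, rfl⟩
  have hII : I * I = -1 := by
    rw [hIdef, mul_assoc, ← mul_assoc (Y ι p2), cY h12, Matrix.neg_mul, Matrix.mul_neg,
      mul_assoc (Y ι p1), X_mul_Y hι, h22, one_smul, mul_one, X_mul_Y hι, h11, one_smul]
  have hJJ : J * J = -(n • 1) := by
    rw [hJdef, mul_assoc, ← mul_assoc (Y ι w), cY h2w, Matrix.neg_mul, Matrix.mul_neg,
      mul_assoc (Y ι p2), X_mul_Y hι, hww, Matrix.mul_smul, mul_one, Matrix.mul_smul, X_mul_Y hι, h22,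
      one_smul]
  have hK : I * J = X ι p1 * Y ι w := by
    rw [hIdef, hJdef, mul_assoc, ← mul_assoc (Y ι p2), Y_mul_X hι, h22, one_smul, one_mul]
  have hwp : X ι w * Y ι p2 = -J := by rw [hJdef, cX h2w]
  have hJI : J * I = -(I * J) := by
    rw [hK, hJdef, hIdef, mul_assoc, ← mul_assoc (Y ι w), cY h1w, Matrix.neg_mul, Matrix.mul_neg,
      mul_assoc (Y ι p1), hwp, Matrix.mul_neg, Matrix.mul_neg, neg_neg, ← mul_assoc, cX h12,
      Matrix.neg_mul, ← hIdef, hK, neg_inj]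
  have hι0 : ι ≠ 0 := iota_ne hι
  let f : SL₂ →* GL (Fin 4) F := MonoidHom.toHomUnits
    { toFun := fun B => quadRep ι n I J (B : M₂)
      map_one' := by rw [Matrix.SpecialLinearGroup.coe_one, quadRep_one h2]
      map_mul' := fun A B => by rw [Matrix.SpecialLinearGroup.coe_mul, quadRep_mul hι h2 hn hII hJJ hJI] }
  have hf : ∀ B : SL₂, ((f B : GL (Fin 4) F) : M₄) = quadRep ι n I J (B : M₂) := fun B => rfl
  have hval : ∀ a b c : F, quadRep ι n I J !![b + a * ι, -c; c * n, b - a * ι] =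
      X ι (a • p1 + b • p2 + c • w) * Y ι p2 := by
    intro a b c
    have e1 : -ι * ((b + a * ι - (b - a * ι)) / 2) = a := by
      field_simp; linear_combination (-2 * a) * hι
    have e2 : (-c - n⁻¹ * (c * n)) / 2 = -c := by field_simp; ring
    have e3 : -c + n⁻¹ * (c * n) = 0 := by field_simp; ring
    simp only [X_add, X_smul, add_mul, Matrix.smul_mul, X_mul_Y hι, h22, one_smul, hwp, ← hIdef]
    simp only [quadRep, Matrix.of_apply, Matrix.cons_val_zero, Matrix.cons_val_one, Matrix.cons_val',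
      Matrix.empty_val', Matrix.cons_val_fin_one]
    rw [e1, e2, e3, show (b + a * ι + (b - a * ι)) / 2 = b by field_simp; ring]
    simp [quad4]
    abel
  have hdet : ∀ {a b c : F}, b * b + a * a + c * c * n = 1 →
      (!![b + a * ι, -c; c * n, b - a * ι] : M₂).det = 1 := fun {a b c} h => by
    simp [Matrix.det_fin_two]; linear_combination h - (a * a) * hι
  have hreal : ∀ {a b c : F}, σ a = a → σ b = b → σ c = c → ∀ {B : SL₂},
      (B : M₂) = !![b + a * ι, -c; c * n, b - a * ι] → B ∈ realForm hσ hσn := by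
    intro a b c ha hb hc B hB
    constructor <;> rw [hB] <;> simp [map_add, map_mul, map_neg, ha, hb, hc, hσ.map_iota hι] <;> ring
  obtain ⟨H, hH⟩ : ∃ H, H = M.comap f ⊓ realForm hσ hσn := ⟨_, rfl⟩
  have hmem : ∀ {B : SL₂}, B ∈ realForm hσ hσn → (∃ g ∈ M, (g : M₄) = quadRep ι n I J (B : M₂)) → B ∈ H := by
    rintro B hB ⟨g, hgM, hgv⟩
    rw [hH]
    refine ⟨?_, hB⟩
    show f B ∈ M
    rw [show f B = g from Units.ext ((hf B).trans hgv.symm)]
    exact hgM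
  have dI : (!![ι, 0; 0, -ι] : M₂).det = 1 := by simp [Matrix.det_fin_two]; linear_combination -hι
  have hIH : (⟨_, dI⟩ : SL₂) ∈ H := hmem
    (hreal (a := 1) (b := 0) (c := 0) (map_one σ) (map_zero σ) (map_zero σ) (by simp)) (by
    obtain ⟨g, hgM, hgv⟩ := hI
    refine ⟨g, hgM, hgv.trans ?_⟩
    have := hval 1 0 0
    simp at this
    exact this.symm)
  have hab' : β * β + α * α + 1 * 1 * n = 1 := by linear_combination hab
  have hgH : (⟨_, hdet hab'⟩ : SL₂) ∈ H := hmem (hreal hσα hσβ (map_one σ) rfl) (by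
    obtain ⟨g, hgM, hgv⟩ := hg
    exact ⟨g, hgM, hgv.trans (by rw [hval, one_smul])⟩)
  have htop : H = realForm hσ hσn := by
    refine eq_realForm_of_trace hσ hι (I := ⟨_, dI⟩) rfl hIH (hH ▸ inf_le_right) hp7 hgH
      (a := β + α * ι) (b := -1) (c := 1 * n) (d := β - α * ι) rfl (by simp) (by simpa using hn)
      (fun e => mul_ne_zero (mul_ne_zero h2 ha) hι0 (by linear_combination e)) ?_
    rw [show β + α * ι + (β - α * ι) = 2 * β by ring]
    exact hcase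
  intro a b c ha hb hc h
  let B : SL₂ := ⟨_, hdet h⟩
  have hB : B ∈ H := htop ▸ hreal ha hb hc rfl
  rw [hH] at hB
  exact ⟨f B, hB.1, (hf B).trans (hval a b c)⟩

/-- Two disjoint transpositions of the frame, as a unitary monomial element. -/
lemma exists_swapU (a b c d : Fin 6) (hn : [a, b, c, d].Nodup) :
    ∃ g ∈ NU hι h2 hσ, ∀ w : Fin 6 → F,
      lam ι g w = w - (w a - w b) • (e a - e b) - (w c - w d) • (e c - e d) := by
  have hn' := hn
  simp only [List.nodup_cons, List.mem_cons, not_or, List.not_mem_nil, not_false_iff, and_true,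
    List.nodup_nil] at hn'
  obtain ⟨⟨nab, nac, nad⟩, ⟨nbc, nbd⟩, ncd⟩ := hn'
  refine ⟨_, dbl_mem hσ hι h2 hn nab ncd, fun w => ?_⟩
  have hu : (e a - e b : Fin 6 → F) ⬝ᵥ (e a - e b) = 2 := by
    simp [sub_dotProduct, dotProduct_sub, e_dot, nab, Ne.symm nab]; norm_num
  have hv : (e c - e d : Fin 6 → F) ⬝ᵥ (e c - e d) = 2 := by
    simp [sub_dotProduct, dotProduct_sub, e_dot, ncd, Ne.symm ncd]; norm_num
  have huv : (e a - e b : Fin 6 → F) ⬝ᵥ (e c - e d) = 0 := by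
    simp [sub_dotProduct, dotProduct_sub, e_dot, nac, nad, nbc, nbd]
  have hd : ∀ i j : Fin 6, (e i - e j) ⬝ᵥ w = w i - w j := fun i j => by
    rw [dotProduct_comm, dotProduct_sub, dot_e, dot_e]
  rw [dbl, lam_pr hι h2, hu, hv, huv, hd, hd]
  match_scalars <;> field_simp <;> ring

section Rv

variable {M : Subgroup (GL (Fin 4) F)} (hN : NU hι h2 hσ ≤ M)
include hN

lemma exists_neg_oneU : ∃ g ∈ M, (g : M₄) = -1 :=
  ⟨pxu hι 0 1 * pxu hι 0 1, mul_mem (hN (pxu_mem hσ hι h2 0 1)) (hN (pxu_mem hσ hι h2 0 1)),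
    by rw [Units.val_mul, coe_pxu, px_sq hι (by decide)]⟩

lemma inRvU_e (a : Fin 6) : InRv ι M (e a) :=
  ⟨e_dot_self a, pxu hι a 0, hN (pxu_mem hσ hι h2 a 0), coe_pxu hι a 0⟩

/-- The product of two such vectors lies in the group. -/
lemma inRvU_mul {u v : Fin 6 → F} (hu : InRv ι M u) (hv : InRv ι M v) :
    ∃ g ∈ M, (g : M₄) = X ι u * Y ι v := by
  obtain ⟨-, g, hg, hgu⟩ := hu
  obtain ⟨hv1, k, hk, hkv⟩ := hv
  have hki : ((k⁻¹ : GL (Fin 4) F) : M₄) = X ι (e 0) * Y ι v :=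
    Units.inv_eq_of_mul_eq_one_right (by
      rw [hkv, XY_val_mul hι (e_dot_self 0), X_mul_Y hι, hv1, one_smul])
  exact ⟨g * k⁻¹, mul_mem hg (inv_mem hk), by rw [Units.val_mul, hgu, hki, XY_val_mul hι (e_dot_self 0)]⟩

lemma inRvU_of_mul {u v : Fin 6 → F} (hu : u ⬝ᵥ u = 1) (hv : InRv ι M v)
    (h : ∃ g ∈ M, (g : M₄) = X ι u * Y ι v) : InRv ι M u := by
  obtain ⟨g, hg, hgu⟩ := h
  obtain ⟨hv1, k, hk, hkv⟩ := hv
  exact ⟨hu, g * k, mul_mem hg hk, by rw [Units.val_mul, hgu, hkv, XY_val_mul hι hv1]⟩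

lemma inRvU_reflect {u v : Fin 6 → F} (hu : InRv ι M u) (hv : InRv ι M v) :
    InRv ι M (v - (2 * (u ⬝ᵥ v)) • u) := by
  obtain ⟨m, hm, hmv⟩ := exists_neg_oneU hσ hι h2 hN
  obtain ⟨g, hg, hgv⟩ := inRvU_mul hσ hι h2 hN hu hv
  refine inRvU_of_mul hσ hι h2 hN ?_ hu ⟨m * g, mul_mem hm hg, ?_⟩
  · simp only [sub_dotProduct, dotProduct_sub, smul_dotProduct, dotProduct_smul, hu.1, hv.1,
      dotProduct_comm v u, smul_eq_mul]
    ring
  · rw [Units.val_mul, hmv, hgv, neg_one_mul, sub_eq_add_neg, X_add, X_neg, X_smul, add_mul,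
      Matrix.neg_mul, Matrix.smul_mul, X_mul_Y hι, hu.1, one_smul]
    have := X_mul_Y_add hι u v
    rw [← this]
    abel

lemma inRvU_map {u : Fin 6 → F} (hu : InRv ι M u) {g : GL (Fin 4) F} (hg : g ∈ M)
    (hd : (g : M₄).det = 1) {b : Fin 6} {s : F} (hs : s * s = 1) (h0 : lam ι g (e 0) = s • e b) :
    InRv ι M (lam ι g u) := by
  obtain ⟨hu1, k, hk, hku⟩ := hu
  obtain ⟨m, hm, hmv⟩ := exists_neg_oneU hσ hι h2 hN
  have hconj := conj_XY hι h2 hd u (v := e 0) (by simp)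
  rw [h0, Y_smul, Matrix.mul_smul, ← hku] at hconj
  refine inRvU_of_mul hσ hι h2 hN ((dot_lam hι h2 hd u).trans hu1) (inRvU_e hσ hι h2 hN b) ?_
  rcases mul_self_eq_one_iff.1 hs with rfl | rfl
  · exact ⟨g * k * g⁻¹, mul_mem (mul_mem hg hk) (inv_mem hg), by
      rw [Units.val_mul, Units.val_mul, hconj, one_smul]⟩
  · exact ⟨m * (g * k * g⁻¹), mul_mem hm (mul_mem (mul_mem hg hk) (inv_mem hg)), by
      rw [Units.val_mul, hmv, Units.val_mul, Units.val_mul, hconj, neg_one_smul, neg_mul_neg, one_mul]⟩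

lemma inRvU_flip {u v : Fin 6 → F} (hu : InRv ι M u) (a b : Fin 6) (h : a ≠ b)
    (he : u - (2 * u a) • e a - (2 * u b) • e b = v) : InRv ι M v := by
  obtain ⟨z, s, hs, h0⟩ := (mono_pxu hι h2 a b).2 0
  rw [← he, ← lam_pxu_apply hι h2 h]
  exact inRvU_map hσ hι h2 hN hu (hN (pxu_mem hσ hι h2 a b)) (det_pxu hι a b) hs h0

lemma inRvU_swap {u v : Fin 6 → F} (hu : InRv ι M u) (a b c d : Fin 6) (hn : [a, b, c, d].Nodup)
    (he : u - (u a - u b) • (e a - e b) - (u c - u d) • (e c - e d) = v) : InRv ι M v := by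
  obtain ⟨g, hg, hl⟩ := exists_swapU hσ hι h2 a b c d hn
  obtain ⟨z, s, hs, h0⟩ := hg.1.2 0
  rw [← he, ← hl]
  exact inRvU_map hσ hι h2 hN hu (hN hg) hg.1.1 hs h0

/-- The vector obtained from the controlled element. -/
lemma exists_vectorU (hC : ∃ g ∈ M, (g : M₄) = blk 1 (qC ι)) :
    InRv ι M ![2⁻¹, 0, -(2⁻¹ * 2⁻¹), 2⁻¹ * 2⁻¹, 2⁻¹ * 2⁻¹, -(3 * (2⁻¹ * 2⁻¹))] := by
  obtain ⟨g, hg, hgC⟩ := hC
  obtain ⟨h0, -, h1⟩ := lam_low_qC hι h2 hgC
  have hd : (g : M₄).det = 1 := by rw [hgC, det_blk, Matrix.det_one, det_qC hι h2, one_mul]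
  have hv0 : InRv ι M ![0, -2⁻¹, -2⁻¹, 0, 2⁻¹, 2⁻¹] :=
    h1 ▸ inRvU_map hσ hι h2 hN (inRvU_e hσ hι h2 hN 1) hg hd (one_mul 1) (by rw [h0, one_smul])
  have hh : (2⁻¹ : F) * 2 = 1 := inv_mul_cancel₀ h2
  have hv : InRv ι M ![2⁻¹, 0, 0, 2⁻¹, 2⁻¹, -2⁻¹] := by
    refine inRvU_flip hσ hι h2 hN (inRvU_flip hσ hι h2 hN (inRvU_swap hσ hι h2 hN hv0 0 1 2 3 (by decide)
      (v := ![-2⁻¹, 0, 0, -2⁻¹, 2⁻¹, 2⁻¹]) ?_) 0 3 (by decide)
      (v := ![2⁻¹, 0, 0, 2⁻¹, 2⁻¹, 2⁻¹]) ?_) 5 1 (by decide) ?_ <;>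
    · ext k; fin_cases k <;> simp [e, Matrix.vecHead, Matrix.vecTail] <;> ring
  have hu : InRv ι M ![0, 0, 2⁻¹, 2⁻¹, 2⁻¹, 2⁻¹] := by
    refine inRvU_flip hσ hι h2 hN (inRvU_swap hσ hι h2 hN hv0 1 3 4 5 (by decide)
      (v := ![0, 0, -2⁻¹, -2⁻¹, 2⁻¹, 2⁻¹]) ?_) 2 3 (by decide) ?_ <;>
    · ext k; fin_cases k <;> simp [e, Matrix.vecHead, Matrix.vecTail] <;> ring
  have := inRvU_reflect hσ hι h2 hN hu hv
  convert this using 1
  ext k
  simp only [dotProduct, Fin.sum_univ_six, Pi.sub_apply, Pi.smul_apply, smul_eq_mul]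
  fin_cases k <;> simp <;> field_simp <;> ring_nf
  all_goals exact Or.inl trivial

end Rv

variable {M : Subgroup (GL (Fin 4) F)} (hle : M ≤ Cfsg.GU 4 F p ⊓ Cfsg.Geo.specialLinear (Fin 4) F)
  (hN : NU hι h2 hσ ≤ M)
include hle hN

/-- Conjugation by a block element of the group. -/
lemma conj_low {g : GL (Fin 4) F} (hg : g ∈ M) {A : M₂} {B : SL₂} (hgv : (g : M₄) = blk A (B : M₂))
    {T : SL₂} (hT : T ∈ M.comap (lowHom (F := F))) : B * T * B⁻¹ ∈ M.comap (lowHom (F := F)) := by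
  show lowHom (B * T * B⁻¹) ∈ M
  have he : lowHom (B * T * B⁻¹) = g * lowHom T * g⁻¹ := by
    rw [eq_mul_inv_iff_mul_eq]
    refine Units.ext ?_
    rw [Units.val_mul, Units.val_mul, coe_lowHom, coe_lowHom, hgv, blk_mul, blk_mul, one_mul, mul_one,
      ← Matrix.SpecialLinearGroup.coe_mul, inv_mul_cancel_right]
    rfl
  rw [he]
  exact M.mul_mem (M.mul_mem hg hT) (M.inv_mem hg)

/-- `p = 7`: an element of order seven in the second block. -/
lemma exists_seven (h7 : p = 7) (hC : ∃ g ∈ M, (g : M₄) = blk 1 (qC ι)) :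
    ∃ u ∈ M.comap (lowHom (F := F)), u ≠ 1 ∧ u ^ p = 1 := by
  haveI := hσ.charP
  have c7 : (7 : F) = 0 := by exact_mod_cast (CharP.cast_eq_zero_iff F p 7).2 (by rw [h7])
  have hx := exists_vectorU hσ hι h2 hN hC
  have h4 : (2⁻¹ : F) = 4 := inv_eq_of_mul_eq_one_right (by linear_combination c7)
  rw [h4] at hx
  obtain ⟨w, hw⟩ : ∃ w : Fin 6 → F, w = ![4, 0, -2, 2, 0, 0] := ⟨_, rfl⟩
  have hxd : ![(4 : F), 0, -(4 * 4), 4 * 4, 4 * 4, -(3 * (4 * 4))] =
      (2 : F) • (e 4 : Fin 6 → F) + (1 : F) • e 5 + w := by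
    subst hw
    ext k; fin_cases k <;> simp [e]
    all_goals first
      | linear_combination (2 : F) * c7 | linear_combination (-2 : F) * c7
      | linear_combination (7 : F) * c7 | linear_combination (-7 : F) * c7
  have hww : w ⬝ᵥ w = 3 := by
    subst hw; simp [dotProduct, Fin.sum_univ_six]
    linear_combination (3 : F) * c7
  have hgx := inRvU_mul hσ hι h2 hN hx (inRvU_e hσ hι h2 hN 5)
  rw [hxd] at hgx
  have hdot : ∀ k : Fin 6, (e k : Fin 6 → F) ⬝ᵥ w = w k := fun k => by rw [dotProduct_comm, dot_e]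
  have h3 : (3 : F) ≠ 0 := fun h => one_ne_zero (α := F) (by linear_combination c7 - (2 : F) * h)
  have hsph := triadU hσ hι h2 (p1 := e 4) (p2 := e 5) (w := w) (e_dot_self 4) (e_dot_self 5) hww
    (by simp [e_dot]) (by rw [hdot, hw]; simp) (by rw [hdot, hw]; simp) h3 (map_ofNat σ 3) (by omega)
    ⟨pxu hι 4 5, hN (pxu_mem hσ hι h2 4 5), coe_pxu hι 4 5⟩ (α := 2) (β := 1) (map_ofNat σ 2)
    (map_one σ) (by linear_combination c7) h2 hgx (Or.inr (by norm_num))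
  obtain ⟨k, hk, hkw⟩ := hsph 0 3 3 (map_zero σ) (map_ofNat σ 3) (map_ofNat σ 3)
    (by linear_combination (5 : F) * c7)
  have huv : (0 : F) • (e 4 : Fin 6 → F) + (3 : F) • e 5 + (3 : F) • w = ![5, 0, 1, 6, 0, 3] := by
    subst hw
    ext i; fin_cases i <;> simp [e]
    · linear_combination c7
    · linear_combination (-1 : F) * c7
    · norm_num
  rw [huv] at hkw
  have hu : InRv ι M ![5, 0, 1, 6, 0, 3] := inRvU_of_mul hσ hι h2 hN
    (by simp [dotProduct, Fin.sum_univ_six]; linear_combination (10 : F) * c7)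
    (inRvU_e hσ hι h2 hN 5) ⟨k, hk, hkw⟩
  have hu' : InRv ι M ![0, 5, 1, 0, 6, 3] := inRvU_swap hσ hι h2 hN hu 0 1 3 4 (by decide) (by
    ext i; fin_cases i <;> simp [e, Matrix.vecHead, Matrix.vecTail])
  obtain ⟨g, hg, hgv⟩ := inRvU_mul hσ hι h2 hN hu' (inRvU_e hσ hι h2 hN 2)
  have hgb : (g : M₄) = blk !![(g : M₄) 0 0, (g : M₄) 0 1; (g : M₄) 1 0, (g : M₄) 1 1]
      !![1 - 3 * ι, 5 + 6 * ι; -5 + 6 * ι, 1 + 3 * ι] := by
    have hb := exists_blk hι h2 (g := (g : M₄)) (by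
      rw [hgv, px]
      exact (XY_comm hι (by rw [dot_e]; simp) (by rw [dot_e]; simp) (by simp [e_dot])
        (by simp [e_dot])).symm)
    conv_lhs => rw [hb]
    congr 1
    rw [hgv]
    ext i j
    fin_cases i <;> fin_cases j <;>
      simp [X, Y, skew, dual, coord, e, Matrix.mul_apply, Fin.sum_univ_four] <;>
      first | linear_combination (1 : F) * hι | linear_combination (-1 : F) * hι | ring
  have dB : (!![1 - 3 * ι, 5 + 6 * ι; -5 + 6 * ι, 1 + 3 * ι] : M₂).det = 1 := by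
    simp [Matrix.det_fin_two]; linear_combination (10 : F) * c7 - 45 * hι
  obtain ⟨B, hB⟩ : ∃ B : SL₂, (B : M₂) = !![1 - 3 * ι, 5 + 6 * ι; -5 + 6 * ι, 1 + 3 * ι] :=
    ⟨⟨_, dB⟩, rfl⟩
  rw [← hB] at hgb
  set G1 := M.comap (lowHom (F := F))
  have hnorm : ∀ T ∈ G1, B * T * B⁻¹ ∈ G1 := fun T hT => conj_low hσ hι h2 hle hN hg hgb hT
  have hI : sI hι ∈ G1 := sI_mem hσ hι h2 hle hN
  have hB1 : B ≠ 1 := fun h => by
    have := congrArg (fun x : SL₂ => (x : M₂) 0 0) h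
    simp [hB] at this
    exact this.elim h3 (iota_ne hι)
  have hBp : B ^ p = 1 := by
    refine Subtype.ext ?_
    rw [Matrix.SpecialLinearGroup.coe_pow, hB]
    obtain ⟨N, hN'⟩ : ∃ N : M₂, N = !![-(3 * ι), 5 + 6 * ι; -5 + 6 * ι, 3 * ι] := ⟨_, rfl⟩
    have hNN : N * N = 0 := by
      subst hN'
      ext i j
      fin_cases i <;> fin_cases j <;> simp [Matrix.mul_apply, Fin.sum_univ_two] <;>
        first | linear_combination (45 : F) * hι - (10 : F) * c7 | ring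
    have hpow : ∀ m : ℕ, (1 + N) ^ m = 1 + (m : F) • N := by
      intro m
      induction m with
      | zero => simp
      | succ m ih =>
        rw [pow_succ, ih, add_mul, mul_add, mul_add, one_mul, one_mul, mul_one, Matrix.smul_mul, hNN,
          smul_zero, add_zero, Nat.cast_succ, add_smul, one_smul]
        abel
    have : (!![1 - 3 * ι, 5 + 6 * ι; -5 + 6 * ι, 1 + 3 * ι] : M₂) = 1 + N := by
      subst hN'; ext i j; fin_cases i <;> fin_cases j <;> simp <;> ring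
    rw [this, hpow, CharP.cast_eq_zero, zero_smul, add_zero]
    rfl
  refine ⟨B, ?_, hB1, hBp⟩
  have h33 : (B * sI hι) ^ 3 = 1 := by
    refine Subtype.ext ?_
    rw [Matrix.SpecialLinearGroup.coe_pow, Matrix.SpecialLinearGroup.coe_mul, hB]
    obtain ⟨Q, hQ⟩ : ∃ Q : M₂, Q = !![1 - 3 * ι, 5 + 6 * ι; -5 + 6 * ι, 1 + 3 * ι] * qI ι := ⟨_, rfl⟩
    have hQQ : Q * Q = -Q - 1 := by
      subst hQ
      ext i j
      fin_cases i <;> fin_cases j <;> simp [qI, Matrix.mul_apply, Fin.sum_univ_two] <;> grind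
    show (_ * qI ι) ^ 3 = _
    rw [← hQ, pow_three, hQQ, mul_sub, mul_neg, hQQ, mul_one]
    simp
  have h3G : B ^ 3 ∈ G1 := by
    have e : B ^ 3 = ((B * sI hι * B⁻¹) * (B * (B * sI hι * B⁻¹) * B⁻¹) *
        (B * (B * (B * sI hι * B⁻¹) * B⁻¹) * B⁻¹))⁻¹ := by
      rw [eq_inv_iff_mul_eq_one]
      calc _ = (B ^ 3) * (B * sI hι) ^ 3 * (B ^ 3)⁻¹ := by simp [pow_three]; group
        _ = 1 := by rw [h33, mul_one, mul_inv_cancel]
    rw [e]
    have i1 := hnorm _ hI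
    exact G1.inv_mem (G1.mul_mem (G1.mul_mem i1 (hnorm _ i1)) (hnorm _ (hnorm _ i1)))
  have : B = (B ^ 3) ^ 5 * ((B ^ 7) ^ 2)⁻¹ := by group
  rw [h7] at hBp
  rw [this, hBp, one_pow, inv_one, mul_one]
  exact G1.pow_mem h3G 5

/-- `p ≥ 11`: the circle in the second block. -/
lemma exists_circle (h11 : 11 ≤ p) (hC : ∃ g ∈ M, (g : M₄) = blk 1 (qC ι)) :
    ∃ (B : SL₂) (s : F) (g : GL (Fin 4) F) (A : M₂), orderOf s = p + 1 ∧ g ∈ M ∧
      (g : M₄) = blk A (B : M₂) ∧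
      (B : M₂) = !![(s + s⁻¹) / 2, -((s - s⁻¹) / (2 * ι)); (s - s⁻¹) / (2 * ι), (s + s⁻¹) / 2] := by
  haveI := hσ.charP
  have hh : (2⁻¹ : F) * 2 = 1 := inv_mul_cancel₀ h2
  have hx := exists_vectorU hσ hι h2 hN hC
  obtain ⟨h, hdef⟩ : ∃ h : F, h = 2⁻¹ := ⟨_, rfl⟩
  rw [← hdef] at hx hh
  have hσh : σ h = h := by rw [hdef, hσ.map_inv_two]
  have h0 : h ≠ 0 := fun e0 => by simp [e0] at hh
  have nz : ∀ m : ℕ, 0 < m → m < p → ((m : ℕ) : F) ≠ 0 := fun m hm hm' e0 => by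
    have := Nat.le_of_dvd hm ((CharP.cast_eq_zero_iff F p m).1 e0)
    omega
  have h3 : (3 : F) ≠ 0 := by exact_mod_cast nz 3 (by norm_num) (by omega)
  have h5 : (5 : F) ≠ 0 := by exact_mod_cast nz 5 (by norm_num) (by omega)
  have h7 : (7 : F) ≠ 0 := by exact_mod_cast nz 7 (by norm_num) (by omega)
  obtain ⟨w, hw⟩ : ∃ w : Fin 6 → F, w = ![h, 0, -(h * h), h * h, 0, 0] := ⟨_, rfl⟩
  have hxd : ![h, 0, -(h * h), h * h, h * h, -(3 * (h * h))] =
      (-(3 * (h * h))) • (e 5 : Fin 6 → F) + (h * h) • e 4 + w := by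
    subst hw; ext k; fin_cases k <;> simp [e]
  have hww : w ⬝ᵥ w = 3 * (h * h * h) := by
    subst hw; simp [dotProduct, Fin.sum_univ_six]
    linear_combination (h * h * (h - 1)) * hh
  have hgx := inRvU_mul hσ hι h2 hN hx (inRvU_e hσ hι h2 hN 4)
  rw [hxd] at hgx
  have hab : h * h * (h * h) + -(3 * (h * h)) * -(3 * (h * h)) + 3 * (h * h * h) = 1 := by
    linear_combination ((5 * h + 4) * h * h + 2 * h + 1) * hh
  have e4 : (2 * (h * h)) = h := by linear_combination h * hh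
  have hdot : ∀ k : Fin 6, (e k : Fin 6 → F) ⬝ᵥ w = w k := fun k => by rw [dotProduct_comm, dot_e]
  have hsph := triadU hσ hι h2 (p1 := e 5) (p2 := e 4) (w := w) (e_dot_self 5) (e_dot_self 4) hww
    (by simp [e_dot]) (by rw [hdot, hw]; simp) (by rw [hdot, hw]; simp)
    (mul_ne_zero h3 (mul_ne_zero (mul_ne_zero h0 h0) h0)) (by simp [map_mul, hσh, map_ofNat]) (by omega)
    ⟨pxu hι 5 4, hN (pxu_mem hσ hι h2 5 4), coe_pxu hι 5 4⟩ (α := -(3 * (h * h))) (β := h * h)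
    (by simp [map_mul, hσh, map_ofNat]) (by simp [map_mul, hσh]) hab
    (neg_ne_zero.2 (mul_ne_zero h3 (mul_ne_zero h0 h0))) hgx (Or.inl (by
      rw [e4]
      refine ⟨h0, fun e1 => h3 ?_, fun e1 => h7 ?_, fun e1 => h5 ?_⟩
      · linear_combination -4 * e1 + (h * 2 + 1) * hh
      · linear_combination -4 * e1 + (h * 2 + 1) * hh
      · linear_combination 16 * e1 + ((h * 2) ^ 3 + (h * 2) ^ 2 - 11 * (h * 2) - 11) * (-1 : F) * hh))
  -- an element of order `p + 1`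
  obtain ⟨u, hu⟩ := IsCyclic.exists_generator (α := Fˣ)
  have huo : orderOf u = p ^ 2 - 1 := by
    rw [orderOf_eq_card_of_forall_mem_zpowers hu, Nat.card_units, Nat.card_eq_fintype_card, hσ.card]
  obtain ⟨m, hm⟩ : ∃ m, p = m + 1 := ⟨p - 1, by omega⟩
  have hsq : p ^ 2 - 1 = m * (p + 1) := by
    rw [hm, show (m + 1) ^ 2 = m * (m + 1 + 1) + 1 by ring, Nat.add_sub_cancel]
  obtain ⟨s, hs⟩ : ∃ s : F, s = ((u ^ m : Fˣ) : F) := ⟨_, rfl⟩
  have hso : orderOf s = p + 1 := by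
    rw [hs, orderOf_units, orderOf_pow_of_dvd (by omega) (huo ▸ hsq ▸ dvd_mul_right _ _), huo, hsq,
      Nat.mul_div_cancel_left _ (by omega)]
  have hs0 : s ≠ 0 := by rw [hs]; exact Units.ne_zero _
  have hσs : σ s = s⁻¹ := by
    refine eq_inv_of_mul_eq_one_left ?_
    rw [hσ.frob, ← pow_succ, ← hso, pow_orderOf_eq_one]
  have hσa : σ ((s - s⁻¹) / (2 * ι)) = (s - s⁻¹) / (2 * ι) := by
    rw [map_div₀, map_sub, map_mul, map_inv₀, hσs, inv_inv, map_ofNat, hσ.map_iota hι]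
    field_simp
    ring
  have hσb : σ ((s + s⁻¹) / 2) = (s + s⁻¹) / 2 := by
    rw [map_div₀, map_add, map_inv₀, hσs, inv_inv, map_ofNat, add_comm]
  have hι0 := iota_ne hι
  obtain ⟨g, hg, hgv⟩ := hsph _ _ 0 hσa hσb (map_zero σ) (by
    field_simp
    linear_combination ((s * s + 1) * (s * s + 1)) * hι - (4 : F) * s * s * hι)
  rw [zero_smul, add_zero] at hgv
  obtain ⟨a, ha⟩ : ∃ a, a = (s - s⁻¹) / (2 * ι) := ⟨_, rfl⟩
  obtain ⟨b, hb⟩ : ∃ b, b = (s + s⁻¹) / 2 := ⟨_, rfl⟩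
  rw [← ha, ← hb] at hgv
  have e54 : X ι (e 5) * Y ι (e 4) = blk qW (-qW) := by
    ext i j
    fin_cases i <;> fin_cases j <;>
      simp [X, Y, skew, dual, coord, e, qW, blk, Matrix.mul_apply, Fin.sum_univ_four, hι]
  have hgb : (g : M₄) = blk (b • 1 + a • qW) !![b, -a; a, b] := by
    rw [hgv, X_add, X_smul, X_smul, add_mul, Matrix.smul_mul, Matrix.smul_mul, X_mul_Y hι, e_dot_self,
      one_smul, e54]
    ext i j
    fin_cases i <;> fin_cases j <;> simp [blk, qW, add_comm]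
  have dB : (!![b, -a; a, b] : M₂).det = 1 := by
    simp [Matrix.det_fin_two, ha, hb]
    field_simp
    linear_combination ((s * s + 1) * (s * s + 1)) * hι - (4 : F) * s * s * hι
  exact ⟨⟨_, dB⟩, s, g, _, hso, hg, hgb, by subst ha hb; rfl⟩

/-- The controlled element fills the second block. -/
theorem comap_eq_realForm (hC : ∃ g ∈ M, (g : M₄) = blk 1 (qC ι)) :
    M.comap (lowHom (F := F)) = realForm hσ (map_one σ) := by
  set G1 := M.comap (lowHom (F := F)) with hG1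
  have hG : G1 ≤ realForm hσ (map_one σ) := fun B hB => (lowHom_mem_GU_iff hσ).1 (hle hB).1
  have hI : sI hι ∈ G1 := sI_mem hσ hι h2 hle hN
  have hW : (sW : SL₂) ∈ G1 := sW_mem hσ hι h2 hle hN
  have hCm : sC hι h2 ∈ G1 := by
    obtain ⟨g, hg, hgv⟩ := hC
    show lowHom (sC hι h2) ∈ M
    rwa [show lowHom (sC hι h2) = g from Units.ext ((coe_lowHom _).trans hgv.symm)]
  have hbt := not_borel_torus' (H := G1) (I := sI hι) hι rfl hI h2 (W := sW) rfl hW (C := sC hι h2) rfl hCm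
  rcases top_or_small' hσ (map_one σ) hι (I := sI hι) rfl hI hG hbt.1 hbt.2 with h | h
  · exact h.1
  have hZ := center_le' hι (I := sI hι) rfl hI
  have hmod := hσ.mod_four
  rcases (show p = 3 ∨ p = 7 ∨ 11 ≤ p by omega) with rfl | h7 | h11
  · have hcG : Nat.card G1 = 2 * (zG G1).index := by
      rw [← Subgroup.card_mul_index (zG G1), card_zG hZ, center_card_of_odd h2]
    have hbd := card_realForm_le hσ (map_one σ)
    have hd := Subgroup.card_dvd_of_le hG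
    have hpos : 0 < Nat.card (realForm hσ (map_one σ)) := Nat.card_pos
    refine Subgroup.eq_of_le_of_card_ge hG ?_
    obtain ⟨j, hj⟩ := hd
    rw [hj] at hbd hpos ⊢
    norm_num at hbd
    rcases h with h | h | h <;> rw [hcG, h.1] at hbd hpos ⊢ <;> omega
  · obtain ⟨u, hu, hu1, hup⟩ := exists_seven hσ hι h2 hle hN h7 hC
    exact (h.not_pow_eq_one hσ (by omega) hu hu1 hup hZ).elim
  · exfalso
    obtain ⟨B, s, g, A, hso, hg, hgv, hB⟩ := exists_circle hσ hι h2 hle hN h11 hC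
    have hs0 : s ≠ 0 := fun e0 => by rw [e0, orderOf_zero] at hso; omega
    obtain ⟨a, ha⟩ : ∃ a, a = (s - s⁻¹) / (2 * ι) := ⟨_, rfl⟩
    obtain ⟨b, hb⟩ : ∃ b, b = (s + s⁻¹) / 2 := ⟨_, rfl⟩
    rw [← ha, ← hb] at hB
    have hBI : B * sI hι = sI hι * B⁻¹ := by
      refine Subtype.ext ?_
      rw [Matrix.SpecialLinearGroup.coe_mul, Matrix.SpecialLinearGroup.coe_mul,
        Matrix.SpecialLinearGroup.coe_inv, hB, Matrix.adjugate_fin_two_of]
      show _ * qI ι = qI ι * _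
      ext i j
      fin_cases i <;> fin_cases j <;> simp [qI, Matrix.mul_apply, Fin.sum_univ_two] <;> ring
    have hB2 : B * B ∈ G1 := by
      have e : B * B = B * sI hι * B⁻¹ * (sI hι)⁻¹ := by
        have e' : B = sI hι * B⁻¹ * (sI hι)⁻¹ := by rw [← hBI]; group
        calc B * B = (sI hι * B⁻¹ * (sI hι)⁻¹) * (sI hι * B⁻¹ * (sI hι)⁻¹) := by rw [← e']
          _ = _ := by rw [hBI]; group
      rw [e]
      exact G1.mul_mem (conj_low hσ hι h2 hle hN hg hgv hI) (G1.inv_mem hI)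
    have hWW : (sW : SL₂) * sW = -1 := by
      refine Subtype.ext ?_
      show qW * qW = _
      ext i j
      fin_cases i <;> fin_cases j <;> simp [qW, Matrix.mul_apply, Fin.sum_univ_two]
    have hWB : (sW : SL₂) * (B * B) = B * B * sW := by
      have : (sW : SL₂) * B = B * sW := by
        refine Subtype.ext ?_
        rw [Matrix.SpecialLinearGroup.coe_mul, Matrix.SpecialLinearGroup.coe_mul, hB]
        show qW * _ = _ * qW
        ext i j
        fin_cases i <;> fin_cases j <;> simp [qW, Matrix.mul_apply, Fin.sum_univ_two] <;> ring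
      rw [← mul_assoc, this, mul_assoc, this, mul_assoc]
    have h8 := h.involution_centralizer (a := ⟨sW, hW⟩) (x := ⟨B * B, hB2⟩) (by
      rw [mem_zG]
      show (sW : SL₂) * sW ∈ _
      rw [hWW]
      exact (mem_center_iff _).2 (Or.inr rfl)) (by
      rw [mem_zG]
      intro hc
      have := congrArg (fun x : SL₂ => (x : M₂) 0 1) ((Subgroup.mem_center_iff.1 hc) (sI hι))
      simp only [Matrix.SpecialLinearGroup.coe_mul] at this
      change ((qI ι * qW : M₂) 0 1) = ((qW * qI ι : M₂) 0 1) at this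
      simp [qI, qW, Matrix.mul_apply, Fin.sum_univ_two] at this
      exact mul_ne_zero h2 (iota_ne hι) (by linear_combination this)) (by
      rw [mem_zG]
      show (sW : SL₂) * (B * B) * sW⁻¹ * (B * B)⁻¹ ∈ _
      rw [hWB]
      simp [Subgroup.one_mem])
    rw [mem_zG, Subgroup.coe_pow] at h8
    have eig : ∀ {t : F} {v : Fin 2 → F}, (B : M₂) *ᵥ v = t • v → ∀ m : ℕ,
        ((B ^ m : SL₂) : M₂) *ᵥ v = t ^ m • v := by
      intro t v hv m
      induction m with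
      | zero => simp
      | succ m ih =>
        rw [pow_succ, Matrix.SpecialLinearGroup.coe_mul, ← Matrix.mulVec_mulVec, hv,
          Matrix.mulVec_smul, ih, smul_smul, pow_succ]
        ring_nf
    have hbs : b - a * ι = s⁻¹ := by
      rw [ha, hb]
      have := iota_ne hι
      field_simp
      ring
    have hbs' : b + a * ι = s := by
      rw [ha, hb]
      have := iota_ne hι
      field_simp
      ring
    have v1 : (B : M₂) *ᵥ ![1, ι] = s⁻¹ • ![1, ι] := by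
      rw [hB, ← hbs]
      ext i
      fin_cases i <;> simp [Matrix.mulVec, dotProduct, Fin.sum_univ_two]
      · ring
      · linear_combination a * hι
    have v2 : (B : M₂) *ᵥ ![1, -ι] = s • ![1, -ι] := by
      rw [hB, ← hbs']
      ext i
      fin_cases i <;> simp [Matrix.mulVec, dotProduct, Fin.sum_univ_two]
      linear_combination a * hι
    have e1 := eig v1 8
    have e2 := eig v2 8
    rw [show (B * B) ^ 4 = B ^ 8 by rw [← pow_two, ← pow_mul]] at h8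
    have e1' := congrFun e1 0
    have e2' := congrFun e2 0
    rcases (mem_center_iff _).1 h8 with hz | hz <;> rw [hz] at e1' e2' <;>
      simp [Matrix.mulVec, dotProduct, Fin.sum_univ_two] at e1' e2'
    all_goals
      have h16 : s ^ 16 = 1 := by
        first
          | linear_combination (1 - s ^ 8) * e2'
          | linear_combination (-(1 + s ^ 8)) * e2'
      have hdvd := orderOf_dvd_of_pow_eq_one h16
      rw [hso] at hdvd
      have hle16 := Nat.le_of_dvd (by norm_num) hdvd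
      obtain ⟨j, hj⟩ := hdvd
      have hp15 : p = 15 := by
        rcases j with - | - | j
        · omega
        · omega
        · nlinarith
      have := hσ.prime
      rw [hp15] at this
      norm_num at this

end CfsgLib.Geometric.SLFour.Unitary
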