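import Cfsg.Agent.Lib.Geometric.SLFour.Fusion
import Cfsg.Agent.Lib.Geometric.SLFour.UnitaryBase

/-!
An overgroup of the unitary monomial group modulo scalars, and the theorem that it is monomial once
the elements commuting up to scalars with a product of two frame vectors are.
-/

set_option autoImplicit false
set_option linter.unusedSectionVars false

namespace CfsgLib.Geometric.SLFour.Unitary

open Matrix

variable {F : Type*} [Field F] [Fintype F] {p : ℕ} {ι : F}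

local notation "M₄" => Matrix (Fin 4) (Fin 4) F

variable {M : Subgroup (GL (Fin 4) F)}

variable {σ : F →+* F} (hσ : IsConj₂ F p σ) (hι : ι * ι = -1) (h2 : (2 : F) ≠ 0)
  (hM : M ≤ Cfsg.GU 4 F p ⊓ Cfsg.Geo.specialLinear (Fin 4) F) (hN : NU hι h2 hσ ≤ M)

/-- The image of the monomial group. -/
def NQ (M : Subgroup (GL (Fin 4) F)) : Subgroup (QM M) :=
  ((NU hι h2 hσ).subgroupOf M).map (QuotientGroup.mk' _)

include hM in
lemma det_of_mem_M (g : M) : ((g : (GL (Fin 4) F)) : M₄).det = 1 :=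
  congrArg Units.val (MonoidHom.mem_ker.1 (hM g.2).2)

include hM in
lemma cls_mem_NQ {g : M} : cls g ∈ NQ hσ hι h2 M ↔ (g : (GL (Fin 4) F)) ∈ NU hι h2 hσ := by
  refine ⟨?_, fun h => ⟨g, h, rfl⟩⟩
  rintro ⟨h, hh, he⟩
  obtain ⟨k, -, hk⟩ := smul_of_cls_eq (g := g) (h := h) he.symm
  have hs : ((g * h⁻¹ : M) : (GL (Fin 4) F)) ∈ NU hι h2 hσ := by
    refine ⟨?_, (hM (g * h⁻¹).2).1⟩
    refine mono_of_scalar hι h2 (c := k) (det_of_mem_M hM _) ?_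
    rw [Subgroup.coe_mul, Subgroup.coe_inv, Units.val_mul, hk, Matrix.smul_mul, Units.mul_inv]
  have := mul_mem hs hh
  simpa using this

/-- The monomial group inside `M`. -/
def inM (n : NU hι h2 hσ) : M := ⟨n, hN n.2⟩

/-- The permutation action of the unitary monomial group. -/
noncomputable def piU : NU hι h2 hσ →* Equiv.Perm (Fin 6) :=
  (piStd hι h2).comp (Subgroup.inclusion inf_le_left)

lemma piU_eq (n : NU hι h2 hσ) {a b : Fin 6} {s : F} (hs : s ≠ 0)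
    (h : lam ι (n : GL (Fin 4) F) (e a) = s • e b) : piU hσ hι h2 n a = b :=
  piStd_eq hι h2 ⟨(n : GL (Fin 4) F), n.2.1⟩ hs h

lemma piU_spec (n : NU hι h2 hσ) (a : Fin 6) :
    ∃ s : F, s * s = 1 ∧ lam ι (n : GL (Fin 4) F) (e a) = s • e (piU hσ hι h2 n a) :=
  piStd_spec hι h2 ⟨(n : GL (Fin 4) F), n.2.1⟩ a

/-- The map onto the image. -/
def toNQ : NU hι h2 hσ →* NQ hσ hι h2 M where
  toFun n := ⟨cls (inM hσ hι h2 hN n), inM hσ hι h2 hN n, n.2, rfl⟩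
  map_one' := rfl
  map_mul' _ _ := rfl

lemma toNQ_surjective : Function.Surjective (toNQ hσ hι h2 hN) := by
  rintro ⟨q, g, hg, rfl⟩
  exact ⟨⟨(g : (GL (Fin 4) F)), hg⟩, rfl⟩

lemma ker_toNQ_le : (toNQ hσ hι h2 hN).ker ≤ (piU hσ hι h2).ker := by
  intro n hn
  obtain ⟨k, -, hk⟩ := smul_of_cls_eq (g := inM hσ hι h2 hN n) (h := 1)
    (congrArg Subtype.val (MonoidHom.mem_ker.1 hn))
  have hk' : ((n : (GL (Fin 4) F)) : M₄) = k • 1 := by simpa [inM] using hk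
  obtain ⟨s, hs, hl⟩ := lam_scalar_det hι h2 n.2.1.1 hk'
  exact MonoidHom.mem_ker.2 (Equiv.ext fun a => piU_eq hσ hι h2 n (sign_ne_zero hs) (hl _))

/-- The permutation action of the image. -/
noncomputable def piQ : NQ hσ hι h2 M →* Equiv.Perm (Fin 6) :=
  (toNQ hσ hι h2 hN).liftOfSurjective (toNQ_surjective hσ hι h2 hN)
    ⟨piU hσ hι h2, ker_toNQ_le hσ hι h2 hN⟩

lemma piQ_toNQ (n : NU hι h2 hσ) : piQ hσ hι h2 hN (toNQ hσ hι h2 hN n) = piU hσ hι h2 n :=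
  MonoidHom.liftOfRightInverse_comp_apply _ _ _ _ n

/-- The class of a product of two frame vectors. -/
def xQ (a b : Fin 6) : QM M := cls (inM hσ hι h2 hN ⟨pxu hι a b, pxu_mem hσ hι h2 a b⟩)

lemma coe_inM (n : NU hι h2 hσ) : ((inM hσ hι h2 hN n : M) : (GL (Fin 4) F)) = n := rfl

lemma xQ_mem (a b : Fin 6) : xQ hσ hι h2 hN a b ∈ NQ hσ hι h2 M :=
  (toNQ hσ hι h2 hN ⟨pxu hι a b, pxu_mem hσ hι h2 a b⟩).2

lemma xQ_self (a : Fin 6) : xQ hσ hι h2 hN a a = 1 :=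
  cls_eq_of_smul (h := 1) (k := 1) (by simp [coe_inM, coe_pxu, px_self hι])

lemma xQ_adj (a b c : Fin 6) : xQ hσ hι h2 hN a b * xQ hσ hι h2 hN b c = xQ hσ hι h2 hN a c :=
  cls_eq_of_smul (k := 1) (by
    simp [coe_inM, coe_pxu, px_mul hι])

lemma xQ_symm (a b : Fin 6) : xQ hσ hι h2 hN a b = xQ hσ hι h2 hN b a := by
  rcases eq_or_ne b a with rfl | h
  · rfl
  exact cls_eq_of_smul (k := -1) (by simp [coe_inM, coe_pxu, px_swap hι h])

lemma xQ_sq (a b : Fin 6) : xQ hσ hι h2 hN a b * xQ hσ hι h2 hN a b = 1 := by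
  conv_lhs => arg 2; rw [xQ_symm]
  rw [xQ_adj, xQ_self]

lemma piU_pxu (a b : Fin 6) :
    piU hσ hι h2 ⟨pxu hι a b, pxu_mem hσ hι h2 a b⟩ = 1 :=
  Equiv.ext fun z => piU_eq hσ hι h2 _ (by cases (decide (a ≠ b ∧ (z = a ∨ z = b))) <;> simp [sgnB])
    (lam_pxu' hι h2 a b z)

lemma piQ_xQ (a b : Fin 6) : piQ hσ hι h2 hN ⟨xQ hσ hι h2 hN a b, xQ_mem hσ hι h2 hN a b⟩ = 1 := by
  rw [show (⟨xQ hσ hι h2 hN a b, xQ_mem hσ hι h2 hN a b⟩ : NQ hσ hι h2 M) =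
    toNQ hσ hι h2 hN ⟨pxu hι a b, pxu_mem hσ hι h2 a b⟩ from rfl, piQ_toNQ, piU_pxu]

lemma xQ_conj (n : NQ hσ hι h2 M) (a b : Fin 6) :
    (n : QM M) * xQ hσ hι h2 hN a b * (n : QM M)⁻¹ =
      xQ hσ hι h2 hN (piQ hσ hι h2 hN n a) (piQ hσ hι h2 hN n b) := by
  obtain ⟨m, rfl⟩ := toNQ_surjective hσ hι h2 hN n
  rw [piQ_toNQ]
  obtain ⟨s, -, hs⟩ := Mono.conj_px hι h2 m.2.1 a b
  refine cls_eq_of_smul (g := inM hσ hι h2 hN m * inM hσ hι h2 hN _ * (inM hσ hι h2 hN m)⁻¹) (k := s) ?_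
  simp only [Subgroup.coe_mul, Subgroup.coe_inv, coe_inM, Units.val_mul, coe_pxu]
  exact hs

lemma xQ_commute (a b c d : Fin 6) : Commute (xQ hσ hι h2 hN a b) (xQ hσ hι h2 hN c d) := by
  have h := xQ_conj hσ hι h2 hN ⟨xQ hσ hι h2 hN a b, xQ_mem hσ hι h2 hN a b⟩ c d
  rw [piQ_xQ] at h
  exact mul_inv_eq_iff_eq_mul.1 h

include hM

lemma xQ_ne {a b : Fin 6} (h : a ≠ b) : xQ hσ hι h2 hN a b ≠ 1 := by
  intro he
  obtain ⟨k, -, hk⟩ := smul_of_cls_eq (g := inM hσ hι h2 hN _) (h := 1) he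
  have hk' : ((pxu hι a b : (GL (Fin 4) F)) : M₄) = k • 1 := by simpa [coe_inM] using hk
  obtain ⟨z, hza, hzb⟩ := (show ∀ p q : Fin 6, ∃ l, l ≠ p ∧ l ≠ q by decide) a b
  have h1 := lam_pxu hι h2 h a
  have h3 := lam_pxu hι h2 h z
  rw [lam_scalar hι h2 hk'] at h1 h3
  rw [if_pos (Or.inl rfl)] at h1
  rw [if_neg (by simp [hza, hzb])] at h3
  have e1 := congrFun h1 a
  have e3 := congrFun h3 z
  simp [e] at e1 e3
  exact h2 (by linear_combination e1 - e3)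

lemma xQ_inj {a b c d : Fin 6} (hab : a ≠ b) (he : xQ hσ hι h2 hN a b = xQ hσ hι h2 hN c d) :
    (c = a ∧ d = b) ∨ (c = b ∧ d = a) := by
  classical
  obtain ⟨k, -, hk⟩ := smul_of_cls_eq (g := inM hσ hι h2 hN _) (h := inM hσ hι h2 hN _) he
  simp only [coe_inM] at hk
  have hl : ∀ z, sgnB F (decide (a ≠ b ∧ (z = a ∨ z = b))) =
      (k * k) * sgnB F (decide (c ≠ d ∧ (z = c ∨ z = d))) := fun z => by
    have h1 := lam_of_eq hι h2 hk (e z)
    rw [lam_pxu' hι h2, lam_pxu' hι h2, smul_smul] at h1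
    simpa [e] using congrFun h1 z
  have hm1 : (-1 : F) ≠ 1 := fun h => h2 (by linear_combination -h)
  have hinj : ∀ {s t : Bool}, sgnB F s = sgnB F t → s = t := fun {s t} h => by
    cases s <;> cases t <;> simp [sgnB] at h ⊢ <;> first | exact hm1 h | exact hm1 h.symm
  obtain ⟨u, hu⟩ : ∃ u, k * k = sgnB F u := by
    rcases mul_self_eq_one_iff.1 (show (k * k) * (k * k) = 1 by
      have h1 := congrArg Matrix.det hk
      rw [Matrix.det_smul, det_pxu, det_pxu, Fintype.card_fin, mul_one] at h1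
      linear_combination -h1) with h | h
    · exact ⟨false, h⟩
    · exact ⟨true, h⟩
  refine pair_pattern a b c d u hab fun z => hinj ?_
  rw [← sgnB_mul, ← hu, ← hl z]
  simp [hab]

lemma xQ_mul {a b c d f t : Fin 6} (h : [a, b, c, d, f, t].Nodup) :
    xQ hσ hι h2 hN a b * xQ hσ hι h2 hN c d = xQ hσ hι h2 hN f t := by
  obtain ⟨k, -, hk⟩ := px_six hι h2 h
  exact cls_eq_of_smul (k := k) (by simp [coe_inM, coe_pxu, hk])

lemma xQ_ker (n : NQ hσ hι h2 M) (hn : piQ hσ hι h2 hN n = 1) :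
    ∃ a b, (n : QM M) = xQ hσ hι h2 hN a b := by
  obtain ⟨m, rfl⟩ := toNQ_surjective hσ hι h2 hN n
  rw [piQ_toNQ] at hn
  choose s hs hl using fun z => piU_spec hσ hι h2 m z
  simp only [hn, Equiv.Perm.one_apply] at hl
  obtain ⟨c, a, b, -, hc⟩ := isStd_of_diag hι h2 m.2.1.1 hs hl
  exact ⟨a, b, cls_eq_of_smul (k := c) (by simp [coe_inM, coe_pxu, hc])⟩

lemma exists_lift_dbl {a b c d : Fin 6} (h : [a, b, c, d].Nodup) :
    ∃ n : NQ hσ hι h2 M, piQ hσ hι h2 hN n = Equiv.swap a b * Equiv.swap c d ∧ n * n = 1 := by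
  have hn := h
  simp only [List.nodup_cons, List.mem_cons, not_or, List.not_mem_nil, not_false_iff, and_true,
    List.nodup_nil] at hn
  obtain ⟨⟨hab, -, -⟩, -, hcd⟩ := hn
  refine ⟨toNQ hσ hι h2 hN ⟨dbl hι h2 a b c d hab hcd, dbl_mem hσ hι h2 h hab hcd⟩, ?_, ?_⟩
  · rw [piQ_toNQ]
    exact Equiv.ext fun z => piU_eq hσ hι h2 _ one_ne_zero (by
      rw [one_smul]; exact lam_dbl hι h2 h hab hcd z)
  · obtain ⟨k, hk⟩ := dbl_sq hι h2 h hab hcd
    exact Subtype.ext (cls_eq_of_smul (h := 1) (k := k) hk)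

include hM in
/-- The overgroup modulo scalars with its monomial subgroup. -/
noncomputable def qData : Global.Data (QM M) (NQ hσ hι h2 M) where
  pi := piQ hσ hι h2 hN
  x := xQ hσ hι h2 hN
  x_symm := xQ_symm hσ hι h2 hN
  x_self := xQ_self hσ hι h2 hN
  x_ne _ _ h := xQ_ne hσ hι h2 hM hN h
  x_mem := xQ_mem hσ hι h2 hN
  x_sq := xQ_sq hσ hι h2 hN
  x_commute := xQ_commute hσ hι h2 hN
  x_ker := piQ_xQ hσ hι h2 hN
  x_inj _ _ _ _ h he := xQ_inj hσ hι h2 hM hN h he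
  x_mul _ _ _ _ _ _ h := xQ_mul hσ hι h2 hM hN h
  x_adj a b c _ := xQ_adj hσ hι h2 hN a b c
  ker_eq := xQ_ker hσ hι h2 hM hN
  conj := xQ_conj hσ hι h2 hN
  lift _ _ _ _ h := exists_lift_dbl hσ hι h2 hM hN h

include hN hM

/-- Elements commuting up to scalars with a product being monomial, the overgroup is monomial. -/
theorem eq_NU_of_local [Finite F]
    (hLocal : ∀ a b, a ≠ b → ∀ g ∈ M,
      (∃ k : F, k ≠ 0 ∧ (g : M₄) * px ι a b = k • (px ι a b * (g : M₄))) → g ∈ NU hι h2 hσ) :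
    M = NU hι h2 hσ := by
  set D := qData hσ hι h2 hM hN with hD
  have hl : Global.Local D := by
    intro a b hab q hq
    obtain ⟨g, rfl⟩ := cls_surjective q
    have hc : cls g * xQ hσ hι h2 hN a b = xQ hσ hι h2 hN a b * cls g :=
      (Subgroup.mem_centralizer_singleton_iff.1 hq)
    obtain ⟨k, hk, he⟩ := smul_of_cls_eq (g := g * inM hσ hι h2 hN ⟨pxu hι a b, pxu_mem hσ hι h2 a b⟩)
      (h := inM hσ hι h2 hN ⟨pxu hι a b, pxu_mem hσ hι h2 a b⟩ * g) hc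
    refine (cls_mem_NQ hσ hι h2 hM).2 (hLocal a b hab g g.2 ⟨k, hk, ?_⟩)
    simpa [coe_inM, coe_pxu] using he
  have hf : Global.Fusion D := by
    intro γ a₀ b₀ _ hy
    by_contra hnot
    push Not at hnot
    obtain ⟨a, b, c, d, f, t, p, q, r, s, u, v, hn, hn', n₁, n₂, n₃, m, e₁, e₂, e₃, q₁, q₂, q₃,
      qm, hc, hs⟩ := Global.fusion_setup D hl hy hnot
    obtain ⟨g, rfl⟩ := cls_surjective γ
    obtain ⟨⟨m, hmono⟩, rfl⟩ := toNQ_surjective hσ hι h2 hN m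
    -- the three conjugates as monomial elements
    have key : ∀ (n : NQ hσ hι h2 M) (x y : Fin 6), (n : QM M) = cls g * D.x x y * (cls g)⁻¹ →
        ∃ h : ((g : GL (Fin 4) F) * pxu hι x y * (g : GL (Fin 4) F)⁻¹) ∈ NU hι h2 hσ,
          n = toNQ hσ hι h2 hN ⟨_, h⟩ := by
      intro n x y hn
      have h : ((g * inM hσ hι h2 hN ⟨pxu hι x y, pxu_mem hσ hι h2 x y⟩ * g⁻¹ : M) : GL (Fin 4) F) ∈
          NU hι h2 hσ := (cls_mem_NQ hσ hι h2 hM).1 (by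
        have := n.2
        rw [hn] at this
        exact this)
      exact ⟨h, Subtype.ext hn⟩
    obtain ⟨h₁, rfl⟩ := key n₁ p q e₁
    obtain ⟨h₂, rfl⟩ := key n₂ r s e₂
    obtain ⟨h₃, rfl⟩ := key n₃ u v e₃
    change piQ hσ hι h2 hN _ = _ at q₁ q₂ q₃ qm
    rw [piQ_toNQ] at q₁ q₂ q₃ qm
    -- the two relations up to scalars
    have c1 : cls (inM hσ hι h2 hN ⟨m, hmono⟩ * inM hσ hι h2 hN ⟨_, h₁⟩ * (inM hσ hι h2 hN ⟨m, hmono⟩)⁻¹) =
        cls (inM hσ hι h2 hN ⟨_, h₁⟩) := by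
      simp only [cls_mul, cls_inv]
      exact mul_inv_eq_iff_eq_mul.2 hc
    obtain ⟨k₁, -, hk₁⟩ := smul_of_cls_eq c1
    obtain ⟨k₂, -, hk₂⟩ := smul_of_cls_eq
      (g := inM hσ hι h2 hN ⟨m, hmono⟩ * inM hσ hι h2 hN ⟨_, h₂⟩ * (inM hσ hι h2 hN ⟨m, hmono⟩)⁻¹)
      (h := inM hσ hι h2 hN ⟨_, h₃⟩) hs
    exact fused_false hι h2 hmono.1 hn hn' rfl rfl rfl h₁.1 h₂.1 h₃.1
      (fun z => Equiv.congr_fun q₁ z) (fun z => Equiv.congr_fun q₂ z)
      (fun z => Equiv.congr_fun q₃ z) (fun z => Equiv.congr_fun qm z) hk₁ hk₂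
  have htop := Global.eq_top D hl hf
  refine le_antisymm (fun g hg => ?_) hN
  exact (cls_mem_NQ hσ hι h2 hM (g := ⟨g, hg⟩)).1 (htop ▸ Subgroup.mem_top _)

end CfsgLib.Geometric.SLFour.Unitary
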