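import Cfsg.Agent.Lib.Geometric.SLFour.UnitaryCircle
import Cfsg.Agent.Lib.Geometric.SLFour.UnitaryQuotient
import Cfsg.Agent.Lib.Geometric.SUFour.Decomp
import Cfsg.Agent.Lib.Geometric.Unitary

/-!
The unitary monomial group is maximal in the special unitary group of dimension four.
-/

set_option autoImplicit false
set_option linter.unusedSectionVars false

namespace CfsgLib.Geometric.SLFour.Unitary

open Matrix

variable {F : Type*} [Field F] [Fintype F] {p : ℕ} {ι : F}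

local notation "M₄" => Matrix (Fin 4) (Fin 4) F
local notation "M₂" => Matrix (Fin 2) (Fin 2) F
local notation "SL₂" => Matrix.SpecialLinearGroup (Fin 2) F

variable (F) in
/-- The two coordinate planes. -/
def plane (i : Fin 2) : Submodule F (Fin 4 → F) where
  carrier := {v | ∀ k : Fin 4, k.val / 2 ≠ i.val → v k = 0}
  add_mem' {u v} hu hv k hk := by simp [hu k hk, hv k hk]
  zero_mem' k _ := rfl
  smul_mem' c v hv k hk := by simp [hv k hk]

lemma mem_plane {i : Fin 2} {v : Fin 4 → F} :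
    v ∈ plane F i ↔ ∀ k : Fin 4, k.val / 2 ≠ i.val → v k = 0 := Iff.rfl

lemma plane_isMDecomposition : Cfsg.Geo.IsMDecomposition 2 (plane F) := by
  refine ⟨le_rfl, by norm_num, fun i => ?_, ?_, ?_⟩
  · let e : plane F i ≃ₗ[F] (Fin 2 → F) :=
      { toFun := fun v j => (v : Fin 4 → F) ⟨2 * i.val + j.val, by omega⟩
        map_add' := fun _ _ => rfl
        map_smul' := fun _ _ => rfl
        invFun := fun u => ⟨fun k => if k.val / 2 = i.val then u ⟨k.val % 2, by omega⟩ else 0,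
          fun k hk => if_neg hk⟩
        left_inv := fun v => by
          apply Subtype.ext
          funext k
          show (if _ then _ else _) = _
          split_ifs with h
          · exact congrArg (v : Fin 4 → F) (Fin.ext (show 2 * i.val + k.val % 2 = k.val by omega))
          · exact (v.2 k h).symm
        right_inv := fun u => by
          funext j
          show (if _ then _ else _) = _
          rw [if_pos (show (2 * i.val + j.val) / 2 = i.val by omega)]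
          exact congrArg u (Fin.ext (show (2 * i.val + j.val) % 2 = j.val by omega)) }
    rw [e.finrank_eq, Module.finrank_pi, Fintype.card_fin]
  · rw [iSupIndep_def]
    intro i
    rw [Submodule.disjoint_def]
    intro v hv hv'
    have hsup : v ∈ plane F (1 - i) := by
      refine (iSup₂_le fun j hj => ?_ : (⨆ j, ⨆ _ : j ≠ i, plane F j) ≤ plane F (1 - i)) hv'
      fin_cases i <;> fin_cases j <;> simp_all
    funext k
    by_cases hk : k.val / 2 = i.val
    · exact hsup k (by fin_cases i <;> simp_all <;> omega)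
    · exact hv k hk
  · refine eq_top_iff.2 fun v _ => ?_
    have hs : v = (fun k => if k.val / 2 = 0 then v k else 0) + (fun k => if k.val / 2 = 0 then 0 else v k) := by
      funext k; simp only [Pi.add_apply]; split_ifs <;> simp
    rw [hs]
    refine Submodule.add_mem _ (Submodule.mem_iSup_of_mem 0 fun k hk => ?_)
      (Submodule.mem_iSup_of_mem 1 fun k hk => ?_)
    · exact if_neg hk
    · exact if_pos (by
        have := k.isLt
        simp at hk
        omega)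

lemma plane_nondegenerate {q : ℕ} (hq : q ≠ 0) :
    Cfsg.Geo.IsNondegenerateMDecomposition (Cfsg.hermForm 4 F q) 2 (plane F) := by
  refine ⟨plane_isMDecomposition, fun i v hv hv0 => ?_, fun i j hij u hu v hv => ?_⟩
  · obtain ⟨k, hk⟩ := Function.ne_iff.1 hv0
    have hki : k.val / 2 = i.val := by
      by_contra h
      exact hk (hv k h)
    have hx : (Pi.single k 1 : Fin 4 → F) ∈ plane F i := fun l hl => by
      rw [Pi.single_eq_of_ne (fun e : l = k => hl (e ▸ hki))]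
    refine ⟨⟨_, hx, ?_⟩, ⟨_, hx, ?_⟩⟩
    · rw [Cfsg.hermForm, Finset.sum_eq_single k (fun l _ hl => by simp [hl]) (by simp)]
      simpa using pow_ne_zero q hk
    · rw [Cfsg.hermForm, Finset.sum_eq_single k (fun l _ hl => by simp [hl, hq]) (by simp)]
      simpa using hk
  · show ∑ k, u k * v k ^ q = 0
    refine Finset.sum_eq_zero fun k _ => ?_
    by_cases hk : k.val / 2 = i.val
    · rw [hv k (fun e => hij (Fin.ext (hk.symm.trans e))), zero_pow hq, mul_zero]
    · rw [hu k hk, zero_mul]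

variable {σ : F →+* F} (hσ : IsConj₂ F p σ) (hι : ι * ι = -1) (h2 : (2 : F) ≠ 0)
  {M : Subgroup (GL (Fin 4) F)} (hle : M ≤ Cfsg.GU 4 F p ⊓ Cfsg.Geo.specialLinear (Fin 4) F)
  (hN : NU hι h2 hσ ≤ M) (hC : ∃ g ∈ M, (g : Matrix (Fin 4) (Fin 4) F) = blk 1 (qC ι))
include hσ hι h2 hle hN hC

lemma low_mem {B : SL₂} (hB : B ∈ realForm hσ (map_one σ)) : lowHom B ∈ M := by
  show B ∈ M.comap (lowHom (F := F))
  rw [comap_eq_realForm hσ hι h2 hle hN hC]
  exact hB

/-- Special unitary elements of the first block. -/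
lemma up_mem {B : SL₂} (hB : B ∈ realForm hσ (map_one σ)) :
    ∃ g ∈ M, (g : M₄) = blk (B : M₂) 1 := by
  have hd : ((qZ : M₂) * (B : M₂) * qZ).det = 1 := by
    rw [Matrix.det_mul, Matrix.det_mul, B.2, mul_one, ← Matrix.det_mul, qZ_sq hι h2, Matrix.det_one]
  obtain ⟨B', hB'v⟩ : ∃ B' : SL₂, (B' : M₂) = qZ * (B : M₂) * qZ := ⟨⟨_, hd⟩, rfl⟩
  have hB' : B' ∈ realForm hσ (map_one σ) := by
    obtain ⟨h1, h3⟩ := hB
    constructor <;> rw [hB'v] <;> simp [qZ, Matrix.mul_apply, Matrix.vecMul, dotProduct, Fin.sum_univ_two, h1, h3]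
  refine ⟨pxu hι 0 2 * lowHom B' * (pxu hι 0 2)⁻¹, M.mul_mem (M.mul_mem (hN (pxu_mem hσ hι h2 0 2))
    (low_mem hσ hι h2 hle hN hC hB')) (M.inv_mem (hN (pxu_mem hσ hι h2 0 2))), ?_⟩
  rw [Units.val_mul, Units.val_mul, coe_lowHom, coe_pxu, px02_blk hι, hB'v]
  rw [mul_assoc (blk _ _) (px ι 0 2), ← coe_pxu hι, Units.mul_inv, mul_one, mul_one, qZ_sq hι h2]
  simp only [mul_assoc]
  rw [qZ_sq hι h2, mul_one, ← mul_assoc, qZ_sq hι h2, one_mul]

/-- The diagonal element joining the two planes. -/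
lemma diag_mem {l : F} (hl : σ l = l⁻¹) (hl0 : l ≠ 0) :
    ∃ g ∈ M, (g : M₄) = blk !![1, 0; 0, l] !![1, 0; 0, l⁻¹] := by
  have dT : (!![l, 0; 0, l⁻¹] : M₂).det = 1 := by simp [Matrix.det_fin_two, hl0]
  obtain ⟨T, hTv⟩ : ∃ T : SL₂, (T : M₂) = !![l, 0; 0, l⁻¹] := ⟨⟨_, dT⟩, rfl⟩
  have hT := low_mem hσ hι h2 hle hN hC (mem_realForm_diag hσ (map_one σ) hTv hl)
  have hm := hN (dbl_mem hσ hι h2 (a := 0) (b := 1) (c := 3) (d := 4) (by decide) (by decide) (by decide))
  obtain ⟨m, hm0⟩ : ∃ m, m = dbl hι h2 0 1 3 4 (by decide) (by decide) := ⟨_, rfl⟩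
  rw [← hm0] at hm
  refine ⟨m * lowHom T * m⁻¹, M.mul_mem (M.mul_mem hm hT) (M.inv_mem hm), ?_⟩
  have hmv : (m : M₄) = ι • !![-1, 0, 0, 0; 0, 0, 1, 0; 0, 1, 0, 0; 0, 0, 0, 1] := by
    rw [hm0, dbl, coe_pr]
    ext a b
    fin_cases a <;> fin_cases b <;>
      simp [X, Y, skew, dual, coord, e, Matrix.mul_apply, Fin.sum_univ_four] <;> field_simp <;> ring
  have key : (m : M₄) * ((lowHom T : GL (Fin 4) F) : M₄) =
      blk !![1, 0; 0, l] !![1, 0; 0, l⁻¹] * (m : M₄) := by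
    rw [coe_lowHom, hmv, hTv]
    ext a b
    fin_cases a <;> fin_cases b <;> simp [blk, Matrix.mul_apply, Fin.sum_univ_four] <;> ring
  rw [Units.val_mul, Units.val_mul, key, mul_assoc, Units.mul_inv, mul_one]

/-- Unitary block elements of determinant one. -/
lemma blk_mem {g : GL (Fin 4) F} (hg : g ∈ Cfsg.GU 4 F p) (hd : (g : M₄).det = 1) {A B : M₂}
    (hgv : (g : M₄) = blk A B) : g ∈ M := by
  obtain ⟨hA, hB⟩ := (blk_mem_GU_iff hσ hgv).1 hg
  have hdd : A.det * B.det = 1 := by rw [← det_blk, ← hgv, hd]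
  have hlA : A.det * σ A.det = 1 := by
    have := congrArg Matrix.det hA
    rwa [Matrix.det_mul, Matrix.det_transpose, Matrix.det_one, ← RingHom.mapMatrix_apply σ A,
      ← RingHom.map_det] at this
  obtain ⟨l, hl⟩ : ∃ l, l = A.det := ⟨_, rfl⟩
  rw [← hl] at hlA hdd
  have hl0 : l ≠ 0 := left_ne_zero_of_mul_eq_one hlA
  have hσl : σ l = l⁻¹ := eq_inv_of_mul_eq_one_right hlA
  have dA : ((!![1, 0; 0, l⁻¹] : M₂) * A).det = 1 := by
    rw [Matrix.det_mul, ← hl]; simp [Matrix.det_fin_two, hl0]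
  have dB : ((!![1, 0; 0, l] : M₂) * B).det = 1 := by
    rw [Matrix.det_mul, show (!![1, 0; 0, l] : M₂).det = l by simp [Matrix.det_fin_two]]; exact hdd
  have aux : ∀ {C : M₂} {r : F}, r * σ r = 1 → Cᵀ * C.map σ = 1 →
      ((!![1, 0; 0, r] : M₂) * C)ᵀ * ((!![1, 0; 0, r] : M₂) * C).map σ = 1 := by
    intro C r hr hC'
    rw [Matrix.transpose_mul, Matrix.map_mul, mul_assoc, ← mul_assoc (!![1, 0; 0, r] : M₂)ᵀ,
      show (!![1, 0; 0, r] : M₂)ᵀ * (!![1, 0; 0, r] : M₂).map σ = 1 by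
        ext a b; fin_cases a <;> fin_cases b <;> simp [Matrix.mul_apply, Fin.sum_univ_two, hr],
      one_mul, hC']
  obtain ⟨A', hA'⟩ : ∃ A' : SL₂, (A' : M₂) = (!![1, 0; 0, l⁻¹] : M₂) * A := ⟨⟨_, dA⟩, rfl⟩
  obtain ⟨B', hB'⟩ : ∃ B' : SL₂, (B' : M₂) = (!![1, 0; 0, l] : M₂) * B := ⟨⟨_, dB⟩, rfl⟩
  obtain ⟨u, hu, huv⟩ := up_mem hσ hι h2 hle hN hC (B := A') ((mem_realForm_iff hσ).2
    (hA' ▸ aux (by rw [map_inv₀, hσl, inv_inv, inv_mul_cancel₀ hl0]) hA))
  have hw := low_mem hσ hι h2 hle hN hC (B := B') ((mem_realForm_iff hσ).2 (hB' ▸ aux hlA hB))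
  obtain ⟨d, hdm, hdv⟩ := diag_mem hσ hι h2 hle hN hC hσl hl0
  have e : g = d * u * lowHom B' := by
    refine Units.ext ?_
    rw [Units.val_mul, Units.val_mul, coe_lowHom, hdv, huv, blk_mul, blk_mul, hgv, mul_one, mul_one,
      hA', hB']
    congr 1
    · rw [← mul_assoc, show (!![1, 0; 0, l] : M₂) * !![1, 0; 0, l⁻¹] = 1 by
        ext a b; fin_cases a <;> fin_cases b <;> simp [Matrix.mul_apply, Fin.sum_univ_two, hl0], one_mul]
    · rw [← mul_assoc, show (!![1, 0; 0, l⁻¹] : M₂) * !![1, 0; 0, l] = 1 by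
        ext a b; fin_cases a <;> fin_cases b <;> simp [Matrix.mul_apply, Fin.sum_univ_two, hl0], one_mul]
  rw [e]
  exact M.mul_mem (M.mul_mem hdm hu) hw

lemma stab_le : Cfsg.Geo.decompositionStabilizer (plane F) ⊓
    (Cfsg.GU 4 F p ⊓ Cfsg.Geo.specialLinear (Fin 4) F) ≤ M := by
  rintro g ⟨⟨π, hπ⟩, hg⟩
  obtain ⟨hgU, hgd⟩ := (mem_SU_iff hσ hι).1 hg
  have col : ∀ (i : Fin 2) (k a : Fin 4), k.val / 2 = i.val → a.val / 2 ≠ (π i).val → (g : M₄) a k = 0 := by
    intro i k a hk ha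
    have hx : (Pi.single k 1 : Fin 4 → F) ∈ plane F i := fun l hl => by
      rw [Pi.single_eq_of_ne (fun e : l = k => hl (e ▸ hk))]
    have : Matrix.toLin' (g : M₄) (Pi.single k 1) ∈ plane F (π i) := hπ i ▸ ⟨_, hx, rfl⟩
    have := this a ha
    rwa [Matrix.toLin'_apply, Matrix.mulVec_single_one] at this
  by_cases h0 : π 0 = 0
  · have h1 : π 1 = 1 := by
      have : π 1 ≠ π 0 := fun e => absurd (π.injective e) (by decide)
      omega
    refine blk_mem hσ hι h2 hle hN hC hgU hgd (A := !![(g : M₄) 0 0, (g : M₄) 0 1; (g : M₄) 1 0, (g : M₄) 1 1])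
      (B := !![(g : M₄) 2 2, (g : M₄) 2 3; (g : M₄) 3 2, (g : M₄) 3 3]) ?_
    ext a b
    fin_cases a <;> fin_cases b <;> first | rfl | exact col 0 _ _ rfl (by simp [h0]) | exact col 1 _ _ rfl (by simp [h1])
  · have h0' : π 0 = 1 := by omega
    have h1 : π 1 = 0 := by
      have : π 1 ≠ π 0 := fun e => absurd (π.injective e) (by decide)
      omega
    have hq := pxu_mem hσ hι h2 0 2
    suffices pxu hι 0 2 * g ∈ M by simpa using M.mul_mem (M.inv_mem (hN hq)) this
    have hv : ((pxu hι 0 2 * g : GL (Fin 4) F) : M₄) = px ι 0 2 * (g : M₄) := by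
      rw [Units.val_mul, coe_pxu]
    refine blk_mem hσ hι h2 hle hN hC (mul_mem hq.2 hgU)
      (by rw [hv, Matrix.det_mul, hgd, mul_one, ← coe_pxu hι, det_pxu])
      (A := !![-(g : M₄) 2 0, -(g : M₄) 2 1; (g : M₄) 3 0, (g : M₄) 3 1])
      (B := !![(g : M₄) 0 2, (g : M₄) 0 3; -(g : M₄) 1 2, -(g : M₄) 1 3]) ?_
    have z1 := fun k a hk ha => col 0 k a hk (h0' ▸ ha)
    have z2 := fun k a hk ha => col 1 k a hk (h1 ▸ ha)
    rw [hv, px02 hι]
    ext a b
    fin_cases a <;> fin_cases b <;>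
      simp [blk, Matrix.mul_apply, Fin.sum_univ_four, z1 0 0 (by decide) (by decide),
        z1 0 1 (by decide) (by decide), z1 1 0 (by decide) (by decide), z1 1 1 (by decide) (by decide),
        z2 2 2 (by decide) (by decide), z2 2 3 (by decide) (by decide),
        z2 3 2 (by decide) (by decide), z2 3 3 (by decide) (by decide)]

/-- The monomial group and the controlled element of order three generate. -/
theorem eq_SU_of_qC : M = Cfsg.GU 4 F p ⊓ Cfsg.Geo.specialLinear (Fin 4) F := by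
  classical
  obtain ⟨τ, -, hh⟩ := CfsgLib.Geometric.isUnitaryForm_hermForm (F := F) 4 p hσ.card
  obtain ⟨ζ, hζ, hf⟩ := CfsgLib.Geometric.exists_skewForm_of_unitary hh
  have hI : CfsgLib.Geometric.isom (Cfsg.hermForm 4 F p) = Cfsg.GU 4 F p := rfl
  have hD := plane_nondegenerate (F := F) hσ.prime.ne_zero
  have hD' : Cfsg.Geo.IsNondegenerateMDecomposition (fun u v => ζ * Cfsg.hermForm 4 F p u v) 2 (plane F) := by
    refine ⟨hD.decomp, fun i v hv hv0 => ?_, fun i j hij u hu v hv => ?_⟩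
    · obtain ⟨⟨x, hx, hxv⟩, ⟨y, hy, hvy⟩⟩ := hD.nondegenerate i v hv hv0
      exact ⟨⟨x, hx, mul_ne_zero hζ hxv⟩, ⟨y, hy, mul_ne_zero hζ hvy⟩⟩
    · show ζ * _ = 0
      rw [hD.orthogonal i j hij u hu v hv, mul_zero]
  have h4 : 4 < Nat.card F := by
    rw [Nat.card_eq_fintype_card, hσ.card]
    have := hσ.three_le
    nlinarith
  have hmax := CfsgLib.Geometric.SUFour.planes_isMaximalIn hf hD' (by simp) h4
  unfold CfsgLib.Geometric.Unitary.sisom at hmax
  rw [CfsgLib.Geometric.isom_mul_const hζ, hI] at hmax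
  rcases hmax.2 M (stab_le hσ hι h2 hle hN hC) hle with h | h
  swap
  · exact h
  exfalso
  -- an element of `M` mixing the planes
  obtain ⟨c, hc, hcv⟩ := hC
  have hm := hN (dbl_mem hσ hι h2 (a := 0) (b := 1) (c := 3) (d := 4) (by decide) (by decide) (by decide))
  obtain ⟨m, hm0⟩ : ∃ m, m = dbl hι h2 0 1 3 4 (by decide) (by decide) := ⟨_, rfl⟩
  rw [← hm0] at hm
  have hmv : (m : M₄) = ι • !![-1, 0, 0, 0; 0, 0, 1, 0; 0, 1, 0, 0; 0, 0, 0, 1] := by
    rw [hm0, dbl, coe_pr]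
    ext a b
    fin_cases a <;> fin_cases b <;>
      simp [X, Y, skew, dual, coord, e, Matrix.mul_apply, Fin.sum_univ_four] <;> field_simp <;> ring
  obtain ⟨k, hk⟩ : ∃ k, k = m * c * m⁻¹ := ⟨_, rfl⟩
  have hkM : k ∈ M := hk ▸ M.mul_mem (M.mul_mem hm hc) (M.inv_mem hm)
  rw [h] at hkM
  obtain ⟨π, hπ⟩ := hkM.1
  have hkm : (k : M₄) * (m : M₄) = (m : M₄) * blk 1 (qC ι) := by
    rw [← Units.val_mul, hk, inv_mul_cancel_right, Units.val_mul, hcv]
  have e13 := congrFun (congrFun hkm 1) 3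
  have e33 := congrFun (congrFun hkm 3) 3
  rw [hmv] at e13 e33
  simp [Matrix.mul_apply, Fin.sum_univ_four, blk, qC] at e13 e33
  have hi := iota_ne hι
  have hb : (1 + ι : F) ≠ 0 := fun h => h2 (by linear_combination (1 - ι) * h + hι)
  have hx : (Pi.single 3 1 : Fin 4 → F) ∈ plane F 1 := fun l hl => by
    rw [Pi.single_eq_of_ne (fun e : l = 3 => hl (e ▸ rfl))]
  have hmem : Matrix.toLin' (k : M₄) (Pi.single 3 1) ∈ plane F (π 1) := hπ 1 ▸ ⟨_, hx, rfl⟩
  rw [Matrix.toLin'_apply, Matrix.mulVec_single_one] at hmem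
  rcases (show π 1 = 0 ∨ π 1 = 1 by omega) with h1 | h1 <;> rw [h1] at hmem
  · have h33 : (k : M₄) 3 3 = 0 := hmem 3 (by decide)
    rw [h33] at e33
    grind
  · have h13 : (k : M₄) 1 3 = 0 := hmem 1 (by decide)
    rw [h13] at e13
    grind

omit hC in
/-- The unitary monomial group is maximal. -/
theorem eq_NU_or_eq_SU : M = NU hι h2 hσ ∨ M = Cfsg.GU 4 F p ⊓ Cfsg.Geo.specialLinear (Fin 4) F := by
  rcases local_dichotomy hσ hι h2 hle hN with h | h
  · exact Or.inl (eq_NU_of_local hσ hι h2 hle hN h)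
  · exact Or.inr (eq_SU_of_qC hσ hι h2 hle hN h)

end CfsgLib.Geometric.SLFour.Unitary
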